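import Cfsg.Agent.H3.Generation

set_option autoImplicit false

/-!
# Subgroups of `GU 2` above the homologies of one axis

A subgroup of `GU 2` which contains the homologies with one coordinate axis and a non-monomial element is
the whole group.
-/

namespace Cfsg.Agent.H3

open Matrix

variable {F : Type*} [Field F] [Fintype F] {q : ℕ}

/-- The two-by-two form. -/
theorem hermForm_two {F : Type*} [Field F] {q : ℕ} (u v : Fin 2 → F) :
    hermForm 2 F q u v = u 0 * v 0 ^ q + u 1 * v 1 ^ q := by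
  simp [hermForm, Fin.sum_univ_two]

/-- An additive subgroup with many elements of the shape `c (2 - μ - μ ^ q)` contains `c` times the fixed field. -/
theorem fixed_of_trace_values (hF : Fintype.card F = q ^ 2) {c : F} (hc : c ≠ 0) (hcq : c ^ q = c)
    (R : AddSubgroup F) (h : ∀ μ : F, μ ^ (q + 1) = 1 → c * (2 - μ - μ ^ q) ∈ R)
    {r : F} (hr : r ^ q = r) : r ∈ R := by
  classical
  let K : AddSubgroup F := (conjQ hF).toAddMonoidHom.eqLocus (AddMonoidHom.id F)
  have hKmem : ∀ x, x ∈ K ↔ x ^ q = x := fun x => Iff.rfl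
  have hKcard : Nat.card K = q := by
    rw [← card_fixed hF]
    exact Nat.card_congr (Equiv.subtypeEquivRight hKmem)
  let R' : AddSubgroup F := R.comap (AddMonoidHom.mulLeft c) ⊓ K
  have hR'K : R' ≤ K := inf_le_right
  have hdvd : Nat.card R' ∣ q := hKcard ▸ AddSubgroup.card_dvd_of_le hR'K
  let N : Finset F := Finset.univ.filter fun μ => μ ^ (q + 1) = 1
  have hN : N.card = q + 1 := by
    rw [← Fintype.card_subtype, ← Nat.card_eq_fintype_card]
    exact card_norm_eq hF one_ne_zero (one_pow q)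
  let s : F → F := fun μ => 2 - μ - μ ^ q
  have hsub : N.image s ⊆ (R' : Set F).toFinset := by
    intro x hx
    obtain ⟨μ, hμ, rfl⟩ := Finset.mem_image.mp hx
    rw [Finset.mem_filter] at hμ
    rw [Set.mem_toFinset]
    refine ⟨h μ hμ.2, (hKmem _).2 ?_⟩
    rw [← conjQ_apply hF, map_sub, map_sub, map_ofNat, conjQ_apply, conjQ_apply, pow_q_pow_q hF]
    ring
  have hfib : N.card ≤ 2 * (N.image s).card := by
    refine Finset.card_le_mul_card_image _ 2 fun b hb => ?_
    obtain ⟨μ, hμ, rfl⟩ := Finset.mem_image.mp hb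
    rw [Finset.mem_filter] at hμ
    refine le_trans (Finset.card_le_card (t := {μ, μ ^ q}) fun ν hν => ?_) Finset.card_le_two
    simp only [Finset.mem_filter, s, N] at hν
    have h1 : μ * μ ^ q = 1 := by rw [← pow_succ']; exact hμ.2
    have h2 : ν * ν ^ q = 1 := by rw [← pow_succ']; exact hν.1.2
    have h3 : (ν - μ) * (ν - μ ^ q) = 0 := by linear_combination (-ν) * hν.2 + h1 - h2
    rcases mul_eq_zero.mp h3 with h4 | h4 <;> simp [sub_eq_zero.mp h4]
  have hlarge : q + 1 ≤ 2 * Nat.card R' := by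
    have h1 : (N.image s).card ≤ Nat.card R' := by
      refine (Finset.card_le_card hsub).trans (le_of_eq ?_)
      rw [Set.toFinset_card, Nat.card_eq_fintype_card]
      rfl
    omega
  obtain ⟨m, hm⟩ := hdvd
  have hm1 : m = 1 := by
    rcases m with _ | _ | m
    · have := two_le_q hF; omega
    · rfl
    · nlinarith
  have heq : R' = K := AddSubgroup.eq_of_le_of_card_ge hR'K (by rw [hKcard]; subst hm1; omega)
  have hrc : c⁻¹ * r ∈ R' := by
    rw [heq, hKmem, mul_pow, inv_pow, hcq, hr]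
  have := hrc.1
  change c * (c⁻¹ * r) ∈ R at this
  rwa [← mul_assoc, mul_inv_cancel₀ hc, one_mul] at this

set_option maxHeartbeats 800000 in
/-- A subgroup above the homologies of one axis and not fixing it has an element of order the characteristic. -/
theorem gu_two_exists_unipotent (hF : Fintype.card F = q ^ 2) (G : Subgroup (GU 2 F q))
    (hdiag : ∀ (a : F) (ha : ∀ i : Fin 2, (![a, 1] i : F) ^ (q + 1) = 1), guDiag ![a, 1] ha ∈ G)
    {g : GU 2 F q} (hgG : g ∈ G)
    (hg : ∀ i, ((g.1 : Matrix (Fin 2) (Fin 2) F) *ᵥ Pi.single 0 1) i ≠ 0) {p : ℕ} [CharP F p] [Fact p.Prime]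
    {k : ℕ} (hk : 1 ≤ k) (hqp : q = p ^ k) : ∃ u ∈ G, u ≠ 1 ∧ u ^ p = 1 := by
  classical
  have hp : p.Prime := Fact.out
  have hq2 := two_le_q hF
  set α := ((g.1 : Matrix (Fin 2) (Fin 2) F) *ᵥ Pi.single 0 1) 0 with hαdef
  set β := ((g.1 : Matrix (Fin 2) (Fin 2) F) *ᵥ Pi.single 0 1) 1 with hβdef
  have hα0 : α ≠ 0 := hg 0
  have hβ0 : β ≠ 0 := hg 1
  -- diagonal elements
  let N1 := (powMonoidHom (q + 1) : Fˣ →* Fˣ).ker
  have hN1 : ∀ a : N1, ((a : Fˣ) : F) ^ (q + 1) = 1 := fun a => by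
    have := a.2
    rw [MonoidHom.mem_ker, powMonoidHom_apply] at this
    rw [← Units.val_pow_eq_pow_val, this, Units.val_one]
  have hunit : ∀ a : F, a ^ (q + 1) = 1 → ∃ x : N1, ((x : Fˣ) : F) = a := fun a ha => by
    have ha0 : a ≠ 0 := fun h0 => by rw [h0, zero_pow (by omega)] at ha; exact zero_ne_one ha
    exact ⟨⟨Units.mk0 a ha0, Units.ext (by simpa using ha)⟩, rfl⟩
  let δ : N1 × N1 →* GU 2 F q :=
    { toFun := fun a => guDiag ![((a.1 : Fˣ) : F), ((a.2 : Fˣ) : F)] fun i => by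
        fin_cases i
        · exact hN1 a.1
        · exact hN1 a.2
      map_one' := by
        refine Subtype.ext (Units.ext ?_)
        ext i j; fin_cases i <;> fin_cases j <;> simp [guDiag]
      map_mul' := fun a b => by
        refine Subtype.ext (Units.ext ?_)
        ext i j; fin_cases i <;> fin_cases j <;> simp [guDiag, Matrix.diagonal_mul_diagonal] }
  have hδ : ∀ (a : N1 × N1) (x : Fin 2 → F),
      ((δ a).1 : Matrix (Fin 2) (Fin 2) F) *ᵥ x = ![((a.1 : Fˣ) : F) * x 0, ((a.2 : Fˣ) : F) * x 1] := by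
    intro a x
    ext i; fin_cases i <;> simp [δ, guDiag, Matrix.mulVec_diagonal]
  have hδinj : Function.Injective δ := by
    intro a b hab
    have h1 := congrArg (fun y : GU 2 F q => (y.1 : Matrix (Fin 2) (Fin 2) F) *ᵥ ![1, 1]) hab
    simp only [hδ] at h1
    exact Prod.ext (Subtype.ext (Units.ext (by simpa using congrFun h1 0)))
      (Subtype.ext (Units.ext (by simpa using congrFun h1 1)))
  have hδG : ∀ a : N1, δ (a, 1) ∈ G := fun a => by
    convert hdiag ((a : Fˣ) : F) (fun i => by fin_cases i <;> simp [hN1]) using 1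
    exact Subtype.ext (Units.ext (by simp [δ, guDiag]))
  -- adjoin the scalars
  let sc : N1 →* GU 2 F q := δ.comp ((MonoidHom.id N1).prod (MonoidHom.id N1))
  have hsc : ∀ (z : N1) (y : GU 2 F q), sc z * y = y * sc z := fun z y => by
    refine GU_ext fun x => ?_
    have e : ∀ v, ((sc z).1 : Matrix (Fin 2) (Fin 2) F) *ᵥ v = ((z : Fˣ) : F) • v := fun v => by
      change ((δ (z, z)).1 : Matrix (Fin 2) (Fin 2) F) *ᵥ v = _
      rw [hδ]; ext i; fin_cases i <;> simp
    rw [mul_mulVec_GU, mul_mulVec_GU, e, e, Matrix.mulVec_smul]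
  haveI : sc.range.Normal := ⟨fun y hy x => by
    obtain ⟨z, rfl⟩ := hy
    rw [← hsc, mul_inv_cancel_right]
    exact ⟨z, rfl⟩⟩
  set G' := G ⊔ sc.range with hG'
  have hTG' : δ.range ≤ G' := by
    rintro _ ⟨⟨a, b⟩, rfl⟩
    have : δ (a, b) = δ (a * b⁻¹, 1) * sc b := by
      change δ (a, b) = δ (a * b⁻¹, 1) * δ (b, b)
      rw [← map_mul]; simp
    rw [this]
    exact mul_mem (Subgroup.mem_sup_left (hδG _)) (Subgroup.mem_sup_right ⟨b, rfl⟩)
  have hTcard : Nat.card δ.range = (q + 1) * (q + 1) := by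
    rw [← Nat.card_congr (MonoidHom.ofInjective hδinj).toEquiv, Nat.card_prod, card_norm_one_units hF]
  -- many cosets
  set J := δ.range.relIndex G' with hJ
  have hmul : Nat.card G' = (q + 1) * (q + 1) * J := by
    rw [← hTcard, hJ, Subgroup.relIndex, ← (δ.range.subgroupOf G').card_mul_index]
    rw [Nat.card_congr (Subgroup.subgroupOfEquivOfLe hTG').toEquiv]
  have hdvd : J ∣ q * (q - 1) := by
    have h1 := Subgroup.card_subgroup_dvd_card G'
    rw [hmul, card_GU hF] at h1
    simp only [Finset.prod_range_succ, Finset.range_zero, Finset.prod_empty, one_mul] at h1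
    norm_num at h1
    have h2 : q ^ 2 - 1 = (q + 1) * (q - 1) := by
      rcases q with _ | m
      · simp
      · rw [Nat.add_sub_cancel]; ring_nf; omega
    rw [show q * ((q + 1) * (q ^ 2 - 1)) = (q + 1) * (q + 1) * (q * (q - 1)) by rw [h2]; ring] at h1
    exact Nat.dvd_of_mul_dvd_mul_left (by positivity) h1
  have hge : q + 2 ≤ J := by
    let T' := δ.range.subgroupOf G'
    let φ : Option N1 → G' ⧸ T' := fun o => match o with
      | none => QuotientGroup.mk 1
      | some a => QuotientGroup.mk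
          ⟨δ (a, 1) * g, mul_mem (Subgroup.mem_sup_left (hδG a)) (Subgroup.mem_sup_left hgG)⟩
    have haxis : ∀ y ∈ δ.range, ∃ c : F,
        ((y : GU 2 F q).1 : Matrix (Fin 2) (Fin 2) F) *ᵥ Pi.single 0 1 = c • Pi.single 0 1 := by
      rintro _ ⟨a, rfl⟩
      refine ⟨((a.1 : Fˣ) : F), ?_⟩
      rw [hδ]
      ext i; fin_cases i <;> simp
    have hinj : Function.Injective φ := by
      intro o o' hoo
      have hnone : ∀ a : N1, δ (a, 1) * g ∉ δ.range := fun a hmem => by
        obtain ⟨c, hc⟩ := haxis _ hmem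
        have h1 := congrFun hc 1
        rw [mul_mulVec_GU, hδ] at h1
        simp [← hβdef, hβ0] at h1
      rcases o with _ | a <;> rcases o' with _ | b
      · rfl
      · exfalso
        have := QuotientGroup.eq.mp hoo
        rw [Subgroup.mem_subgroupOf, Subgroup.coe_mul, InvMemClass.coe_inv, OneMemClass.coe_one, inv_one,
          one_mul] at this
        exact hnone b this
      · exfalso
        have := QuotientGroup.eq.mp hoo.symm
        rw [Subgroup.mem_subgroupOf, Subgroup.coe_mul, InvMemClass.coe_inv, OneMemClass.coe_one, inv_one,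
          one_mul] at this
        exact hnone a this
      · have hmem := QuotientGroup.eq.mp hoo
        rw [Subgroup.mem_subgroupOf, Subgroup.coe_mul, InvMemClass.coe_inv] at hmem
        obtain ⟨t, ht⟩ : ∃ t, t = (δ (a, 1) * g)⁻¹ * (δ (b, 1) * g) := ⟨_, rfl⟩
        have hprod : δ (a, 1) * g * t = δ (b, 1) * g := by rw [ht]; exact mul_inv_cancel_left _ _
        obtain ⟨c, hc⟩ : ∃ c : F, (t.1 : Matrix (Fin 2) (Fin 2) F) *ᵥ Pi.single 0 1 = c • Pi.single 0 1 :=
          haxis t (ht ▸ hmem)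
        have h1 := congrArg (fun y : GU 2 F q => (y.1 : Matrix (Fin 2) (Fin 2) F) *ᵥ Pi.single 0 1) hprod
        simp only [mul_mulVec_GU] at h1
        rw [hc, Matrix.mulVec_smul, Matrix.mulVec_smul, hδ, hδ, ← hαdef, ← hβdef] at h1
        have h11 : c * (((1 : N1) : Fˣ) : F) * β = (((1 : N1) : Fˣ) : F) * β := by
          have := congrFun h1 1
          rw [Pi.smul_apply] at this
          simpa [mul_assoc] using this
        have h10 : c * ((a : Fˣ) : F) * α = ((b : Fˣ) : F) * α := by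
          have := congrFun h1 0
          rw [Pi.smul_apply] at this
          simpa [mul_assoc] using this
        have hc1 : c = 1 := by
          have := mul_right_cancel₀ hβ0 h11
          simpa using this
        rw [hc1, one_mul] at h10
        exact congrArg some (Subtype.ext (Units.ext (mul_right_cancel₀ hα0 h10)))
    have := Nat.card_le_card_of_injective φ hinj
    rw [Finite.card_option, card_norm_one_units hF] at this
    rw [hJ, Subgroup.relIndex, Subgroup.index_eq_card]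
    exact this
  have hpJ : p ∣ J := by
    by_contra hnd
    have hco : Nat.Coprime J q := by
      rw [hqp]; exact Nat.Coprime.pow_right k ((Nat.Prime.coprime_iff_not_dvd hp).mpr hnd).symm
    have := Nat.le_of_dvd (by omega) (hco.dvd_of_dvd_mul_left hdvd)
    omega
  have hpG' : p ∣ Nat.card G' := by rw [hmul]; exact Dvd.dvd.mul_left hpJ _
  obtain ⟨⟨u, huG'⟩, huord⟩ := exists_prime_orderOf_dvd_card' p hpG'
  rw [Subgroup.orderOf_mk] at huord
  have hup : u ^ p = 1 := huord ▸ pow_orderOf_eq_one u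
  have huG : u ∈ G := by
    obtain ⟨h, hh, _, ⟨z, rfl⟩, hhz⟩ := Subgroup.mem_sup_of_normal_right.mp huG'
    have e1 : u ^ (q + 1) = u := by
      obtain ⟨m, hm⟩ : p ∣ q := hqp ▸ dvd_pow_self p (by omega)
      rw [pow_succ, show u ^ q = u ^ (p * m) from congrArg (fun e => u ^ e) hm, pow_mul, hup, one_pow, one_mul]
    have hz : z ^ (q + 1) = 1 := Subtype.ext (by
      have := z.2
      rwa [MonoidHom.mem_ker, powMonoidHom_apply] at this)
    rw [← e1, ← hhz, (Commute.mul_pow (show Commute h (sc z) from (hsc z h).symm) _), ← map_pow, hz, map_one,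
      mul_one]
    exact pow_mem hh _
  have hu1 : u ≠ 1 := fun h1 => by rw [h1, orderOf_one] at huord; exact hp.one_lt.ne huord
  exact ⟨u, huG, hu1, hup⟩

/-- Elements of order the characteristic in `GU 2` are transvections. -/
theorem gu_two_unipotent (hF : Fintype.card F = q ^ 2) {p : ℕ} [CharP F p] [Fact p.Prime] {u : GU 2 F q}
    (hu1 : u ≠ 1) (hup : u ^ p = 1) : ∃ (ν a : F), ν * ν ^ q = -1 ∧ a ≠ 0 ∧
      ∀ x, (u.1 : Matrix (Fin 2) (Fin 2) F) *ᵥ x = x + (a * hermForm 2 F q x ![1, ν]) • ![1, ν] := by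
  classical
  have hq2 := two_le_q hF
  set U := (u.1 : Matrix (Fin 2) (Fin 2) F) with hU
  have hUp : U ^ p = 1 := by
    rw [hU, ← Units.val_pow_eq_pow_val, ← SubgroupClass.coe_pow, hup]; rfl
  have hdet : (U - 1).det = 0 := by
    have : (U - 1) ^ p = 0 := by rw [sub_pow_char_of_commute p (Commute.one_right U), hUp, one_pow, sub_self]
    have h := congrArg Matrix.det this
    rw [Matrix.det_pow, Matrix.det_zero] at h
    exact eq_zero_of_pow_eq_zero h
  obtain ⟨z, hz0, hz⟩ := Matrix.exists_mulVec_eq_zero_iff.mpr hdet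
  have hUz : U *ᵥ z = z := by rw [Matrix.sub_mulVec, Matrix.one_mulVec, sub_eq_zero] at hz; exact hz
  have hzz : hermForm 2 F q z z = 0 := by
    by_contra hne
    set w : Fin 2 → F := ![-(z 1 ^ q), z 0 ^ q] with hw
    have hwz : hermForm 2 F q w z = 0 := by rw [hermForm_two]; simp [hw]; ring
    have hUwz : hermForm 2 F q (U *ᵥ w) z = 0 := by
      conv_lhs => rw [← hUz]
      exact (GU_preserves u w z).trans hwz
    have hzq : z 0 ≠ 0 ∨ z 1 ≠ 0 := by
      by_contra hc
      push Not at hc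
      exact hz0 (funext fun i => by fin_cases i <;> simp [hc.1, hc.2])
    rw [hermForm_two] at hUwz hne
    obtain ⟨a, ha⟩ : ∃ a : F, U *ᵥ w = a • w := by
      generalize U *ᵥ w = y at hUwz ⊢
      rcases hzq with h0 | h0
      · refine ⟨y 1 / z 0 ^ q, ?_⟩
        ext i; fin_cases i
        · simp [hw]; field_simp; linear_combination hUwz
        · simp [hw, h0]
      · refine ⟨-(y 0 / z 1 ^ q), ?_⟩
        ext i; fin_cases i
        · simp [hw, h0]
        · simp [hw]; field_simp; linear_combination hUwz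
    have hpow : ∀ j : ℕ, (U ^ j) *ᵥ w = a ^ j • w := by
      intro j
      induction j with
      | zero => simp
      | succ j ih => rw [pow_succ, ← Matrix.mulVec_mulVec, ha, Matrix.mulVec_smul, ih, smul_smul, pow_succ']
    have hap := hpow p
    rw [hUp, Matrix.one_mulVec] at hap
    have ha1 : a = 1 := by
      have hw0 : ∃ i, w i ≠ 0 := by
        rcases hzq with h0 | h0
        · exact ⟨1, by simp [hw, h0]⟩
        · exact ⟨0, by simp [hw, h0]⟩
      obtain ⟨i, hi⟩ := hw0
      have h1 := congrFun hap i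
      simp only [Pi.smul_apply, smul_eq_mul] at h1
      have h2 : a ^ p = 1 := mul_right_cancel₀ hi (by rw [one_mul]; exact h1.symm)
      have h3 : (a - 1) ^ p = 0 := by rw [sub_pow_char, h2, one_pow, sub_self]
      exact sub_eq_zero.mp (eq_zero_of_pow_eq_zero h3)
    refine hu1 (GU_ext fun x => ?_)
    rw [OneMemClass.coe_one, Units.val_one, Matrix.one_mulVec]
    have hUw : U *ᵥ w = w := by rw [ha, ha1, one_smul]
    have hD : z 0 * z 0 ^ q + z 1 * z 1 ^ q ≠ 0 := hne
    have hx : x = (hermForm 2 F q x z / (z 0 * z 0 ^ q + z 1 * z 1 ^ q)) • z +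
        ((x 1 * z 0 - x 0 * z 1) / (z 0 * z 0 ^ q + z 1 * z 1 ^ q)) • w := by
      ext i; fin_cases i <;> simp [hermForm_two, hw]
      · linear_combination -(x 0) * mul_inv_cancel₀ hD
      · linear_combination -(x 1) * mul_inv_cancel₀ hD
    rw [hx, Matrix.mulVec_add, Matrix.mulVec_smul, Matrix.mulVec_smul, hUz, hUw]
  rw [hermForm_two] at hzz
  have hz0' : z 0 ≠ 0 := fun h0 => by
    rw [h0, zero_mul, zero_add, ← pow_succ'] at hzz
    exact hz0 (funext fun i => by fin_cases i <;> simp [h0, eq_zero_of_pow_eq_zero hzz])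
  set ν := z 1 / z 0 with hνdef
  set z₁ : Fin 2 → F := ![1, ν] with hz₁
  have hν : ν * ν ^ q = -1 := by
    rw [hνdef, div_pow, div_mul_div_comm, div_eq_iff (mul_ne_zero hz0' (pow_ne_zero q hz0'))]
    linear_combination hzz
  have hUz₁ : U *ᵥ z₁ = z₁ := by
    have : z₁ = (z 0)⁻¹ • z := by
      ext i; fin_cases i <;> simp [hz₁, hνdef, div_eq_inv_mul, hz0']
    rw [this, Matrix.mulVec_smul, hUz]
  have hsingle : (Pi.single 0 1 : Fin 2 → F) = ![1, 0] := by ext i; fin_cases i <;> simp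
  obtain ⟨c, hcdef⟩ : ∃ c, U *ᵥ ![1, 0] = c := ⟨_, rfl⟩
  set a := c 0 - 1 with hadef
  clear_value ν
  have hν0 : ν ≠ 0 := fun h0 => by simp [h0] at hν
  have hcol : U *ᵥ ![1, 0] = ![1, 0] + a • z₁ := by
    have h1 : hermForm 2 F q c z₁ = hermForm 2 F q ![1, 0] z₁ := by
      rw [← hcdef]
      conv_lhs => rw [← hUz₁]
      exact GU_preserves u _ z₁
    rw [hermForm_two, hermForm_two, hz₁] at h1
    simp at h1
    rw [hcdef, hz₁, hadef]
    ext i; fin_cases i <;> simp
    linear_combination (-ν) * h1 + c 1 * hν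
  have hact : ∀ x, U *ᵥ x = x + (a * hermForm 2 F q x z₁) • z₁ := by
    intro x
    have hx : x = (x 0 + x 1 * ν ^ q) • ![1, 0] + (-(x 1 * ν ^ q)) • z₁ := by
      rw [hz₁]
      ext i; fin_cases i <;> simp
      linear_combination x 1 * hν
    conv_lhs => rw [hx]
    rw [Matrix.mulVec_add, Matrix.mulVec_smul, Matrix.mulVec_smul, hcol, hUz₁, hermForm_two, hz₁]
    ext i; fin_cases i <;> simp
    all_goals first
      | ring1
      | linear_combination (x 1) * hν
      | linear_combination -(x 1) * hν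
  have ha0 : a ≠ 0 := fun h0 => hu1 (GU_ext fun x => by
    rw [OneMemClass.coe_one, Units.val_one, Matrix.one_mulVec, ← hU, hact, h0, zero_mul, zero_smul, add_zero])
  exact ⟨ν, a, hν, ha0, hact⟩

/-- The transvections with centre `v` and parameter `c` in a subgroup. -/
def HasTr (G : Subgroup (GU 2 F q)) (v : Fin 2 → F) (c : F) : Prop :=
  ∃ s ∈ G, ∀ x, ((s : GU 2 F q).1 : Matrix (Fin 2) (Fin 2) F) *ᵥ x = x + (c * hermForm 2 F q x v) • v

/-- Conjugation moves the centres. -/
theorem hasTr_conj {G : Subgroup (GU 2 F q)} {s : GU 2 F q} (hs : s ∈ G) {v : Fin 2 → F} {c : F}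
    (h : HasTr G v c) : HasTr G ((s.1 : Matrix (Fin 2) (Fin 2) F) *ᵥ v) c := by
  obtain ⟨r, hr, hrx⟩ := h
  refine ⟨s * r * s⁻¹, mul_mem (mul_mem hs hr) (inv_mem hs), fun x => ?_⟩
  set y := ((s⁻¹ : GU 2 F q).1 : Matrix (Fin 2) (Fin 2) F) *ᵥ x with hy
  have hsy : (s.1 : Matrix (Fin 2) (Fin 2) F) *ᵥ y = x := by
    rw [hy, ← mul_mulVec_GU, mul_inv_cancel]; simp
  rw [mul_mulVec_GU, mul_mulVec_GU, ← hy, hrx, Matrix.mulVec_add, Matrix.mulVec_smul, hsy,
    ← GU_preserves s y v, hsy]

/-- Scaling the centre. -/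
theorem hasTr_smul (hF : Fintype.card F = q ^ 2) {G : Subgroup (GU 2 F q)} (v : Fin 2 → F) (γ c : F) :
    HasTr G (γ • v) c ↔ HasTr G v (c * γ * γ ^ q) := by
  constructor <;> rintro ⟨s, hs, hsx⟩ <;> refine ⟨s, hs, fun x => ?_⟩ <;>
    rw [hsx, hermForm_smul_right hF, smul_smul] <;> ring_nf

/-- All isotropic lines carry the same parameters. -/
theorem hasTr_iff (hF : Fintype.card F = q ^ 2) {G : Subgroup (GU 2 F q)}
    (hdiag : ∀ (a : F) (ha : ∀ i : Fin 2, (![a, 1] i : F) ^ (q + 1) = 1), guDiag ![a, 1] ha ∈ G)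
    {ν : F} (hν : ν * ν ^ q = -1) {v : Fin 2 → F} (hv0 : v 0 ≠ 0) (hvv : hermForm 2 F q v v = 0) (c : F) :
    HasTr G v c ↔ HasTr G ![1, ν] (c * v 0 * v 0 ^ q) := by
  rw [hermForm_two] at hvv
  have hq2 := two_le_q hF
  set μ := v 1 / (v 0 * ν) with hμ
  have hν0 : ν ≠ 0 := fun h0 => by simp [h0] at hν
  have hμ1 : μ ^ (q + 1) = 1 := by
    rw [pow_succ', hμ, div_pow, div_mul_div_comm, mul_pow,
      div_eq_one_iff_eq (mul_ne_zero (mul_ne_zero hv0 hν0) (mul_ne_zero (pow_ne_zero q hv0) (pow_ne_zero q hν0)))]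
    linear_combination hvv - v 0 * v 0 ^ q * hν
  have hnm : μ * μ ^ q = 1 := by rw [← pow_succ']; exact hμ1
  have hμi : (μ ^ q) ^ (q + 1) = 1 := by rw [← pow_mul, mul_comm, pow_mul, hμ1, one_pow]
  set zμ : Fin 2 → F := ![1, ν * μ] with hzμ
  have hd : ∀ a : F, a ^ (q + 1) = 1 → ∀ i : Fin 2, (![a, 1] i : F) ^ (q + 1) = 1 := fun a ha i => by
    fin_cases i <;> simp [ha]
  have e1 : ((guDiag ![μ ^ q, 1] (hd _ hμi)).1 : Matrix (Fin 2) (Fin 2) F) *ᵥ ![1, ν] = μ ^ q • zμ := by
    ext i; fin_cases i <;> simp [guDiag, Matrix.mulVec_diagonal, hzμ]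
    linear_combination (-ν) * hnm
  have e2 : ((guDiag ![μ, 1] (hd _ hμ1)).1 : Matrix (Fin 2) (Fin 2) F) *ᵥ zμ = μ • ![1, ν] := by
    ext i; fin_cases i <;> simp [guDiag, Matrix.mulVec_diagonal, hzμ]; ring
  have hv : v = v 0 • zμ := by
    ext i; fin_cases i <;> simp [hzμ, hμ]
    field_simp
  have hiff : ∀ d, HasTr G zμ d ↔ HasTr G ![1, ν] d := by
    intro d
    constructor
    · intro h1
      have h2 := hasTr_conj (hdiag μ (hd _ hμ1)) h1
      rw [e2, hasTr_smul hF] at h2
      rwa [mul_assoc, hnm, mul_one] at h2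
    · intro h1
      have h2 := hasTr_conj (hdiag (μ ^ q) (hd _ hμi)) h1
      rw [e1, hasTr_smul hF] at h2
      rwa [mul_assoc, pow_q_pow_q hF, mul_comm (μ ^ q) μ, hnm, mul_one] at h2
  conv_lhs => rw [hv]
  rw [hasTr_smul hF, hiff]

/-- The parameters at one centre form an additive group. -/
def trParams (hF : Fintype.card F = q ^ 2) (G : Subgroup (GU 2 F q)) {z₁ : Fin 2 → F}
    (hz₁z₁ : hermForm 2 F q z₁ z₁ = 0) : AddSubgroup F where
  carrier := {c | HasTr G z₁ c}
  zero_mem' := ⟨1, one_mem _, fun x => by simp⟩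
  add_mem' := fun {c d} ⟨s, hs, hsx⟩ ⟨r, hr, hrx⟩ => ⟨s * r, mul_mem hs hr, fun x => by
    rw [mul_mulVec_GU, hrx, hsx, hermForm_add_left hF, hermForm_smul_left hF, hz₁z₁, mul_zero, add_zero,
      add_assoc, ← add_smul]
    ring_nf⟩
  neg_mem' := fun {c} ⟨s, hs, hsx⟩ => ⟨s⁻¹, inv_mem hs, fun x => by
    conv_lhs => rw [show x = (s.1 : Matrix (Fin 2) (Fin 2) F) *ᵥ
      (x + (-c * hermForm 2 F q x z₁) • z₁) by
        rw [hsx, hermForm_add_left hF, hermForm_smul_left hF, hz₁z₁, mul_zero, add_zero]; module]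
    rw [inv_mulVec_GU]⟩

/-- In characteristic two a parameter other than one occurs. -/
theorem exists_param_ne_one (hF : Fintype.card F = q ^ 2) {G : Subgroup (GU 2 F q)}
    (hdiag : ∀ (a : F) (ha : ∀ i : Fin 2, (![a, 1] i : F) ^ (q + 1) = 1), guDiag ![a, 1] ha ∈ G)
    {g : GU 2 F q} (hgG : g ∈ G)
    (hg : ∀ i, ((g.1 : Matrix (Fin 2) (Fin 2) F) *ᵥ Pi.single 0 1) i ≠ 0)
    {ν : F} (hν : ν * ν ^ q = -1) {a : F} (ha0 : a ≠ 0) (hTa : HasTr G ![1, ν] a) :
    ∃ a₀, HasTr G ![1, ν] a₀ ∧ a₀ ≠ 0 ∧ ((2 : F) = 0 → a₀ ≠ 1) := by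
  classical
  have hq2 := two_le_q hF
  set α := ((g.1 : Matrix (Fin 2) (Fin 2) F) *ᵥ Pi.single 0 1) 0 with hαdef
  set β := ((g.1 : Matrix (Fin 2) (Fin 2) F) *ᵥ Pi.single 0 1) 1 with hβdef
  have hα0 : α ≠ 0 := hg 0
  have hβ0 : β ≠ 0 := hg 1
  by_cases ha1 : a = 1
  · by_contra hc
    push Not at hc
    have h2 : (2 : F) = 0 := (hc a hTa ha0).1
    set γ := ((g.1 : Matrix (Fin 2) (Fin 2) F) *ᵥ Pi.single 1 1) 0 with hγdef
    have horth : α * γ ^ q + β * ((g.1 : Matrix (Fin 2) (Fin 2) F) *ᵥ Pi.single 1 1) 1 ^ q = 0 := by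
      have h1 := GU_preserves g (Pi.single 0 1) (Pi.single 1 1)
      rw [hermForm_single_left, hermForm_two] at h1
      simpa [← hαdef, ← hβdef, ← hγdef, zero_pow (show q ≠ 0 by omega)] using h1
    have hγ0 : γ ≠ 0 := fun h0 => by
      rw [h0, zero_pow (by omega), mul_zero, zero_add] at horth
      have h1 : ((g.1 : Matrix (Fin 2) (Fin 2) F) *ᵥ Pi.single 1 1) 1 = 0 :=
        eq_zero_of_pow_eq_zero ((mul_eq_zero.mp horth).resolve_left hβ0)
      have h3 := GU_preserves g (Pi.single 1 1) (Pi.single 1 1)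
      rw [hermForm_single_left, hermForm_two, ← hγdef, h1, h0] at h3
      simp at h3
    set W := α ^ q * γ * ν with hW
    have hν0 : ν ≠ 0 := fun h0 => by simp [h0] at hν
    have hW0 : W ≠ 0 := mul_ne_zero (mul_ne_zero (pow_ne_zero q hα0) hγ0) hν0
    have hall : ∀ μ : F, μ ^ (q + 1) = 1 →
        W * (μ * μ) + (α * α ^ q - γ * γ ^ q - 1) * μ + W ^ q = 0 := by
      intro μ hμ
      have hnm : μ * μ ^ q = 1 := by rw [← pow_succ']; exact hμ
      set v : Fin 2 → F := ![1, ν * μ] with hv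
      have hvv : hermForm 2 F q v v = 0 := by
        rw [hermForm_two]; simp [hv, mul_pow]
        linear_combination μ * μ ^ q * hν - hnm
      have htr : HasTr G v 1 := by
        rw [hasTr_iff hF hdiag hν (by simp [hv]) hvv]
        simp [hv]
        exact ha1 ▸ hTa
      have h1 := hasTr_conj hgG htr
      have hgv : ((g.1 : Matrix (Fin 2) (Fin 2) F) *ᵥ v) 0 = α + γ * (ν * μ) := by
        have e : v = Pi.single 0 1 + (ν * μ) • Pi.single 1 1 := by
          ext i; fin_cases i <;> simp [hv]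
        rw [e, Matrix.mulVec_add, Matrix.mulVec_smul, Pi.add_apply, Pi.smul_apply, smul_eq_mul, ← hαdef,
          ← hγdef]
        ring
      have hgvv : hermForm 2 F q ((g.1 : Matrix (Fin 2) (Fin 2) F) *ᵥ v)
          ((g.1 : Matrix (Fin 2) (Fin 2) F) *ᵥ v) = 0 := (GU_preserves g v v).trans hvv
      have hne : ((g.1 : Matrix (Fin 2) (Fin 2) F) *ᵥ v) 0 ≠ 0 := fun h0 => by
        rw [hermForm_two, h0, zero_mul, zero_add, ← pow_succ'] at hgvv
        have h3 : (g.1 : Matrix (Fin 2) (Fin 2) F) *ᵥ v = 0 := by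
          ext i; fin_cases i <;> simp [h0, eq_zero_of_pow_eq_zero hgvv]
        have h4 := inv_mulVec_GU g v
        rw [h3, Matrix.mulVec_zero] at h4
        simpa [hv] using congrFun h4.symm 0
      rw [hasTr_iff hF hdiag hν hne hgvv, one_mul] at h1
      have h5 := (hc _ h1 (mul_ne_zero hne (pow_ne_zero q hne))).2
      rw [hgv] at h5
      have e : (α + γ * (ν * μ)) ^ q = α ^ q + γ ^ q * (ν ^ q * μ ^ q) := by
        rw [add_pow_q hF, mul_pow, mul_pow]
      have eW : W ^ q = α * γ ^ q * ν ^ q := by rw [hW, mul_pow, mul_pow, pow_q_pow_q hF]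
      rw [e] at h5
      rw [eW, hW]
      linear_combination μ * h5 - (α * γ ^ q * ν ^ q + γ * γ ^ q * ν * ν ^ q * μ) * hnm -
        γ * γ ^ q * μ * hν
    let P : Polynomial F :=
      Polynomial.C W * Polynomial.X ^ 2 + Polynomial.C (α * α ^ q - γ * γ ^ q - 1) * Polynomial.X +
        Polynomial.C (W ^ q)
    have hP : P.natDegree = 2 := Polynomial.natDegree_quadratic hW0
    have hP0 : P ≠ 0 := fun h0 => by rw [h0] at hP; simp at hP
    have hle : (Finset.univ.filter fun μ : F => μ ^ (q + 1) = 1) ⊆ P.roots.toFinset := by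
      intro μ hμ
      rw [Finset.mem_filter] at hμ
      rw [Multiset.mem_toFinset, Polynomial.mem_roots hP0, Polynomial.IsRoot]
      simp only [P, Polynomial.eval_add, Polynomial.eval_mul, Polynomial.eval_C, Polynomial.eval_pow,
        Polynomial.eval_X]
      linear_combination hall μ hμ.2
    have h6 := (Finset.card_le_card hle).trans
      ((Multiset.toFinset_card_le _).trans (Polynomial.card_roots' P))
    rw [hP, ← Fintype.card_subtype, ← Nat.card_eq_fintype_card, card_norm_eq hF one_ne_zero (one_pow q)] at h6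
    omega
  · exact ⟨a, hTa, ha0, fun _ => ha1⟩

/-- `GU 2` is generated by the homologies of one axis and any element moving that axis to a non-axis. -/
theorem gu_two_eq_top (hF : Fintype.card F = q ^ 2) (G : Subgroup (GU 2 F q))
    (hdiag : ∀ (a : F) (ha : ∀ i : Fin 2, (![a, 1] i : F) ^ (q + 1) = 1), guDiag ![a, 1] ha ∈ G)
    {g : GU 2 F q} (hgG : g ∈ G)
    (hg : ∀ i, ((g.1 : Matrix (Fin 2) (Fin 2) F) *ᵥ Pi.single 0 1) i ≠ 0) : G = ⊤ := by
  classical
  obtain ⟨p, k, hp, hchar, hk, hqp⟩ := exists_q_eq_pow hF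
  haveI := hchar
  haveI : Fact p.Prime := ⟨hp⟩
  obtain ⟨u, huG, hu1, hup⟩ := gu_two_exists_unipotent hF G hdiag hgG hg hk hqp
  obtain ⟨ν, a, hν, ha0, hact⟩ := gu_two_unipotent hF hu1 hup
  obtain ⟨a₀, hTa₀, ha₀0, ha₀1⟩ := exists_param_ne_one hF hdiag hgG hg hν ha0 ⟨u, huG, hact⟩
  set z₁ : Fin 2 → F := ![1, ν] with hz₁
  have hq2 := two_le_q hF
  have hz₁z₁ : hermForm 2 F q z₁ z₁ = 0 := by
    rw [hermForm_two]; simp [hz₁]; linear_combination hν
  set A := trParams hF G hz₁z₁ with hAdef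
  have ha₀ : a₀ ∈ A := hTa₀
  have haskew : ∀ c ∈ A, c + c ^ q = 0 := fun c ⟨s, hs, hsx⟩ => by
    refine trace_zero_of_transvection_preserves hF (v := z₁) (fun h0 => by simpa [hz₁] using congrFun h0 0)
      hz₁z₁ fun x y => ?_
    rw [unitaryTransvection_mulVec, unitaryTransvection_mulVec, ← hsx, ← hsx]
    exact GU_preserves s x y
  have hany : ∀ v : Fin 2 → F, v 0 ≠ 0 → hermForm 2 F q v v = 0 → ∀ c,
      HasTr G v c ↔ c * v 0 * v 0 ^ q ∈ A := fun v hv0 hvv c => hasTr_iff hF hdiag hν hv0 hvv c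
  have hconj : ∀ s ∈ G, ∀ v c, HasTr G v c → HasTr G (((s : GU 2 F q).1 : Matrix (Fin 2) (Fin 2) F) *ᵥ v) c :=
    fun s hs v c h => hasTr_conj hs h
  -- all parameters
  have hskew := haskew a₀ ha₀
  let R : AddSubgroup F :=
    { carrier := {r | ∀ c ∈ A, r * c ∈ A}
      zero_mem' := fun c _ => by simp
      add_mem' := fun {r r'} hr hr' c hc => by rw [add_mul]; exact add_mem (hr c hc) (hr' c hc)
      neg_mem' := fun {r} hr c hc => by rw [neg_mul]; exact neg_mem (hr c hc) }
  have hone : (1 : F) ∈ R := fun c hc => by rwa [one_mul]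
  have hR : ∀ μ : F, μ ^ (q + 1) = 1 → 1 + a₀ * (μ - μ ^ q) - a₀ * a₀ * (2 - μ - μ ^ q) ∈ R := by
    intro μ hμ c hc
    have hnm : μ * μ ^ q = 1 := by rw [← pow_succ']; exact hμ
    set v : Fin 2 → F := ![1, ν * μ] with hv
    have hvv : hermForm 2 F q v v = 0 := by
      rw [hermForm_two]; simp [hv, mul_pow]
      linear_combination μ * μ ^ q * hν - hnm
    obtain ⟨s, hs, hsx⟩ : HasTr G v a₀ := by
      rw [hany v (by simp [hv]) hvv]; simpa [hv] using ha₀
    have h1 := hconj s hs z₁ c hc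
    set y := (s.1 : Matrix (Fin 2) (Fin 2) F) *ᵥ z₁ with hy
    have hyy : hermForm 2 F q y y = 0 := (GU_preserves s z₁ z₁).trans hz₁z₁
    have hy0 : y 0 = 1 + a₀ * (1 - μ ^ q) := by
      rw [hy, hsx, hermForm_two]
      simp [hv, hz₁, mul_pow]
      first | linear_combination μ ^ q * a₀ * hν | (left; linear_combination μ ^ q * hν)
    have hne : y 0 ≠ 0 := fun h0 => by
      rw [hermForm_two, h0, zero_mul, zero_add, ← pow_succ'] at hyy
      have h3 : y = 0 := by
        ext i; fin_cases i <;> simp [h0, eq_zero_of_pow_eq_zero hyy]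
      have h4 := inv_mulVec_GU s z₁
      rw [← hy, h3, Matrix.mulVec_zero] at h4
      simpa [hz₁] using congrFun h4.symm 0
    have h5 := (hany y hne hyy c).mp h1
    convert h5 using 1
    rw [hy0, ← conjQ_apply hF (1 + a₀ * (1 - μ ^ q)), map_add, map_one, map_mul, map_sub, map_one,
      conjQ_apply, conjQ_apply, pow_q_pow_q hF]
    have ea : a₀ ^ q = -a₀ := by linear_combination hskew
    rw [ea]
    linear_combination (a₀ * a₀ * c) * hnm
  have hfix : ∀ r : F, r ^ q = r → r ∈ R := by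
    intro r hr
    have ea : a₀ ^ q = -a₀ := by linear_combination hskew
    by_cases h2 : (2 : F) = 0
    · refine fixed_of_trace_values hF (c := a₀ + a₀ * a₀) ?_ ?_ R (fun μ hμ => ?_) hr
      · intro h0
        rcases mul_eq_zero.mp (show a₀ * (1 + a₀) = 0 by linear_combination h0) with h | h
        · exact ha₀0 h
        · exact ha₀1 h2 (by linear_combination h - h2)
      · rw [add_pow_q hF, mul_pow, ea]; linear_combination (-a₀) * h2
      · have := R.sub_mem (hR μ hμ) hone
        convert this using 1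
        linear_combination (a₀ * (1 - μ) + a₀ * a₀ * (2 - μ - μ ^ q)) * h2
    · refine fixed_of_trace_values hF (c := -(2 * (a₀ * a₀))) ?_ ?_ R (fun μ hμ => ?_) hr
      · exact neg_ne_zero.mpr (mul_ne_zero h2 (mul_ne_zero ha₀0 ha₀0))
      · rw [← conjQ_apply hF (-(2 * (a₀ * a₀))), map_neg, map_mul, map_ofNat, map_mul, conjQ_apply, ea]
        ring
      · have hμ' : (μ ^ q) ^ (q + 1) = 1 := by rw [← pow_mul, mul_comm, pow_mul, hμ, one_pow]
        have := R.sub_mem (R.sub_mem (R.add_mem (hR μ hμ) (hR _ hμ')) hone) hone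
        convert this using 1
        rw [pow_q_pow_q hF]
        ring
  have hA : ∀ c : F, c + c ^ q = 0 → c ∈ A := by
    intro c hc
    have ea : a₀ ^ q = -a₀ := by linear_combination hskew
    have hq' : (c / a₀) ^ q = c / a₀ := by
      rw [div_pow, ea, show c ^ q = -c by linear_combination hc, neg_div_neg_eq]
    have := hfix _ hq' a₀ ha₀
    rwa [div_mul_cancel₀ _ ha₀0] at this
  have htrans : transGroup 2 F q ≤ G := by
    refine (Subgroup.closure_le _).2 ?_
    rintro s ⟨v, c, hv, hs⟩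
    rcases eq_or_ne v 0 with rfl | hv0
    · have hs1 : s = 1 := GU_ext fun x => by rw [hs, unitaryTransvection_mulVec]; simp
      rw [hs1]; exact G.one_mem
    have hv00 : v 0 ≠ 0 := fun h0 => by
      rw [hermForm_two, h0, zero_mul, zero_add, ← pow_succ'] at hv
      exact hv0 (funext fun i => by fin_cases i <;> simp [h0, eq_zero_of_pow_eq_zero hv])
    have hc : c + c ^ q = 0 := trace_zero_of_transvection_preserves hF hv0 hv fun x y => by
      rw [← hs]; exact s.2 x y
    obtain ⟨r, hr, hrx⟩ : HasTr G v c := by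
      rw [hany v hv00 hv]
      refine hA _ ?_
      rw [mul_pow, mul_pow, pow_q_pow_q hF]
      linear_combination v 0 * v 0 ^ q * hc
    have hsr : s = r := GU_ext fun x => by rw [hrx, hs, unitaryTransvection_mulVec]
    rw [hsr]; exact hr
  have hker : (guDet 2 F q).ker ≤ G := (ker_le_transGroup hF (by omega) (by omega)).trans htrans
  rw [eq_top_iff]
  intro s _
  set e := (s.1 : Matrix (Fin 2) (Fin 2) F).det with he
  have he1 : e ^ (q + 1) = 1 := det_GU hF s
  have hd : ∀ i : Fin 2, (![e, 1] i : F) ^ (q + 1) = 1 := fun i => by fin_cases i <;> simp [he1]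
  have hmem : (guDiag ![e, 1] hd)⁻¹ * s ∈ G := by
    refine hker (MonoidHom.mem_ker.mpr ?_)
    have : guDet 2 F q (guDiag ![e, 1] hd) = guDet 2 F q s := by
      refine Units.ext ?_
      simp [guDiag, Fin.prod_univ_two, he]
    rw [map_mul, map_inv, this, inv_mul_cancel]
  have := G.mul_mem (hdiag e hd) hmem
  rwa [mul_inv_cancel_left] at this

end Cfsg.Agent.H3
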