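import Cfsg.Agent.H98.HermStd
import Cfsg.Agent.H98.HermSub
import Cfsg.Agent.H98.Decomp

set_option autoImplicit false
set_option linter.unusedSectionVars false

/-!
# Orthogonal decompositions of a unitary space: basic facts
-/

namespace Cfsg.Agent.H3

open scoped Matrix
open Cfsg.Agent.H98

/-- The dimension of a decomposed space. -/
theorem mdec_dim {ι : Type} [Fintype ι] [DecidableEq ι] {F : Type*} [Field F] {t k : ℕ}
    {D : Fin t → Submodule F (ι → F)} (hD : Cfsg.Geo.IsMDecomposition k D) :
    Fintype.card ι = t * k := by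
  classical
  have hint := DirectSum.isInternal_submodule_of_iSupIndep_of_iSup_eq_top hD.indep hD.iSup_eq_top
  have h := Module.finrank_eq_card_basis (hint.collectedBasis fun i => Module.finBasis F (D i))
  rw [Module.finrank_pi] at h
  simp [h, Fintype.card_sigma, hD.finrank_eq]

section

variable {ι : Type} [Fintype ι] [DecidableEq ι] {F : Type*} [Field F]
variable {σ : F ≃+* F} {f : (ι → F) → (ι → F) → F} (hf : Cfsg.Geo.IsUnitaryForm σ f)
variable {t k : ℕ} {D : Fin t → Submodule F (ι → F)}

include hf

/-- A non-degenerate subspace has a non-isotropic vector. -/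
theorem exists_nonisotropic_in {W : Submodule F (ι → F)} (hW : Cfsg.Geo.IsNondegenerateOn f W)
    {w : ι → F} (hw : w ∈ W) (hw0 : w ≠ 0) : ∃ v ∈ W, f v v ≠ 0 := by
  by_contra hc
  push Not at hc
  obtain ⟨x, hx, hxw⟩ := (hW w hw hw0).1
  have h : ∀ a : F, a * f x w + σ a * σ (f x w) = 0 := by
    intro a
    have h1 := hc _ (W.add_mem (W.smul_mem a hx) hw)
    rw [hf.add_left, Herm.add_right hf, Herm.add_right hf, hf.smul_left, hf.smul_left,
      Herm.smul_right hf, Herm.smul_right hf, hc x hx, hc w hw] at h1
    rw [Herm.sigma_apply hf]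
    linear_combination h1
  have h1 : σ (f x w) = - f x w := by have := h 1; rw [map_one] at this; linear_combination this
  refine hf.ne_refl (RingEquiv.ext fun a => ?_)
  have h2 := h a
  rw [h1] at h2
  have : (σ a - a) * f x w = 0 := by linear_combination -h2
  rcases mul_eq_zero.1 this with h3 | h3
  · exact sub_eq_zero.1 h3
  · exact absurd h3 hxw

/-- Orthogonality of a vector to a member's complement. -/
theorem f_comp_left (hD : Cfsg.Geo.IsMDecomposition k D)
    (horth : ∀ i j, i ≠ j → ∀ u ∈ D i, ∀ v ∈ D j, f u v = 0) {i : Fin t} {w : ι → F} (hw : w ∈ D i)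
    (v : ι → F) : f v w = f (comp hD i v) w := by
  rw [← Herm.fl_apply hf, ← Herm.fl_apply hf]
  conv_lhs => rw [← sum_comp hD v]
  rw [map_sum]
  exact Finset.sum_eq_single i (fun j _ hj => horth j i hj _ (comp_mem hD j v) _ hw) (by simp)

/-- The form is the sum of its restrictions to the members. -/
theorem f_comp (hD : Cfsg.Geo.IsMDecomposition k D)
    (horth : ∀ i j, i ≠ j → ∀ u ∈ D i, ∀ v ∈ D j, f u v = 0) (u v : ι → F) :
    f u v = ∑ i, f (comp hD i u) (comp hD i v) := by
  have h : ∀ i, f u (comp hD i v) = f (comp hD i u) (comp hD i v) := fun i =>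
    f_comp_left hf hD horth (comp_mem hD i v) u
  simp only [← h]
  rw [← Herm.sigma_apply hf v u, ← Herm.fl_apply hf]
  conv_lhs => rw [← sum_comp hD v]
  rw [map_sum, map_sum]
  exact Finset.sum_congr rfl fun i _ => Herm.sigma_apply hf _ _

end

end Cfsg.Agent.H3
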