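import Cfsg.Agent.H3.GUTwo
import Cfsg.Agent.H3.UDecomp

set_option autoImplicit false
set_option linter.unusedSectionVars false

/-!
# Overgroups of the diagonal subgroup of `SU`

`M` is a subgroup of `SU` for the standard form.  For two orthonormal vectors orthogonal to a coordinate
vector `e c` we look at the elements of `GU 2` which lift to `M`, the determinant being compensated on the
line of `e c`.  If the lifts exhaust `GU 2` for all coordinate pairs then `M` is the whole of `SU`.
-/

namespace Cfsg.Agent.H3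

open scoped Matrix
open Cfsg.Agent.H98

variable {F : Type*} [Field F] [Fintype F] {q n : ℕ} (hF : Fintype.card F = q ^ 2)

local notation "Mat" => Matrix (Fin n) (Fin n) F
local notation "h" => Cfsg.hermForm n F q
local notation "G₁" => Cfsg.GU n F q ⊓ Cfsg.Geo.specialLinear (Fin n) F

/-- `M` contains every diagonal element of `SU`. -/
def HasDiag (q : ℕ) (M : Subgroup (GL (Fin n) F)) : Prop :=
  ∀ (d : Fin n → F) (hd : ∀ i, d i ^ (q + 1) = 1), ∏ i, d i = 1 → (guDiag (q := q) d hd).1 ∈ M

/-- The homology with axis `u`, compensated on the `c`-th coordinate, lies in `M`. -/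
def InO (q : ℕ) (M : Subgroup (GL (Fin n) F)) (c : Fin n) (u : Fin n → F) : Prop :=
  Cfsg.hermForm n F q u u = 1 ∧ u c = 0 ∧ ∀ a : F, a ^ (q + 1) = 1 → ∃ m ∈ M, ∀ x,
    ((m : GL (Fin n) F) : Mat) *ᵥ x =
      x + ((a - 1) * Cfsg.hermForm n F q x u) • u + ((a ^ q - 1) * x c) • Pi.single c 1

include hF

theorem herm_single_right (x : Fin n → F) (i : Fin n) : h x (Pi.single i 1) = x i := by
  rw [← hermForm_pow_q hF, hermForm_single_left, one_mul, pow_q_pow_q hF]

theorem norm_one_conj {a : F} (ha : a ^ (q + 1) = 1) : a * a ^ q = 1 := by rw [← pow_succ']; exact ha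

theorem exists_norm_one_ne : ∃ a : F, a ^ (q + 1) = 1 ∧ a ≠ 1 ∧ a ≠ -1 := by
  classical
  have hq := two_le_q hF
  have hcard : (Finset.univ.filter fun a : F => a ^ (q + 1) = 1).card = q + 1 := by
    rw [← Fintype.card_subtype, ← Nat.card_eq_fintype_card]
    exact card_norm_eq hF one_ne_zero (one_pow q)
  obtain ⟨a, ha, hna⟩ := Finset.exists_mem_notMem_of_card_lt_card (s := ({1, -1} : Finset F))
    (t := Finset.univ.filter fun a : F => a ^ (q + 1) = 1)
    (lt_of_le_of_lt Finset.card_le_two (by omega))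
  simp only [Finset.mem_filter, Finset.mem_insert, Finset.mem_singleton, not_or] at ha hna
  exact ⟨a, ha.2, hna⟩

/-- Coordinate vectors have homologies in `M`. -/
theorem inO_single {M : Subgroup (GL (Fin n) F)} (hdiag : HasDiag q M) {i c : Fin n} (hic : i ≠ c) :
    InO q M c (Pi.single i 1 : Fin n → F) := by
  classical
  refine ⟨by rw [herm_single_right hF, Pi.single_eq_same], Pi.single_eq_of_ne hic.symm _, fun a ha => ?_⟩
  have hn := norm_one_conj hF ha
  have hd : ∀ j : Fin n, (if j = i then a else if j = c then a ^ q else 1) ^ (q + 1) = 1 := fun j => by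
    split_ifs
    · exact ha
    · rw [← pow_mul, mul_comm, pow_mul, ha, one_pow]
    · exact one_pow _
  refine ⟨_, hdiag _ hd ?_, fun x => ?_⟩
  · rw [Finset.prod_eq_mul i c hic (fun j _ hj => by simp [hj.1, hj.2]) (by simp) (by simp)]
    simp [hic.symm, hn]
  · ext j
    simp only [guDiag, Matrix.mulVec_diagonal, herm_single_right hF, Pi.add_apply, Pi.smul_apply,
      Pi.single_apply, smul_eq_mul]
    split_ifs with h1 h2 h2
    · exact absurd (h1.symm.trans h2) hic
    · subst h1; ring
    · subst h2; ring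
    · ring

section

variable {M : Subgroup (GL (Fin n) F)} (hMK : M ≤ Cfsg.GU n F q ⊓ Cfsg.Geo.specialLinear (Fin n) F)
include hMK

/-- Elements of `M` fixing the line of `e c` permute the homology axes. -/
theorem inO_conj {c : Fin n} {u : Fin n → F} (hu : InO q M c u) {m : GL (Fin n) F} (hm : m ∈ M) {ρ : F}
    (hρ : (m : Mat) *ᵥ Pi.single c 1 = ρ • Pi.single c 1) : InO q M c ((m : Mat) *ᵥ u) := by
  have hg : ∀ a b, h ((m : Mat) *ᵥ a) ((m : Mat) *ᵥ b) = h a b := (hMK hm).1
  obtain ⟨h1, h2, h3⟩ := hu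
  have hρρ : ρ * ρ ^ q = 1 := by
    have h4 := hg (Pi.single c 1) (Pi.single c 1)
    rwa [hρ, hermForm_smul_left hF, hermForm_smul_right hF, herm_single_right hF, Pi.single_eq_same,
      mul_one] at h4
  have hρ0 : ρ ^ q ≠ 0 := right_ne_zero_of_mul (by rw [hρρ]; exact one_ne_zero)
  have hc : ∀ y, ((m : Mat) *ᵥ y) c * ρ ^ q = y c := fun y => by
    rw [← herm_single_right hF ((m : Mat) *ᵥ y) c, ← herm_single_right hF y c, mul_comm, ← hermForm_smul_right hF,
      ← hρ, hg]
  refine ⟨by rw [hg, h1], (mul_eq_zero.mp ((hc u).trans h2)).resolve_right hρ0, fun a ha => ?_⟩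
  obtain ⟨r, hr, hrx⟩ := h3 a ha
  refine ⟨m * r * m⁻¹, M.mul_mem (M.mul_mem hm hr) (M.inv_mem hm), fun x => ?_⟩
  set y := ((m⁻¹ : GL (Fin n) F) : Mat) *ᵥ x with hydef
  have hmy : (m : Mat) *ᵥ y = x := gl_mulVec_inv m x
  have hy : h y u = h x ((m : Mat) *ᵥ u) := by rw [← hg y u, hmy]
  have hyc : y c = x c * ρ ^ q := by rw [← hc y, hmy]
  simp only [Units.val_mul, ← Matrix.mulVec_mulVec]
  rw [← hydef, hrx, Matrix.mulVec_add, Matrix.mulVec_add, Matrix.mulVec_smul, Matrix.mulVec_smul, hmy, hρ, hy,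
    hyc, smul_smul]
  congr 2
  linear_combination ((a ^ q - 1) * x c) * hρρ

end

/-! ### Lifts of `GU 2` -/

/-- Embedding of the coordinate plane. -/
def plane {n : ℕ} {F : Type*} [Field F] (e e' : Fin n → F) (y : Fin 2 → F) : Fin n → F := y 0 • e + y 1 • e'

/-- Coordinates in the plane. -/
def planeCoord {n : ℕ} {F : Type*} [Field F] (q : ℕ) (e e' x : Fin n → F) : Fin 2 → F :=
  ![Cfsg.hermForm n F q x e, Cfsg.hermForm n F q x e']

/-- The action of a lift. -/
def liftMap {n : ℕ} {F : Type*} [Field F] {q : ℕ} (e e' : Fin n → F) (c : Fin n) (g : Cfsg.GU 2 F q)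
    (x : Fin n → F) : Fin n → F :=
  x + plane e e' ((g.1 : Matrix (Fin 2) (Fin 2) F) *ᵥ planeCoord q e e' x - planeCoord q e e' x) +
    (((g.1 : Matrix (Fin 2) (Fin 2) F).det ^ q - 1) * x c) • Pi.single c 1

omit hF in
theorem plane_add {n : ℕ} (e e' : Fin n → F) (y z : Fin 2 → F) :
    plane e e' (y + z) = plane e e' y + plane e e' z := by
  simp only [plane, Pi.add_apply]; module

omit hF in
theorem plane_sub {n : ℕ} (e e' : Fin n → F) (y z : Fin 2 → F) :
    plane e e' (y - z) = plane e e' y - plane e e' z := by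
  simp only [plane, Pi.sub_apply]; module

/-- An orthonormal pair orthogonal to `e c`. -/
structure IsFramePair (q : ℕ) (e e' : Fin n → F) (c : Fin n) : Prop where
  fst : Cfsg.hermForm n F q e e = 1
  snd : Cfsg.hermForm n F q e' e' = 1
  orth : Cfsg.hermForm n F q e e' = 0
  fst_c : e c = 0
  snd_c : e' c = 0

variable {e e' : Fin n → F} {c : Fin n}

theorem planeCoord_plane (hp : IsFramePair q e e' c) (y : Fin 2 → F) :
    planeCoord q e e' (plane e e' y) = y := by
  have h1 := (hermForm_eq_zero_comm hF).mp hp.orth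
  ext i
  fin_cases i <;>
    simp [planeCoord, plane, hermForm_add_left hF, hermForm_smul_left hF, hp.fst, hp.snd, hp.orth, h1]

theorem planeCoord_liftMap (hp : IsFramePair q e e' c) (g : Cfsg.GU 2 F q) (x : Fin n → F) :
    planeCoord q e e' (liftMap e e' c g x) = (g.1 : Matrix (Fin 2) (Fin 2) F) *ᵥ planeCoord q e e' x := by
  have hadd : ∀ a b, planeCoord q e e' (a + b) = planeCoord q e e' a + planeCoord q e e' b := fun a b => by
    ext i; fin_cases i <;> simp [planeCoord, hermForm_add_left hF]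
  have hc : ∀ s : F, planeCoord q e e' (s • Pi.single c 1) = 0 := fun s => by
    ext i; fin_cases i <;>
      simp [planeCoord, hermForm_smul_left hF, hermForm_single_left, hp.fst_c, hp.snd_c,
        zero_pow (show q ≠ 0 by have := two_le_q hF; omega)]
  rw [liftMap, hadd, hadd, planeCoord_plane hF hp, hc, add_zero, add_sub_cancel]

omit hF in
theorem liftMap_c (hp : IsFramePair q e e' c) (g : Cfsg.GU 2 F q) (x : Fin n → F) :
    liftMap e e' c g x c = (g.1 : Matrix (Fin 2) (Fin 2) F).det ^ q * x c := by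
  simp [liftMap, plane, hp.fst_c, hp.snd_c]; ring

theorem liftMap_comp (hp : IsFramePair q e e' c) (g g' : Cfsg.GU 2 F q) (x : Fin n → F) :
    liftMap e e' c g (liftMap e e' c g' x) = liftMap e e' c (g * g') x := by
  conv_lhs => rw [liftMap, planeCoord_liftMap hF hp, liftMap_c hp]
  rw [liftMap, liftMap, mul_mulVec_GU, Subgroup.coe_mul, Units.val_mul, Matrix.det_mul, mul_pow,
    plane_sub, plane_sub, plane_sub]
  module

theorem liftMap_one (x : Fin n → F) : liftMap e e' c (1 : Cfsg.GU 2 F q) x = x := by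
  simp [liftMap, plane]

/-- The elements of `GU 2` lifting to `M`. -/
def liftGroup (hp : IsFramePair q e e' c) (M : Subgroup (GL (Fin n) F)) : Subgroup (Cfsg.GU 2 F q) where
  carrier := {g | ∃ m ∈ M, ∀ x, ((m : GL (Fin n) F) : Mat) *ᵥ x = liftMap e e' c g x}
  one_mem' := ⟨1, M.one_mem, fun x => by rw [liftMap_one hF]; simp⟩
  mul_mem' := fun {g g'} ⟨m, hm, hmx⟩ ⟨m', hm', hmx'⟩ => ⟨m * m', M.mul_mem hm hm', fun x => by
    rw [Units.val_mul, ← Matrix.mulVec_mulVec, hmx', hmx, liftMap_comp hF hp]⟩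
  inv_mem' := fun {g} ⟨m, hm, hmx⟩ => ⟨m⁻¹, M.inv_mem hm, fun x => by
    have h1 : (m : Mat) *ᵥ liftMap e e' c g⁻¹ x = x := by
      rw [hmx, liftMap_comp hF hp, mul_inv_cancel, liftMap_one hF]
    conv_lhs => rw [← h1]
    exact gl_inv_mulVec m _⟩

theorem liftMap_e (hp : IsFramePair q e e' c) (g : Cfsg.GU 2 F q) (y : Fin 2 → F) :
    liftMap e e' c g (plane e e' y) = plane e e' ((g.1 : Matrix (Fin 2) (Fin 2) F) *ᵥ y) := by
  have : plane e e' y c = 0 := by simp [plane, hp.fst_c, hp.snd_c]
  rw [liftMap, planeCoord_plane hF hp, this, mul_zero, zero_smul, add_zero, plane_sub]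
  abel

/-- Once `M` has the homologies of `e` and an element moving `e` off both axes, all of `GU 2` lifts. -/
theorem liftGroup_top (hp : IsFramePair q e e' c) {M : Subgroup (GL (Fin n) F)} (he : InO q M c e)
    {g : Cfsg.GU 2 F q} (hg : g ∈ liftGroup hF hp M)
    (hgz : ∀ i, ((g.1 : Matrix (Fin 2) (Fin 2) F) *ᵥ Pi.single 0 1) i ≠ 0) : liftGroup hF hp M = ⊤ := by
  refine gu_two_eq_top hF _ (fun a ha => ?_) hg hgz
  have ha1 : a ^ (q + 1) = 1 := by simpa using ha 0
  obtain ⟨m, hm, hmx⟩ := he.2.2 a ha1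
  refine ⟨m, hm, fun x => ?_⟩
  rw [hmx, liftMap]
  simp [guDiag, plane, planeCoord, Matrix.mulVec_diagonal, Fin.prod_univ_two]
  module

variable {M : Subgroup (GL (Fin n) F)}

/-- All unit vectors of a fully lifted plane are homology axes. -/
theorem inO_plane (hMK : M ≤ G₁) (hp : IsFramePair q e e' c) (he : InO q M c e)
    (htop : liftGroup hF hp M = ⊤) {y : Fin 2 → F} (hy : Cfsg.hermForm 2 F q y y = 1) :
    InO q M c (plane e e' y) := by
  obtain ⟨g, hg⟩ := exists_GU_mulVec_eq hF (v := (Pi.single 0 1 : Fin 2 → F)) (w := y) (by simp)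
    (fun h0 => zero_ne_one (α := F) (by rw [← hy, h0, hermForm_zero_left hF]))
    (by rw [hy, hermForm_single_left]; simp)
  obtain ⟨m, hm, hmx⟩ : g ∈ liftGroup hF hp M := htop ▸ Subgroup.mem_top g
  have hec : (m : Mat) *ᵥ Pi.single c 1 = (g.1 : Matrix (Fin 2) (Fin 2) F).det ^ q • Pi.single c 1 := by
    rw [hmx, liftMap]
    have : planeCoord q e e' (Pi.single c 1) = 0 := by
      ext i; fin_cases i <;>
        simp [planeCoord, hermForm_single_left, hp.fst_c, hp.snd_c,
          zero_pow (show q ≠ 0 by have := two_le_q hF; omega)]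
    rw [this, Matrix.mulVec_zero, sub_self]
    simp [plane]
    module
  have h1 := inO_conj hF hMK he hm hec
  have he' : e = plane e e' (Pi.single 0 1) := by simp [plane]
  have h2 : (m : Mat) *ᵥ e = plane e e' y := by
    conv_lhs => rw [he']
    rw [hmx, liftMap_e hF hp, hg]
  rwa [h2] at h1

/-- All isotropic vectors of a fully lifted plane are centres. -/
theorem centres_plane (hp : IsFramePair q e e' c) (htop : liftGroup hF hp M = ⊤) {y : Fin 2 → F}
    (hy : Cfsg.hermForm 2 F q y y = 0) :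
    plane e e' y ∈ Herm.centres (Herm.isUnitary_std (n := n) hF) M := by
  have h1 := (hermForm_eq_zero_comm hF).mp hp.orth
  have hzz : h (plane e e' y) (plane e e' y) = 0 := by
    rw [← hy, hermForm_two]
    simp [plane, hermForm_add_left hF, hermForm_add_right hF, hermForm_smul_left hF, hermForm_smul_right hF,
      hp.fst, hp.snd, hp.orth, h1]
  refine ⟨hzz, fun d hd => ?_⟩
  have hd' : d + d ^ q = 0 := by rw [← Herm.frobQ_apply hF, hd, add_neg_cancel]
  have hval : ∀ x, h x (plane e e' y) = Cfsg.hermForm 2 F q (planeCoord q e e' x) y := fun x => by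
    rw [hermForm_two]
    simp [plane, planeCoord, hermForm_add_right hF, hermForm_smul_right hF, mul_comm]
  have hdet := det_unitaryTransvection y d hy
  let g : Cfsg.GU 2 F q :=
    ⟨Matrix.GeneralLinearGroup.mkOfDetNeZero (Cfsg.unitaryTransvection 2 q y d)
      (by rw [hdet]; exact one_ne_zero), mem_GU_iff.2 (transvection_preserves hF hy hd')⟩
  have hgval : (g.1 : Matrix (Fin 2) (Fin 2) F) = Cfsg.unitaryTransvection 2 q y d := rfl
  obtain ⟨m, hm, hmx⟩ : g ∈ liftGroup hF hp M := htop ▸ Subgroup.mem_top g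
  convert hm using 1
  refine gl_ext fun x => ?_
  rw [Herm.uT_mulVec, hmx, liftMap, hgval, hdet, one_pow, sub_self, zero_mul, zero_smul, add_zero,
    unitaryTransvection_mulVec, add_sub_cancel_left, hval]
  simp [plane]
  module

/-- Coordinate pairs are frame pairs. -/
theorem isFramePair_single {i j c : Fin n} (hij : i ≠ j) (hic : i ≠ c) (hjc : j ≠ c) :
    IsFramePair q (Pi.single i 1 : Fin n → F) (Pi.single j 1) c where
  fst := by rw [herm_single_right hF, Pi.single_eq_same]
  snd := by rw [herm_single_right hF, Pi.single_eq_same]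
  orth := by rw [herm_single_right hF, Pi.single_eq_of_ne hij.symm]
  fst_c := Pi.single_eq_of_ne hic.symm _
  snd_c := Pi.single_eq_of_ne hjc.symm _

/-- `2 < q` gives room. -/
theorem exists_skew_ne (hq : 3 ≤ q) : ∃ a : F, a + a ^ q = 0 ∧ a ≠ 0 ∧ a ≠ -1 := by
  classical
  have hcard : (Finset.univ.filter fun a : F => a + a ^ q = 0).card = q := by
    rw [← Fintype.card_subtype, ← Nat.card_eq_fintype_card]
    exact card_trace_zero hF
  obtain ⟨a, ha, hna⟩ := Finset.exists_mem_notMem_of_card_lt_card (s := ({0, -1} : Finset F))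
    (t := Finset.univ.filter fun a : F => a + a ^ q = 0)
    (lt_of_le_of_lt Finset.card_le_two (by omega))
  simp only [Finset.mem_filter, Finset.mem_insert, Finset.mem_singleton, not_or] at ha hna
  exact ⟨a, ha.2, hna⟩

theorem exists_fixed_ne (hq : 3 ≤ q) : ∃ a : F, a ^ q = a ∧ a ≠ 0 ∧ a ≠ 1 := by
  classical
  have hcard : (Finset.univ.filter fun a : F => a ^ q = a).card = q := by
    rw [← Fintype.card_subtype, ← Nat.card_eq_fintype_card]
    exact card_fixed hF
  obtain ⟨a, ha, hna⟩ := Finset.exists_mem_notMem_of_card_lt_card (s := ({0, 1} : Finset F))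
    (t := Finset.univ.filter fun a : F => a ^ q = a)
    (lt_of_le_of_lt Finset.card_le_two (by omega))
  simp only [Finset.mem_filter, Finset.mem_insert, Finset.mem_singleton, not_or] at ha hna
  exact ⟨a, ha.2, hna⟩

/-- An overgroup of the diagonal with all weight two centres is `SU`, for `q > 2`. -/
theorem su_le_of_weight_two (hq : 3 ≤ q) (hn : 4 ≤ n) (hMK : M ≤ G₁) (hdiag : HasDiag q M)
    (hW : ∀ (i j : Fin n) (a b : F), i ≠ j → a ^ (q + 1) + b ^ (q + 1) = 0 →
      (a • Pi.single i 1 + b • Pi.single j 1 : Fin n → F) ∈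
        Herm.centres (Herm.isUnitary_std (n := n) hF) M) : G₁ ≤ M := by
  classical
  have hf := Herm.isUnitary_std (n := n) hF
  have hq0 : q ≠ 0 := by omega
  have hiso : ∀ m ∈ M, ∀ a b, h ((m : Mat) *ᵥ a) ((m : Mat) *ᵥ b) = h a b := fun m hm => (hMK hm).1
  -- every coordinate plane lifts
  have htop : ∀ i j c, ∀ hij : i ≠ j, ∀ hic : i ≠ c, ∀ hjc : j ≠ c,
      liftGroup hF (isFramePair_single hF hij hic hjc) M = ⊤ := by
    intro i j c hij hic hjc
    obtain ⟨ν, hν⟩ := exists_norm_eq hF (μ := (-1 : F)) (by rw [← conjQ_apply hF, map_neg, map_one])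
    have hν0 : ν ≠ 0 := fun h0 => by rw [h0, zero_pow (by omega)] at hν; exact one_ne_zero (by linear_combination hν)
    obtain ⟨a, ha, ha0, ha1⟩ := exists_skew_ne hF hq
    have hy : Cfsg.hermForm 2 F q ![1, ν] ![1, ν] = 0 := by
      rw [hermForm_two]; simp [← pow_succ', hν]
    have hdet := det_unitaryTransvection (![1, ν] : Fin 2 → F) a hy
    let g : Cfsg.GU 2 F q :=
      ⟨Matrix.GeneralLinearGroup.mkOfDetNeZero (Cfsg.unitaryTransvection 2 q ![1, ν] a)
        (by rw [hdet]; exact one_ne_zero), mem_GU_iff.2 (transvection_preserves hF hy ha)⟩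
    have hgval : (g.1 : Matrix (Fin 2) (Fin 2) F) = Cfsg.unitaryTransvection 2 q ![1, ν] a := rfl
    refine liftGroup_top hF _ (inO_single hF hdiag hic) (g := g) ?_ fun l => ?_
    · obtain ⟨hzz, hz⟩ := hW i j 1 ν hij (by rw [one_pow, hν, add_neg_cancel])
      refine ⟨_, hz a (by rw [Herm.frobQ_apply hF]; linear_combination ha), fun x => ?_⟩
      rw [Herm.uT_mulVec, liftMap, hgval, hdet, one_pow, sub_self, zero_mul, zero_smul, add_zero,
        unitaryTransvection_mulVec, add_sub_cancel_left, hermForm_two]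
      simp [plane, planeCoord, hermForm_add_right hF, hermForm_smul_right hF]
      module
    · rw [hgval, unitaryTransvection_mulVec, hermForm_single_left]
      fin_cases l
      · simp
        intro h0; exact ha1 (by linear_combination h0)
      · simp [ha0, hν0]
  -- rotating two coordinates
  have hrot : ∀ (v : Fin n → F) (i j : Fin n), i ≠ j → ∀ x y : F, (v i ≠ 0 ∨ v j ≠ 0) → (x ≠ 0 ∨ y ≠ 0) →
      x ^ (q + 1) + y ^ (q + 1) = v i ^ (q + 1) + v j ^ (q + 1) →
      ∃ m ∈ M, ((m : GL (Fin n) F) : Mat) *ᵥ v ≠ 0 ∧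
        ((m : Mat) *ᵥ v) i = x ∧ ((m : Mat) *ᵥ v) j = y ∧
        ∀ l, l ≠ i → l ≠ j → ∃ r : F, r ^ (q + 1) = 1 ∧ ((m : Mat) *ᵥ v) l = r * v l := by
    intro v i j hij x y hv hxy hN
    obtain ⟨c, hci, hcj⟩ : ∃ c, c ≠ i ∧ c ≠ j := by
      obtain ⟨c, hc⟩ := Finset.exists_mem_notMem_of_card_lt_card (s := ({i, j} : Finset (Fin n)))
        (t := Finset.univ) (lt_of_le_of_lt Finset.card_le_two (by simp; omega))
      exact ⟨c, by simpa using hc.2⟩
    have hne : ∀ a b : F, (a ≠ 0 ∨ b ≠ 0) → (![a, b] : Fin 2 → F) ≠ 0 := fun a b hab h0 => by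
      rcases hab with h1 | h1
      · exact h1 (by simpa using congrFun h0 0)
      · exact h1 (by simpa using congrFun h0 1)
    obtain ⟨g, hg⟩ := exists_GU_mulVec_eq hF (v := ![v i, v j]) (w := ![x, y]) (hne _ _ hv) (hne _ _ hxy)
      (by simp [hermForm_two, ← pow_succ', hN])
    obtain ⟨m, hm, hmx⟩ : g ∈ liftGroup hF (isFramePair_single hF hij hci.symm hcj.symm) M :=
      htop i j c hij hci.symm hcj.symm ▸ Subgroup.mem_top g
    have hpc : planeCoord q (Pi.single i 1 : Fin n → F) (Pi.single j 1) v = ![v i, v j] := by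
      simp [planeCoord, herm_single_right hF]
    have hval : ∀ l, ((m : Mat) *ᵥ v) l = v l + (if l = i then x - v i else 0) + (if l = j then y - v j else 0) +
        (if l = c then ((g.1 : Matrix (Fin 2) (Fin 2) F).det ^ q - 1) * v c else 0) := by
      intro l
      rw [hmx, liftMap, hpc, hg]
      simp [plane, Pi.single_apply]
      ring
    have hmi : ((m : Mat) *ᵥ v) i = x := by rw [hval]; simp [hij, hci.symm]
    have hmj : ((m : Mat) *ᵥ v) j = y := by rw [hval]; simp [hij.symm, hcj.symm]
    refine ⟨m, hm, fun h0 => ?_, hmi, hmj, fun l hli hlj => ?_⟩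
    · rw [h0] at hmi hmj
      rcases hxy with h1 | h1
      · exact h1 hmi.symm
      · exact h1 hmj.symm
    by_cases hlc : l = c
    · subst hlc
      refine ⟨(g.1 : Matrix (Fin 2) (Fin 2) F).det ^ q, ?_, by rw [hval]; simp [hli, hlj]; ring⟩
      rw [← pow_mul, mul_comm, pow_mul, det_GU hF, one_pow]
    · exact ⟨1, one_pow _, by rw [hval]; simp [hli, hlj, hlc]⟩
  let sp : (Fin n → F) → Finset (Fin n) := fun v => Finset.univ.filter fun l => v l ≠ 0
  have hsp : ∀ v l, l ∈ sp v ↔ v l ≠ 0 := fun v l => by simp [sp]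
  have hnorm : ∀ v : Fin n → F, h v v = ∑ l ∈ sp v, v l ^ (q + 1) := by
    intro v
    rw [Finset.sum_subset (Finset.subset_univ _) fun l _ hl => by
      rw [hsp, not_not] at hl; rw [hl, zero_pow (by omega)]]
    exact Finset.sum_congr rfl fun l _ => by rw [pow_succ']
  have key : ∀ k : ℕ, ∀ v : Fin n → F, (sp v).card ≤ k → v ≠ 0 → h v v = 0 → v ∈ Herm.centres hf M := by
    intro k
    induction k with
    | zero =>
      intro v hv hv0 _
      refine absurd (funext fun l => ?_) hv0
      by_contra hl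
      have := Finset.card_pos.mpr ⟨l, (hsp v l).mpr hl⟩
      omega
    | succ k ih =>
      intro v hv hv0 hvv
      by_cases hle : (sp v).card ≤ 2
      · rcases Nat.lt_or_ge (sp v).card 2 with h1 | h1
        · exfalso
          obtain ⟨l, hl⟩ := Function.ne_iff.mp hv0
          have : sp v = {l} := Finset.eq_singleton_iff_unique_mem.mpr ⟨(hsp v l).mpr hl, fun l' hl' =>
            Finset.card_le_one.mp (by omega) l' hl' l ((hsp v l).mpr hl)⟩
          rw [hnorm, this, Finset.sum_singleton] at hvv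
          exact hl (eq_zero_of_pow_eq_zero hvv)
        obtain ⟨i, j, hij, hs⟩ := Finset.card_eq_two.mp (show (sp v).card = 2 by omega)
        rw [hnorm, hs, Finset.sum_pair hij] at hvv
        have hve : v = v i • Pi.single i 1 + v j • Pi.single j 1 := by
          ext l
          by_cases hli : l = i
          · subst hli; simp [hij]
          by_cases hlj : l = j
          · subst hlj; simp [Ne.symm hij]
          have : l ∉ sp v := by rw [hs]; simp [hli, hlj]
          rw [hsp, not_not] at this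
          simp [hli, hlj, this]
        rw [hve]
        exact hW i j _ _ hij hvv
      -- lose a coordinate
      have hred : ∀ w : Fin n → F, (sp w).card ≤ k + 1 → h w w = 0 → ∀ i j, i ≠ j → w i ≠ 0 → w j ≠ 0 →
          w i ^ (q + 1) + w j ^ (q + 1) ≠ 0 → w ∈ Herm.centres hf M := by
        intro w hw hww i j hij hwi hwj hN
        obtain ⟨γ, hγ⟩ := exists_norm_eq hF (μ := w i ^ (q + 1) + w j ^ (q + 1))
          (by rw [add_pow_q hF, norm_pow_q hF, norm_pow_q hF])
        have hγ0 : γ ≠ 0 := fun h0 => hN (by rw [← hγ, h0, zero_pow (by omega)])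
        obtain ⟨m, hm, hm0, hmi, hmj, hml⟩ := hrot w i j hij γ 0 (Or.inl hwi) (Or.inl hγ0)
          (by rw [hγ, zero_pow (by omega), add_zero])
        have hsub : sp ((m : Mat) *ᵥ w) ⊆ (sp w).erase j := by
          intro l hl
          rw [hsp] at hl
          rw [Finset.mem_erase, hsp]
          have hlj : l ≠ j := fun h0 => hl (h0 ▸ hmj)
          refine ⟨hlj, fun h0 => ?_⟩
          by_cases hli : l = i
          · exact hwi (hli ▸ h0)
          · obtain ⟨r, -, hr⟩ := hml l hli hlj
            exact hl (by rw [hr, h0, mul_zero])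
        have hcard := Finset.card_le_card hsub
        rw [Finset.card_erase_of_mem ((hsp w j).mpr hwj)] at hcard
        have := Herm.centres_conj hf hiso (M.inv_mem hm)
          (ih _ (by omega) hm0 ((hiso m hm w w).trans hww))
        rwa [gl_inv_mulVec] at this
      obtain ⟨i, hi⟩ := Finset.card_pos.mp (show 0 < (sp v).card by omega)
      obtain ⟨j, hj⟩ := Finset.card_pos.mp (show 0 < ((sp v).erase i).card by
        rw [Finset.card_erase_of_mem hi]; omega)
      obtain ⟨l, hl⟩ := Finset.card_pos.mp (show 0 < (((sp v).erase i).erase j).card by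
        rw [Finset.card_erase_of_mem hj, Finset.card_erase_of_mem hi]; omega)
      simp only [Finset.mem_erase, hsp] at hi hj hl
      by_cases h1 : v i ^ (q + 1) + v j ^ (q + 1) ≠ 0
      · exact hred v hv hvv i j (Ne.symm hj.1) hi hj.2 h1
      by_cases h2 : v i ^ (q + 1) + v l ^ (q + 1) ≠ 0
      · exact hred v hv hvv i l (Ne.symm hl.2.1) hi hl.2.2 h2
      by_cases h3 : v j ^ (q + 1) + v l ^ (q + 1) ≠ 0
      · exact hred v hv hvv j l (Ne.symm hl.1) hj.2 hl.2.2 h3
      push Not at h1 h2 h3
      have hNi : v i ^ (q + 1) ≠ 0 := pow_ne_zero _ hi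
      have h20 : (2 : F) = 0 := by
        have : (2 : F) * v i ^ (q + 1) = 0 := by linear_combination h1 + h2 - h3
        exact (mul_eq_zero.mp this).resolve_right hNi
      obtain ⟨s, hs, hs0, hs1⟩ := exists_fixed_ne hF hq
      obtain ⟨γ, hγ⟩ := exists_norm_eq hF (μ := s) hs
      have hγ0 : γ ≠ 0 := fun h0 => hs0 (by rw [← hγ, h0, zero_pow (by omega)])
      obtain ⟨m, hm, hm0, hmi, hmj, hml⟩ := hrot v i j (Ne.symm hj.1) (γ * v i) (γ * v j) (Or.inl hi)
        (Or.inl (mul_ne_zero hγ0 hi))
        (by rw [mul_pow, mul_pow, hγ, ← mul_add, h1, mul_zero])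
      obtain ⟨r, hr1, hr⟩ := hml l hl.2.1 hl.1
      have hsub : sp ((m : Mat) *ᵥ v) ⊆ sp v := by
        intro l' hl'
        rw [hsp] at hl' ⊢
        intro h0
        by_cases hli : l' = i
        · exact hi (hli ▸ h0)
        by_cases hlj : l' = j
        · exact hj.2 (hlj ▸ h0)
        obtain ⟨r', -, hr'⟩ := hml l' hli hlj
        exact hl' (by rw [hr', h0, mul_zero])
      have := Herm.centres_conj hf hiso (M.inv_mem hm)
        (hred _ ((Finset.card_le_card hsub).trans hv) ((hiso m hm v v).trans hvv) i l (Ne.symm hl.2.1)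
          (by rw [hmi]; exact mul_ne_zero hγ0 hi)
          (by
            rw [hr]
            refine mul_ne_zero (fun h0 => ?_) hl.2.2
            rw [h0, zero_pow (by omega)] at hr1; exact zero_ne_one hr1)
          (by
            rw [hmi, hr, mul_pow, mul_pow, hγ, hr1, one_mul]
            intro h0
            have : (s - 1) * v i ^ (q + 1) = 0 := by linear_combination h0 - h2
            exact hs1 (sub_eq_zero.mp ((mul_eq_zero.mp this).resolve_right hNi))))
      rwa [gl_inv_mulVec] at this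
  refine Herm.su_le_of_uT hF hn fun v hvv d hd => ?_
  rcases eq_or_ne v 0 with rfl | hv0
  · convert M.one_mem using 1
    exact gl_ext fun x => by rw [Herm.uT_mulVec]; simp
  obtain ⟨_, hv'⟩ := key _ v le_rfl hv0 hvv
  exact hv' d hd

end Cfsg.Agent.H3
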