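import Cfsg.Agent.H3.UDecomp

set_option autoImplicit false
set_option linter.unusedSectionVars false

/-!
# Decompositions into non-degenerate planes over the field with four elements

Each plane has just one orthogonal frame, so the stabiliser of the planes fixes the refined frame and is
not maximal.
-/

namespace Cfsg.Agent.H3

open scoped Matrix
open Cfsg.Agent.H98

variable {F : Type*} [Field F] [Fintype F] {n t : ℕ}

local notation "Mat" => Matrix (Fin n) (Fin n) F
local notation "h" => Cfsg.hermForm n F 2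
local notation "G₁" => Cfsg.GU n F 2 ⊓ Cfsg.Geo.specialLinear (Fin n) F

theorem four_pow_three (hF : Fintype.card F = 2 ^ 2) {x : F} (hx : x ≠ 0) : x ^ 3 = 1 := by
  have := FiniteField.pow_card_sub_one_eq_one x hx
  rwa [hF] at this

theorem four_two_eq_zero (hF : Fintype.card F = 2 ^ 2) : (2 : F) = 0 := by
  haveI : CharP F 2 := charP_of_card_eq_prime_pow (f := 2) hF
  exact CharTwo.two_eq_zero

theorem planes_four_not_maximal (hF : Fintype.card F = 2 ^ 2) (hn : 13 ≤ n)
    (D : Fin t → Submodule F (Fin n → F))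
    (hD : Cfsg.Geo.IsNondegenerateMDecomposition (Cfsg.hermForm n F 2) 2 D) :
    ∃ K : Subgroup (GL (Fin n) F), Cfsg.Geo.decompositionStabilizer D ⊓ G₁ < K ∧ K < G₁ := by
  classical
  have hf := Herm.isUnitary_std (n := n) hF
  have h2 : (2 : F) = 0 := four_two_eq_zero hF
  have horth : ∀ i j, i ≠ j → ∀ u ∈ D i, ∀ v ∈ D j, h u v = 0 := hD.orthogonal
  have hdim : n = t * 2 := by
    have := mdec_dim hD.decomp
    rwa [Fintype.card_fin] at this
  have hfix : ∀ v, (h v v) ^ 2 = h v v := fun v => by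
    rw [← Herm.frobQ_apply hF]; exact Herm.sigma_apply hf v v
  have hval : ∀ v, h v v ≠ 0 → h v v = 1 := fun v hv => by
    have := hfix v
    rw [sq] at this
    exact mul_left_cancel₀ hv (by rw [this, mul_one])
  -- unit vectors in each member
  have hunit : ∀ i, ∃ e ∈ D i, h e e = 1 := by
    intro i
    obtain ⟨w, hw, hw0⟩ := Submodule.exists_mem_ne_zero_of_ne_bot (p := D i) (by
      intro hb; have := hD.decomp.finrank_eq i; rw [hb, finrank_bot] at this; omega)
    obtain ⟨v, hv, hv0⟩ := exists_nonisotropic_in hf (hD.nondegenerate i) hw hw0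
    exact ⟨v, hv, hval v hv0⟩
  choose e heD he1 using hunit
  have he0 : ∀ i, e i ≠ 0 := fun i h0 => by
    have := he1 i
    rw [h0, Herm.zero_left hf] at this
    exact zero_ne_one this
  have hee : ∀ i j, i ≠ j → h (e i) (e j) = 0 := fun i j hij => horth i j hij _ (heD i) _ (heD j)
  have hce : ∀ i j, i ≠ j → comp hD.decomp i (e j) = 0 := fun i j hij =>
    comp_other hD.decomp (Ne.symm hij) (heD j)
  -- the second vector of a member
  have hsecond : ∀ i, ∃ w ∈ D i, h w (e i) = 0 ∧ w ≠ 0 := by
    intro i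
    by_contra hc
    push Not at hc
    have hle : D i ≤ Submodule.span F {e i} := by
      intro v hv
      have := hc (v - h v (e i) • e i) ((D i).sub_mem hv ((D i).smul_mem _ (heD i)))
        (by rw [Herm.sub_left hf, hf.smul_left, he1, mul_one, sub_self])
      rw [sub_eq_zero] at this
      rw [this]
      exact Submodule.smul_mem _ _ (Submodule.mem_span_singleton_self _)
    have := Submodule.finrank_mono hle
    rw [hD.decomp.finrank_eq, finrank_span_singleton (he0 i)] at this
    omega
  -- unit vectors of a member are on one of two orthogonal lines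
  have hframe : ∀ i, ∀ v ∈ D i, h v v = 1 → h v (e i) = 0 ∨ ∃ a : F, v = a • e i := by
    intro i v hv hv1
    by_cases ha : h v (e i) = 0
    · exact Or.inl ha
    refine Or.inr ⟨h v (e i), ?_⟩
    set a := h v (e i) with hadef
    set w := v - a • e i with hwdef
    have hw : w ∈ D i := (D i).sub_mem hv ((D i).smul_mem _ (heD i))
    have hwe : h w (e i) = 0 := by rw [hwdef, Herm.sub_left hf, hf.smul_left, he1, mul_one, sub_self]
    have hew : h (e i) w = 0 := (Herm.eq_zero_comm hf).mp hwe
    have hev : h (e i) v = a ^ 2 := by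
      rw [hadef, ← Herm.frobQ_apply hF]; exact (Herm.sigma_apply hf v (e i)).symm
    have hww : h w w = 0 := by
      have : h w w = h w v := by
        rw [hwdef, Herm.sub_right hf, Herm.smul_right hf, ← hwdef, hwe, mul_zero, sub_zero]
      rw [this, hwdef, Herm.sub_left hf, hf.smul_left, hv1, hev, ← pow_succ', four_pow_three hF ha,
        sub_self]
    by_contra hne
    have hw0 : w ≠ 0 := fun h0 => hne (sub_eq_zero.mp (hwdef ▸ h0))
    obtain ⟨x, hx, hxw⟩ := (hD.nondegenerate i w hw hw0).1
    have hspan : D i ≤ Submodule.span F {e i, w} := by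
      refine (Submodule.eq_of_le_of_finrank_le (Submodule.span_le.mpr ?_) ?_).ge
      · intro y hy
        rcases hy with rfl | rfl
        · exact heD i
        · exact hw
      · rw [hD.decomp.finrank_eq]
        have hli : LinearIndependent F ![e i, w] := by
          refine (LinearIndependent.pair_iff' (he0 i)).mpr fun c hc => hw0 ?_
          have := congrArg (fun y => h y (e i)) hc
          simp only [hf.smul_left, he1, mul_one, hwe] at this
          rw [← hc, this, zero_smul]
        have := finrank_span_eq_card hli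
        rw [Matrix.range_cons, Matrix.range_cons, Matrix.range_empty, Set.union_empty,
          Set.singleton_union, Fintype.card_fin] at this
        omega
    obtain ⟨c, d, hcd⟩ := Submodule.mem_span_pair.mp (hspan hx)
    refine hxw ?_
    rw [← hcd, hf.add_left, hf.smul_left, hf.smul_left, hew, hww, mul_zero, mul_zero, add_zero]
  -- the refined frame
  let S : Set (Fin n → F) := {v | ∃ i, v ∈ D i ∧ h v v = 1}
  let K : Subgroup (GL (Fin n) F) := Cfsg.stabilizing (Cfsg.glToMat (Fin n) F) S ⊓ G₁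
  have hmemS : ∀ g : GL (Fin n) F, g ∈ G₁ → (∀ v ∈ S, (g : Mat) *ᵥ v ∈ S) →
      ((∀ v ∈ S, ((g⁻¹ : GL (Fin n) F) : Mat) *ᵥ v ∈ S)) → g ∈ K := by
    intro g hg h1 h1'
    refine ⟨fun v => ⟨h1 v, fun hv => ?_⟩, hg⟩
    have := h1' _ hv
    rwa [show ((g⁻¹ : GL (Fin n) F) : Mat) *ᵥ ((Cfsg.glToMat (Fin n) F) g *ᵥ v) = v from
      gl_inv_mulVec g v] at this
  have hstab : ∀ g : GL (Fin n) F, g ∈ Cfsg.Geo.decompositionStabilizer D ⊓ G₁ →
      ∀ v ∈ S, (g : Mat) *ᵥ v ∈ S := by
    rintro g ⟨⟨π, hπ⟩, hg⟩ v ⟨i, hv, hv1⟩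
    refine ⟨π i, ?_, by rw [(Herm.mem_GU_iff hF).mp hg.1 v v, hv1]⟩
    rw [← hπ i]
    exact ⟨v, hv, by simp⟩
  have hle : Cfsg.Geo.decompositionStabilizer D ⊓ G₁ ≤ K := fun g hg =>
    hmemS g hg.2 (hstab g hg) (hstab g⁻¹ (inv_mem hg))
  have hone : Herm.frobQ hF (1 : F) = -1 := by
    rw [map_one]; linear_combination h2
  let i₀ : Fin t := ⟨0, by omega⟩
  let i₁ : Fin t := ⟨1, by omega⟩
  have h01 : i₀ ≠ i₁ := by simp [i₀, i₁]
  refine ⟨K, lt_of_le_not_ge hle fun hKle => ?_, lt_of_le_not_ge inf_le_right fun hGle => ?_⟩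
  · -- exchanging two frame vectors of different planes
    set a := e i₀ with hadef
    set b := e i₁ with hbdef
    have haa : h a a = 1 := he1 i₀
    have hbb : h b b = 1 := he1 i₁
    have hab : h a b = 0 := hee _ _ h01
    have hba : h b a = 0 := hee _ _ h01.symm
    have hu : h (a + b) (a + b) = 0 := by
      rw [hf.add_left, Herm.add_right hf, Herm.add_right hf, haa, hbb, hab, hba]
      linear_combination h2
    have hT := Herm.uT_mem_su hF hu hone
    have hTm : ∀ x, (Herm.uT hf hu 1 : Mat) *ᵥ x = x + (h x a + h x b) • (a + b) := fun x => by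
      rw [Herm.uT_mulVec, one_mul, Herm.add_right hf]
    have hTa : (Herm.uT hf hu 1 : Mat) *ᵥ a = b := by
      have : a + a = 0 := by rw [← two_smul F, h2, zero_smul]
      rw [hTm, haa, hab, add_zero, one_smul, ← add_assoc, this, zero_add]
    have hTb : (Herm.uT hf hu 1 : Mat) *ᵥ b = a := by
      have : b + b = 0 := by rw [← two_smul F, h2, zero_smul]
      rw [hTm, hbb, hba, zero_add, one_smul, add_comm a b, ← add_assoc, this, zero_add]
    have hTS : ∀ v ∈ S, (Herm.uT hf hu 1 : Mat) *ᵥ v ∈ S := by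
      rintro v ⟨i, hv, hv1⟩
      have hpres : h ((Herm.uT hf hu 1 : Mat) *ᵥ v) ((Herm.uT hf hu 1 : Mat) *ᵥ v) = 1 := by
        rw [(Herm.mem_GU_iff hF).mp hT.1 v v, hv1]
      have hfixed : h v a = 0 → h v b = 0 → (Herm.uT hf hu 1 : Mat) *ᵥ v ∈ S := fun h1 h1' => by
        rw [hTm, h1, h1', add_zero, zero_smul, add_zero]; exact ⟨i, hv, hv1⟩
      by_cases hi0 : i = i₀
      · subst hi0
        rcases hframe _ v hv hv1 with h1 | ⟨c, rfl⟩
        · exact hfixed h1 (horth _ _ h01 v hv b (heD i₁))
        · refine ⟨i₁, ?_, hpres⟩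
          rw [Matrix.mulVec_smul, hTa]
          exact (D i₁).smul_mem c (heD i₁)
      by_cases hi1 : i = i₁
      · subst hi1
        rcases hframe _ v hv hv1 with h1 | ⟨c, rfl⟩
        · exact hfixed (horth _ _ h01.symm v hv a (heD i₀)) h1
        · refine ⟨i₀, ?_, hpres⟩
          rw [Matrix.mulVec_smul, hTb]
          exact (D i₀).smul_mem c (heD i₀)
      exact hfixed (horth _ _ hi0 v hv a (heD i₀)) (horth _ _ hi1 v hv b (heD i₁))
    have hinv : (Herm.uT hf hu 1)⁻¹ = Herm.uT hf hu 1 := by
      refine inv_eq_of_mul_eq_one_right (gl_ext fun x => ?_)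
      rw [Units.val_mul, ← Matrix.mulVec_mulVec, Herm.uT_mulVec, Herm.uT_mulVec, Units.val_one,
        Matrix.one_mulVec, one_mul, one_mul, hf.add_left, hf.smul_left, hu, mul_zero, add_zero,
        add_assoc, ← add_smul]
      have : h x (a + b) + h x (a + b) = 0 := by rw [← two_mul, h2, zero_mul]
      rw [this, zero_smul, add_zero]
    have hK : Herm.uT hf hu 1 ∈ K := hmemS _ hT hTS (by rw [hinv]; exact hTS)
    obtain ⟨w, hw, hwa, hw0⟩ := hsecond i₀
    have hTw : (Herm.uT hf hu 1 : Mat) *ᵥ (a + w) = b + w := by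
      rw [Matrix.mulVec_add, hTa, hTm w, hwa, horth _ _ h01 w hw b (heD i₁), add_zero, zero_smul, add_zero]
    refine not_stab_of_spread hD.decomp ((D i₀).add_mem (heD i₀) hw) h01 ?_ ?_ (hKle hK).1 <;>
      rw [hTw, map_add]
    · rw [comp_other hD.decomp h01.symm (heD i₁), comp_same hD.decomp hw, zero_add]; exact hw0
    · rw [comp_same hD.decomp (heD i₁), comp_other hD.decomp h01 hw, add_zero]; exact he0 i₁
  · -- a transvection destroying the frame
    let i₂ : Fin t := ⟨2, by omega⟩
    let i₃ : Fin t := ⟨3, by omega⟩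
    have h02 : i₀ ≠ i₂ := by simp [i₀, i₂]
    have h03 : i₀ ≠ i₃ := by simp [i₀, i₃]
    have h12 : i₁ ≠ i₂ := by simp [i₁, i₂]
    have h13 : i₁ ≠ i₃ := by simp [i₁, i₃]
    have h23 : i₂ ≠ i₃ := by simp [i₂, i₃]
    set v := e i₀ + e i₁ + (e i₂ + e i₃) with hvdef
    have hv : h v v = 0 := by
      simp only [hvdef, hf.add_left, Herm.add_right hf, he1, hee _ _ h01, hee _ _ h02, hee _ _ h03,
        hee _ _ h12, hee _ _ h13, hee _ _ h23, hee _ _ h01.symm, hee _ _ h02.symm, hee _ _ h03.symm,
        hee _ _ h12.symm, hee _ _ h13.symm, hee _ _ h23.symm]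
      linear_combination 2 * h2
    have hT := Herm.uT_mem_su hF hv hone
    have hTv : (Herm.uT hf hv 1 : Mat) *ᵥ e i₀ = e i₁ + (e i₂ + e i₃) := by
      have h1 : h (e i₀) v = 1 := by
        simp only [hvdef, Herm.add_right hf, he1, hee _ _ h01, hee _ _ h02, hee _ _ h03, add_zero]
      have : e i₀ + e i₀ = 0 := by rw [← two_smul F, h2, zero_smul]
      rw [Herm.uT_mulVec, one_mul, h1, one_smul, hvdef]
      linear_combination (norm := abel) this
    have hmem := ((hGle hT).1 (e i₀)).mp ⟨i₀, heD i₀, he1 i₀⟩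
    change (Herm.uT hf hv 1 : Mat) *ᵥ e i₀ ∈ S at hmem
    obtain ⟨j, hj, -⟩ := hmem
    rw [hTv] at hj
    by_cases hj1 : j = i₁
    · have := comp_other hD.decomp (i := i₂) (hj1 ▸ h12) hj
      rw [map_add, map_add, hce _ _ h12.symm, hce _ _ h23, comp_same hD.decomp (heD i₂), zero_add,
        add_zero] at this
      exact he0 _ this
    · have := comp_other hD.decomp (i := i₁) hj1 hj
      rw [map_add, map_add, hce _ _ h12, hce _ _ h13, comp_same hD.decomp (heD i₁), add_zero,
        add_zero] at this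
      exact he0 _ this

end Cfsg.Agent.H3
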