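import Cfsg.Agent.H3.UFrame
import Cfsg.Agent.H3.UPlanesFour

set_option autoImplicit false
set_option linter.unusedSectionVars false

/-!
# Overgroups of the monomial group of `SU` over the field with four elements
-/

namespace Cfsg.Agent.H3

open scoped Matrix
open Cfsg.Agent.H98

variable {F : Type*} [Field F] [Fintype F] {n : ℕ} (hF : Fintype.card F = 2 ^ 2)

local notation "Mat" => Matrix (Fin n) (Fin n) F
local notation "h" => Cfsg.hermForm n F 2
local notation "G₁" => Cfsg.GU n F 2 ⊓ Cfsg.Geo.specialLinear (Fin n) F

include hF

/-- A primitive cube root of unity. -/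
theorem exists_omega_two : ∃ w : F, w ≠ 0 ∧ w ≠ 1 ∧ w ^ 2 + w + 1 = 0 ∧ w ^ 3 = 1 := by
  obtain ⟨w, hw, hw1, -⟩ := exists_norm_one_ne hF
  have hw3 : w ^ 3 = 1 := hw
  refine ⟨w, fun h0 => by rw [h0] at hw3; simp at hw3, hw1, ?_, hw3⟩
  have : (w - 1) * (w ^ 2 + w + 1) = 0 := by linear_combination hw3
  exact (mul_eq_zero.mp this).resolve_left (sub_ne_zero.mpr hw1)

open scoped Classical in
/-- The value of the form is the weight. -/
theorem herm_self_eq_card (v : Fin n → F) :
    h v v = ((Finset.univ.filter fun l => v l ≠ 0).card : F) := by
  rw [Finset.card_eq_sum_ones, Nat.cast_sum, Finset.sum_filter]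
  refine Finset.sum_congr rfl fun l _ => ?_
  by_cases hl : v l = 0
  · simp [hl]
  · rw [if_pos hl, Nat.cast_one, ← pow_succ']; exact four_pow_three hF hl

open scoped Classical in
/-- An overgroup of the monomial group with a centre of weight at least four is `SU`. -/
theorem su_le_of_weight_four (hn : 13 ≤ n) {M : Subgroup (GL (Fin n) F)} (hMK : M ≤ G₁) (hdiag : HasDiag 2 M)
    (hW : ∀ (i j : Fin n) (a b : F), i ≠ j → a ^ (2 + 1) + b ^ (2 + 1) = 0 →
      (a • Pi.single i 1 + b • Pi.single j 1 : Fin n → F) ∈
        Herm.centres (Herm.isUnitary_std (n := n) hF) M)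
    {g : GL (Fin n) F} (hg : g ∈ M) {i₀ : Fin n}
    (hgi : 2 ≤ (Finset.univ.filter fun l => ((g : Mat) *ᵥ Pi.single i₀ 1) l ≠ 0).card) : G₁ ≤ M := by
  classical
  have hf := Herm.isUnitary_std (n := n) hF
  have h2 : (2 : F) = 0 := four_two_eq_zero hF
  haveI : CharP F 2 := charP_of_card_eq_prime_pow (f := 2) hF
  obtain ⟨w, hw0, hw1, hww, hw3⟩ := exists_omega_two hF
  have hiso : ∀ m ∈ M, ∀ a b, h ((m : Mat) *ᵥ a) ((m : Mat) *ᵥ b) = h a b := fun m hm => (hMK hm).1
  let sp : (Fin n → F) → Finset (Fin n) := fun v => Finset.univ.filter fun l => v l ≠ 0
  have hsp : ∀ v l, l ∈ sp v ↔ v l ≠ 0 := fun v l => by simp [sp]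
  have hnorm : ∀ v, h v v = ((sp v).card : F) := fun v => herm_self_eq_card hF v
  have heven : ∀ v, h v v = 0 → 2 ∣ (sp v).card := fun v hv => by
    rw [hnorm] at hv; exact (CharP.cast_eq_zero_iff F 2 _).mp hv
  have hiso0 : ∀ v, 2 ∣ (sp v).card → h v v = 0 := fun v hv => by
    rw [hnorm]; exact (CharP.cast_eq_zero_iff F 2 _).mpr hv
  -- sums of non-orthogonal centres
  have hsum : ∀ u v, u ∈ Herm.centres hf M → v ∈ Herm.centres hf M → ∀ k : F, k * h u v = 1 →
      k • u + v ∈ Herm.centres hf M := by
    intro u v hu hv k hk
    have huv : h u v ≠ 0 := right_ne_zero_of_mul (by rw [hk]; exact one_ne_zero)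
    have := Herm.centres_pair hf hiso hu hv huv (k := k) (l := 1) (by
      rw [one_smul, hf.add_left, Herm.add_right hf, Herm.add_right hf, hf.smul_left, hf.smul_left,
        Herm.smul_right hf, Herm.smul_right hf, hu.1, hv.1, hk, ← Herm.sigma_apply hf u v, ← map_mul, hk, map_one]
      linear_combination h2)
    rwa [one_smul] at this
  -- scaled transpositions
  have hswap : ∀ i j : Fin n, i ≠ j → ∀ a : F, a ≠ 0 → ∃ m ∈ M, ∀ v : Fin n → F,
      ((m : GL (Fin n) F) : Mat) *ᵥ v =
        fun l => if l = j then a * v i else if l = i then a ^ 2 * v j else v l := by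
    intro i j hij a ha
    have ha3 := four_pow_three hF ha
    obtain ⟨hzz, hz⟩ := hW i j 1 a hij (by
      rw [one_pow]
      linear_combination ha3 + h2)
    refine ⟨_, hz 1 (by rw [map_one]; linear_combination h2), fun v => funext fun l => ?_⟩
    rw [Herm.uT_mulVec, one_mul, Herm.add_right hf, Herm.smul_right hf, Herm.smul_right hf,
      herm_single_right hF, herm_single_right hF, map_one, one_mul, Herm.frobQ_apply hF]
    simp only [Pi.add_apply, Pi.smul_apply, Pi.single_apply, smul_eq_mul]
    split_ifs with h1 h1' h1'
    · exact absurd (h1'.symm.trans h1) (Ne.symm hij)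
    · subst h1
      linear_combination (v l) * h2
    · subst h1'
      linear_combination (v l) * ha3 + v l * h2
    · ring
  have hdg : ∀ d : Fin n → F, (∀ l, d l ≠ 0) → ∏ l, d l = 1 → ∀ v, v ∈ Herm.centres hf M →
      (fun l => d l * v l) ∈ Herm.centres hf M := by
    intro d hd hp v hv
    have := Herm.centres_conj hf hiso (hdiag d (fun l => four_pow_three hF (hd l)) hp) hv
    convert this using 1
    funext l
    simp [guDiag, Matrix.mulVec_diagonal]
  -- a centre of weight at least four
  obtain ⟨r, hrC, hr4⟩ : ∃ r ∈ Herm.centres hf M, 4 ≤ (sp r).card := by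
    by_contra hc
    push Not at hc
    set u := (g : Mat) *ᵥ Pi.single i₀ 1 with hu
    have hU : ∀ j, j ≠ i₀ → ∀ l, ((g : Mat) *ᵥ Pi.single j 1) l ≠ 0 → u l ≠ 0 := by
      intro j hj l hl
      set u' := (g : Mat) *ᵥ Pi.single j 1 with hu'
      have hC : ∀ a : F, a ^ 3 = 1 → u + a • u' ∈ Herm.centres hf M := fun a ha => by
        have hw2 := hW i₀ j 1 a (Ne.symm hj) (by rw [one_pow]; linear_combination ha + h2)
        have := Herm.centres_conj hf hiso hg hw2
        rwa [one_smul, Matrix.mulVec_add, Matrix.mulVec_smul] at this
      have hsmall : ∀ a : F, a ^ 3 = 1 → (sp (u + a • u')).card ≤ 2 := fun a ha => by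
        have h4 := hc _ (hC a ha)
        have := heven _ (hC a ha).1
        omega
      by_contra hul
      let U := sp u ∪ sp u'
      have hUsub : ∀ z ∈ U, 2 ≤ (({1, w, w ^ 2} : Finset F).filter fun a => (u + a • u') z ≠ 0).card := by
        intro z hz
        rw [Finset.mem_union, hsp, hsp] at hz
        have hone : ∀ a b : F, a ≠ b → (u + a • u') z = 0 → (u + b • u') z ≠ 0 := by
          intro a b hab ha0 hb0
          simp only [Pi.add_apply, Pi.smul_apply, smul_eq_mul] at ha0 hb0
          have h1 : (a - b) * u' z = 0 := by linear_combination ha0 - hb0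
          have h1' := (mul_eq_zero.mp h1).resolve_left (sub_ne_zero.mpr hab)
          rw [h1', mul_zero, add_zero] at ha0
          rcases hz with hz | hz
          · exact hz ha0
          · exact hz h1'
        have d1 : (1 : F) ≠ w := Ne.symm hw1
        have d2 : (1 : F) ≠ w ^ 2 := fun e => hw1 (by linear_combination hw3 + w * e)
        have d3 : w ≠ w ^ 2 := fun e => hw1 (mul_left_cancel₀ hw0 (by rw [mul_one, ← sq]; exact e.symm))
        by_cases a1 : (u + (1 : F) • u') z = 0
        · refine le_trans (le_of_eq (Finset.card_pair d3).symm) (Finset.card_le_card fun a ha => ?_)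
          simp only [Finset.mem_insert, Finset.mem_singleton] at ha
          rcases ha with rfl | rfl <;> simp only [Finset.mem_filter, Finset.mem_insert, Finset.mem_singleton,
            true_or, or_true, true_and]
          · exact hone 1 _ d1 a1
          · exact hone 1 _ d2 a1
        by_cases a2 : (u + w • u') z = 0
        · refine le_trans (le_of_eq (Finset.card_pair d2).symm) (Finset.card_le_card fun a ha => ?_)
          simp only [Finset.mem_insert, Finset.mem_singleton] at ha
          rcases ha with rfl | rfl <;> simp only [Finset.mem_filter, Finset.mem_insert, Finset.mem_singleton,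
            true_or, or_true, true_and]
          · exact a1
          · exact hone w _ d3 a2
        refine le_trans (le_of_eq (Finset.card_pair d1).symm) (Finset.card_le_card fun a ha => ?_)
        simp only [Finset.mem_insert, Finset.mem_singleton] at ha
        rcases ha with rfl | rfl <;> simp only [Finset.mem_filter, Finset.mem_insert, Finset.mem_singleton,
          true_or, or_true, true_and]
        · exact a1
        · exact a2
      have h6 : 2 * U.card ≤ 6 := by
        have hdouble : U.card * 2 ≤ ∑ a ∈ ({1, w, w ^ 2} : Finset F), (sp (u + a • u')).card := by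
          calc U.card * 2 = ∑ _z ∈ U, 2 := by rw [Finset.sum_const, smul_eq_mul]
            _ ≤ ∑ z ∈ U, (({1, w, w ^ 2} : Finset F).filter fun a => (u + a • u') z ≠ 0).card :=
                Finset.sum_le_sum hUsub
            _ = ∑ a ∈ ({1, w, w ^ 2} : Finset F), (U.filter fun z => (u + a • u') z ≠ 0).card := by
                simp only [Finset.card_filter]; exact Finset.sum_comm
            _ ≤ _ := Finset.sum_le_sum fun a _ => Finset.card_le_card fun z hz => by
                rw [Finset.mem_filter] at hz; exact (hsp _ _).mpr hz.2
        have hle : ∑ a ∈ ({1, w, w ^ 2} : Finset F), (sp (u + a • u')).card ≤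
            ({1, w, w ^ 2} : Finset F).card * 2 := by
          refine (Finset.sum_le_card_nsmul _ _ 2 fun a ha => hsmall a ?_).trans (le_of_eq (smul_eq_mul _ _))
          simp only [Finset.mem_insert, Finset.mem_singleton] at ha
          rcases ha with rfl | rfl | rfl
          · exact one_pow 3
          · exact hw3
          · rw [← pow_mul, mul_comm, pow_mul, hw3, one_pow]
        have := Finset.card_le_three (a := (1 : F)) (b := w) (c := w ^ 2)
        omega
      have huodd : ¬ 2 ∣ (sp u).card := fun h' => by
        have h1 := (hiso g hg (Pi.single i₀ 1) (Pi.single i₀ 1)).trans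
          (by rw [herm_single_right hF, Pi.single_eq_same] : h (Pi.single i₀ 1) (Pi.single i₀ 1) = 1)
        rw [← hu, hiso0 u h'] at h1
        exact zero_ne_one h1
      have h3 : 3 ≤ (sp u).card := by
        have : 2 ≤ (sp u).card := hgi
        omega
      have hsub : sp u = U := Finset.eq_of_subset_of_card_le Finset.subset_union_left (by omega)
      have : l ∈ sp u := hsub ▸ Finset.mem_union_right _ ((hsp u' l).mpr hl)
      exact (hsp u l).mp this hul
    -- all columns are supported inside the support of `u`
    have hsmallu : (sp u).card < n := by
      by_contra hge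
      obtain ⟨j, hj⟩ : ∃ j, j ≠ i₀ := Fintype.exists_ne_of_one_lt_card (by simp; omega) i₀
      set u' := (g : Mat) *ᵥ Pi.single j 1 with hu'
      have hw2 := hW i₀ j 1 1 (Ne.symm hj) (by rw [one_pow]; linear_combination h2)
      have hC := Herm.centres_conj hf hiso hg hw2
      rw [one_smul, one_smul, Matrix.mulVec_add, ← hu, ← hu'] at hC
      have hw2' := hW i₀ j 1 w (Ne.symm hj) (by rw [one_pow]; linear_combination hw3 + h2)
      have hC' := Herm.centres_conj hf hiso hg hw2'
      rw [one_smul, Matrix.mulVec_add, Matrix.mulVec_smul, ← hu, ← hu'] at hC'
      have hall : ∀ z, (u + u') z ≠ 0 ∨ (u + w • u') z ≠ 0 := by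
        intro z
        by_contra hz
        push Not at hz
        simp only [Pi.add_apply, Pi.smul_apply, smul_eq_mul] at hz
        have h1 : (1 - w) * u' z = 0 := by linear_combination hz.1 - hz.2
        have h1' := (mul_eq_zero.mp h1).resolve_left (sub_ne_zero.mpr (Ne.symm hw1))
        have h0 : u z = 0 := by linear_combination hz.1 - h1'
        have : z ∉ sp u := fun h' => (hsp u z).mp h' h0
        have := Finset.card_lt_univ_of_notMem this
        simp at this
        omega
      have : n ≤ (sp (u + u')).card + (sp (u + w • u')).card := by
        refine le_trans ?_ (Finset.card_union_le _ _)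
        refine le_of_eq_of_le (Finset.card_fin n).symm (Finset.card_le_card fun z _ => ?_)
        rw [Finset.mem_union, hsp, hsp]; exact hall z
      have := hc _ hC
      have := hc _ hC'
      omega
    obtain ⟨l, hl⟩ : ∃ l, l ∉ sp u := by
      by_contra hall
      push Not at hall
      rw [show sp u = Finset.univ from Finset.eq_univ_iff_forall.mpr hall, Finset.card_fin] at hsmallu
      omega
    rw [hsp, not_not] at hl
    have hrow : ∀ x, ((g : Mat) *ᵥ x) l = 0 := by
      intro x
      rw [← Finset.univ_sum_single x, Matrix.mulVec_sum, Finset.sum_apply]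
      refine Finset.sum_eq_zero fun j _ => ?_
      rw [show (Pi.single j (x j) : Fin n → F) = x j • Pi.single j 1 by rw [← Pi.single_smul, smul_eq_mul, mul_one],
        Matrix.mulVec_smul, Pi.smul_apply, smul_eq_mul]
      by_cases hj : j = i₀
      · rw [hj, ← hu, hl, mul_zero]
      · by_cases h0 : ((g : Mat) *ᵥ Pi.single j 1) l = 0
        · rw [h0, mul_zero]
        · exact absurd hl (hU j hj l h0)
    have := hrow (((g⁻¹ : GL (Fin n) F) : Mat) *ᵥ Pi.single l 1)
    rw [gl_mulVec_inv, Pi.single_eq_same] at this
    exact one_ne_zero this
  -- a centre of weight four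
  obtain ⟨r₄, hr₄C, hr₄⟩ : ∃ r ∈ Herm.centres hf M, (sp r).card = 4 := by
    suffices hk : ∀ k, ∀ r ∈ Herm.centres hf M, (sp r).card ≤ k → 4 ≤ (sp r).card →
        ∃ r ∈ Herm.centres hf M, (sp r).card = 4 from hk _ r hrC le_rfl hr4
    intro k
    induction k with
    | zero => intro r _ h0 h4; omega
    | succ k ih =>
      intro r hrC hk h4
      by_cases h5 : (sp r).card = 4
      · exact ⟨r, hrC, h5⟩
      have hev := heven r hrC.1
      obtain ⟨t, hts, htc⟩ := Finset.exists_subset_card_eq (s := sp r) (n := 5) (by omega)
      obtain ⟨a, t₁, hat, rfl, ht₁⟩ := Finset.card_eq_succ.mp htc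
      obtain ⟨b, t₂, hbt, rfl, ht₂⟩ := Finset.card_eq_succ.mp ht₁
      by_cases hfull : (sp r).card < n
      · obtain ⟨o, ho⟩ : ∃ o, o ∉ sp r := by
          by_contra hall; push Not at hall
          rw [show sp r = Finset.univ from Finset.eq_univ_iff_forall.mpr hall, Finset.card_fin] at hfull
          omega
        -- `t₂` gets a cube root and `a` moves to `o`
        have hta : a ∈ sp r := hts (by simp)
        have hao : a ≠ o := fun e => ho (e ▸ hta)
        have hsub : t₂ ⊆ sp r := fun x hx => hts (by simp [hx])
        have hat₂ : a ∉ t₂ := fun hx => hat (by simp [hx])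
        have hot₂ : o ∉ t₂ := fun hx => ho (hsub hx)
        let d : Fin n → F := fun l => if l ∈ t₂ then w else 1
        have hd0 : ∀ l, d l ≠ 0 := fun l => by dsimp only [d]; split_ifs <;> simp [hw0]
        have hdp : ∏ l, d l = 1 := by
          simp only [d, Finset.prod_ite_mem, Finset.univ_inter, Finset.prod_const]
          rw [show t₂.card = 3 from ht₂, hw3]
        obtain ⟨m, hm, hmv⟩ := hswap a o hao 1 one_ne_zero
        set r' := (m : Mat) *ᵥ (fun l => d l * r l) with hr'
        have hr'C : r' ∈ Herm.centres hf M := Herm.centres_conj hf hiso hm (hdg d hd0 hdp r hrC)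
        have hro : r o = 0 := by rw [hsp, not_not] at ho; exact ho
        have hr'v : ∀ l, r' l = if l = o then r a else if l = a then 0 else d l * r l := by
          intro l
          rw [hr', hmv]
          simp only [one_pow, one_mul, hro, mul_zero, d, if_neg hat₂]
        have hval : h r r' = w ^ 2 := by
          have e : ∀ l, r l * r' l ^ 2 = (if l ∈ t₂ then w ^ 2 + 1 else 0) + (if r l ≠ 0 then 1 else 0) +
              (if l = a then 1 else 0) := by
            intro l
            rw [hr'v]
            by_cases hlo : l = o
            · subst hlo; simp [hro, hot₂, hao.symm]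
            rw [if_neg hlo]
            by_cases hla : l = a
            · subst hla; simp [hat₂, (hsp r l).mp hta]; linear_combination -h2
            rw [if_neg hla, if_neg hla]
            by_cases hlt : l ∈ t₂
            · have h3 := four_pow_three hF ((hsp r l).mp (hsub hlt))
              rw [if_pos hlt, if_pos ((hsp r l).mp (hsub hlt))]
              simp only [d, if_pos hlt]
              linear_combination w ^ 2 * h3 - h2
            · simp only [d, if_neg hlt]
              by_cases hrl : r l = 0
              · simp [hrl]
              · have h3 := four_pow_three hF hrl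
                rw [if_pos hrl]; linear_combination h3
          unfold Cfsg.hermForm
          rw [Finset.sum_congr rfl fun l _ => e l, Finset.sum_add_distrib, Finset.sum_add_distrib,
            Finset.sum_ite_mem, Finset.univ_inter, Finset.sum_const, ← Finset.sum_filter,
            Finset.sum_const, Finset.sum_ite_eq', if_pos (Finset.mem_univ a), show t₂.card = 3 from ht₂]
          rw [nsmul_eq_mul, nsmul_eq_mul, mul_one]
          rw [show ((Finset.univ.filter fun l => r l ≠ 0).card : F) = 0 by rw [← hnorm]; exact hrC.1]
          push_cast
          linear_combination (w ^ 2 + 2) * h2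
        have hnew := hsum r r' hrC hr'C w (by rw [hval, ← pow_succ', hw3])
        refine ih _ hnew ?_ ?_
        all_goals
          have hsp' : sp (w • r + r') = insert o ((sp r) \ t₂) := by
            ext l
            rw [hsp, Finset.mem_insert, Finset.mem_sdiff, hsp]
            simp only [Pi.add_apply, Pi.smul_apply, smul_eq_mul]
            rw [hr'v]
            by_cases hlo : l = o
            · subst hlo; simp [hro, (hsp r a).mp hta]
            rw [if_neg hlo]
            by_cases hla : l = a
            · subst hla; simp [hat₂, hlo, hw0, (hsp r l).mp hta]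
            rw [if_neg hla]
            by_cases hlt : l ∈ t₂
            · have : w * r l + d l * r l = 0 := by
                simp only [d, if_pos hlt]; linear_combination (w * r l) * h2
              simp [this, hlo, hlt]
            · simp only [d, if_neg hlt, hlo, false_or, hlt, not_false_eq_true, and_true]
              rw [← add_mul]
              simp [show w + 1 ≠ 0 from fun e => hw1 (by linear_combination e - h2)]
          rw [hsp', Finset.card_insert_of_notMem (fun h' => ho (Finset.mem_sdiff.mp h').1),
            Finset.card_sdiff_of_subset hsub, show t₂.card = 3 from ht₂]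
          omega
      · have hcardn : (sp r).card = n := le_antisymm (Finset.card_le_univ _ |>.trans_eq (by simp)) (by omega)
        have hall : ∀ l, r l ≠ 0 := fun l => (hsp r l).mp (by
          rw [Finset.eq_univ_of_card (sp r) (by simpa using hcardn)]; exact Finset.mem_univ l)
        set t := insert b t₂ with ht
        let d : Fin n → F := fun l => if l = a then w ^ 2 else if l ∈ t then w else 1
        have hd0 : ∀ l, d l ≠ 0 := fun l => by dsimp only [d]; split_ifs <;> simp [hw0]
        have hw4 : w ^ 4 = w := by linear_combination w * hw3
        have hdp : ∏ l, d l = 1 := by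
          have e : ∀ l, d l = (if l ∈ t then w else 1) * (if l = a then w ^ 2 else 1) := fun l => by
            dsimp only [d]
            by_cases hla : l = a
            · subst hla; simp [hat]
            · simp [hla]
          rw [Finset.prod_congr rfl fun l _ => e l, Finset.prod_mul_distrib, Finset.prod_ite_mem,
            Finset.univ_inter, Finset.prod_const, show t.card = 4 from ht₁, Finset.prod_ite_eq',
            if_pos (Finset.mem_univ a), hw4, ← pow_succ', hw3]
        have hr'C : (fun l => d l * r l) ∈ Herm.centres hf M := hdg d hd0 hdp r hrC
        have hval : h r (fun l => d l * r l) = w ^ 2 := by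
          have e : ∀ l, r l * (d l * r l) ^ 2 = (if l ∈ t then w ^ 2 + 1 else 0) + 1 +
              (if l = a then w + 1 else 0) := by
            intro l
            have h3 := four_pow_three hF (hall l)
            dsimp only [d]
            by_cases hla : l = a
            · subst hla; simp [hat]; linear_combination w ^ 4 * h3 + hw4 - h2
            · simp only [hla, if_false]
              split_ifs <;> first
                | linear_combination w ^ 2 * h3 - h2
                | linear_combination h3
          unfold Cfsg.hermForm
          rw [Finset.sum_congr rfl fun l _ => e l, Finset.sum_add_distrib, Finset.sum_add_distrib,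
            Finset.sum_ite_mem, Finset.univ_inter, Finset.sum_const, Finset.sum_const, Finset.sum_ite_eq',
            if_pos (Finset.mem_univ a), show t.card = 4 from ht₁, Finset.card_univ, Fintype.card_fin,
            nsmul_eq_mul, nsmul_eq_mul, mul_one,
            show (n : F) = 0 by rw [← hcardn, ← hnorm]; exact hrC.1]
          push_cast
          linear_combination (2 * w ^ 2 + 2) * h2 + hww - w ^ 2 * h2
        have hnew := hsum r _ hrC hr'C w (by rw [hval, ← pow_succ', hw3])
        refine ih _ hnew ?_ ?_
        all_goals
          have hsp' : sp (w • r + fun l => d l * r l) = tᶜ := by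
            ext l
            rw [hsp, Finset.mem_compl]
            simp only [Pi.add_apply, Pi.smul_apply, smul_eq_mul, d, ← add_mul, mul_ne_zero_iff, hall l,
              ne_eq, not_false_eq_true, and_true]
            by_cases hla : l = a
            · subst hla
              simp [hat, show w + w ^ 2 ≠ 0 from fun e => one_ne_zero (α := F) (by linear_combination hww - e)]
            · simp only [hla, if_false]
              by_cases hlt : l ∈ t
              · simp [hlt, show w + w = 0 by linear_combination w * h2]
              · simp [hlt, show w + 1 ≠ 0 from fun e => hw1 (by linear_combination e - h2)]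
          rw [hsp', Finset.card_compl, show t.card = 4 from ht₁, Fintype.card_fin]
          omega
  -- all vectors of weight four
  have hfour : ∀ v, (sp v).card = 4 → v ∈ Herm.centres hf M := by
    intro v hv
    suffices hk : ∀ k, ∀ r ∈ Herm.centres hf M, (sp r).card = 4 →
        (Finset.univ.filter fun l => r l ≠ v l).card ≤ k → v ∈ Herm.centres hf M from hk _ r₄ hr₄C hr₄ le_rfl
    intro k
    induction k with
    | zero =>
      intro r hr _ h0
      convert hr using 1
      funext l
      by_contra hl
      have := Finset.card_pos.mpr (⟨l, Finset.mem_filter.mpr ⟨Finset.mem_univ l, fun (e : r l = v l) => hl e.symm⟩⟩ :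
        (Finset.univ.filter fun l => r l ≠ v l).Nonempty)
      omega
    | succ k ih =>
      intro r hr hr4 hk
      by_cases hwrong : ∃ i, v i ≠ 0 ∧ r i ≠ v i
      · obtain ⟨i, hvi, hri⟩ := hwrong
        by_cases hri0 : r i = 0
        · obtain ⟨j, hjr, hjv⟩ : ∃ j, r j ≠ 0 ∧ v j = 0 := by
            by_contra hc
            push Not at hc
            have hsub : sp r ⊆ (sp v).erase i := fun j hj => by
              rw [hsp] at hj
              exact Finset.mem_erase.mpr ⟨fun e => hj (e ▸ hri0), (hsp v j).mpr (hc j hj)⟩
            have := Finset.card_le_card hsub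
            rw [Finset.card_erase_of_mem ((hsp v i).mpr hvi)] at this
            omega
          have hji : j ≠ i := fun e => hjr (e ▸ hri0)
          have ha : v i / r j ≠ 0 := div_ne_zero hvi hjr
          obtain ⟨m, hm, hmv⟩ := hswap j i hji _ ha
          have hval : ∀ l, ((m : Mat) *ᵥ r) l = if l = i then v i else if l = j then 0 else r l := fun l => by
            rw [hmv]; simp only [hri0, mul_zero, div_mul_cancel₀ _ hjr]
          refine ih _ (Herm.centres_conj hf hiso hm hr) ?_ ?_
          · have he : sp ((m : Mat) *ᵥ r) = insert i ((sp r).erase j) := by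
              ext l
              rw [hsp, hval, Finset.mem_insert, Finset.mem_erase, hsp]
              by_cases hli : l = i
              · simp [hli, hvi]
              · by_cases hlj : l = j <;> simp [hli, hlj, hji]
            rw [he, Finset.card_insert_of_notMem (by simp [hsp, hri0]),
              Finset.card_erase_of_mem ((hsp r j).mpr hjr), hr4]
          · have hsub : (Finset.univ.filter fun l => ((m : Mat) *ᵥ r) l ≠ v l) ⊆
                (Finset.univ.filter fun l => r l ≠ v l).erase i := by
              intro l hl
              simp only [Finset.mem_filter, Finset.mem_erase, hval, Finset.mem_univ, true_and] at hl ⊢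
              by_cases hli : l = i
              · simp [hli] at hl
              · by_cases hlj : l = j
                · subst hlj; simp [hli, hjv] at hl
                · simp [hli, hlj] at hl ⊢; exact hl
            have := Finset.card_le_card hsub
            rw [Finset.card_erase_of_mem (by simp [hri])] at this
            omega
        · obtain ⟨o, ho⟩ : ∃ o, o ∉ sp r ∪ sp v := by
            by_contra hall; push Not at hall
            have := Finset.card_union_le (sp r) (sp v)
            rw [show sp r ∪ sp v = Finset.univ from Finset.eq_univ_iff_forall.mpr hall, Finset.card_fin] at this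
            omega
          rw [Finset.mem_union, hsp, hsp, not_or, not_not, not_not] at ho
          have hio : i ≠ o := fun e => hri0 (e ▸ ho.1)
          have hρ : v i / r i ≠ 0 := div_ne_zero hvi hri0
          let d : Fin n → F := fun l => if l = i then v i / r i else if l = o then (v i / r i)⁻¹ else 1
          have hval : ∀ l, d l * r l = if l = i then v i else r l := fun l => by
            dsimp only [d]
            by_cases hli : l = i
            · subst hli; simp [div_mul_cancel₀ _ hri0]
            · by_cases hlo : l = o
              · subst hlo; simp [hli, ho.1]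
              · simp [hli, hlo]
          refine ih _ (hdg d (fun l => ?_) ?_ r hr) ?_ ?_
          · dsimp only [d]; split_ifs <;> simp [hρ, hri0, hvi]
          · rw [Finset.prod_eq_mul i o hio (fun l _ hl => by simp [d, hl.1, hl.2]) (by simp) (by simp)]
            simp only [d, if_pos rfl, if_neg hio.symm]
            exact mul_inv_cancel₀ hρ
          · have he : sp (fun l => d l * r l) = sp r := by
              ext l
              rw [hsp, hsp, hval]
              by_cases hli : l = i <;> simp [hli, hvi, hri0]
            rw [he, hr4]
          · have hsub : (Finset.univ.filter fun l => d l * r l ≠ v l) ⊆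
                (Finset.univ.filter fun l => r l ≠ v l).erase i := by
              intro l hl
              simp only [Finset.mem_filter, Finset.mem_erase, hval, Finset.mem_univ, true_and] at hl ⊢
              by_cases hli : l = i
              · simp [hli] at hl
              · simp [hli] at hl ⊢; exact hl
            have := Finset.card_le_card hsub
            rw [Finset.card_erase_of_mem (by simp [hri])] at this
            omega
      · push Not at hwrong
        have hsub : sp v ⊆ sp r := fun l hl => by
          rw [hsp] at hl ⊢; rwa [hwrong l hl]
        have heq := Finset.eq_of_subset_of_card_le hsub (by omega)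
        convert hr using 1
        funext l
        by_cases hl : v l = 0
        · have : l ∉ sp r := heq ▸ fun h' => (hsp v l).mp h' hl
          rw [hsp, not_not] at this
          rw [hl, this]
        · exact (hwrong l hl).symm
  -- all isotropic vectors
  have hall : ∀ k, ∀ v, (sp v).card ≤ k → v ≠ 0 → h v v = 0 → v ∈ Herm.centres hf M := by
    intro k
    induction k with
    | zero =>
      intro v hv hv0 _
      refine absurd (funext fun l => ?_) hv0
      by_contra hl
      have := Finset.card_pos.mpr ⟨l, (hsp v l).mpr hl⟩
      omega
    | succ k ih =>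
      intro v hv hv0 hvv
      have hev := heven v hvv
      have hpos : 0 < (sp v).card := by
        obtain ⟨l, hl⟩ := Function.ne_iff.mp hv0
        exact Finset.card_pos.mpr ⟨l, (hsp v l).mpr hl⟩
      rcases (show (sp v).card = 2 ∨ (sp v).card = 4 ∨ 6 ≤ (sp v).card by omega) with h' | h' | h'
      · obtain ⟨i, j, hij, hs⟩ := Finset.card_eq_two.mp h'
        have hve : v = v i • Pi.single i 1 + v j • Pi.single j 1 := by
          ext l
          by_cases hli : l = i
          · subst hli; simp [hij]
          by_cases hlj : l = j
          · subst hlj; simp [Ne.symm hij]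
          have : l ∉ sp v := by rw [hs]; simp [hli, hlj]
          rw [hsp, not_not] at this
          simp [hli, hlj, this]
        have hi : v i ≠ 0 := (hsp v i).mp (by rw [hs]; simp)
        have hj : v j ≠ 0 := (hsp v j).mp (by rw [hs]; simp)
        rw [hve]
        exact hW i j _ _ hij (by
          rw [four_pow_three hF hi, four_pow_three hF hj]; linear_combination h2)
      · exact hfour v h'
      obtain ⟨t, hts, htc⟩ := Finset.exists_subset_card_eq (s := sp v) (n := 4) (by omega)
      obtain ⟨o₁, t₁, ho₁, rfl, ht₁⟩ := Finset.card_eq_succ.mp htc
      by_cases hfull : (sp v).card < n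
      · obtain ⟨o, ho⟩ : ∃ o, o ∉ sp v := by
          by_contra hall; push Not at hall
          rw [show sp v = Finset.univ from Finset.eq_univ_iff_forall.mpr hall, Finset.card_fin] at hfull
          omega
        have hvo : v o = 0 := by rw [hsp, not_not] at ho; exact ho
        have hsub : t₁ ⊆ sp v := fun x hx => hts (by simp [hx])
        have hot : o ∉ t₁ := fun hx => ho (hsub hx)
        let x : Fin n → F := fun l => if l = o then 1 else if l ∈ t₁ then v l else 0
        let y : Fin n → F := fun l => if l = o then 1 else if l ∈ t₁ then 0 else v l
        have hxsp : sp x = insert o t₁ := by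
          ext l
          rw [hsp, Finset.mem_insert]
          by_cases hlo : l = o
          · simp [x, hlo]
          · by_cases hlt : l ∈ t₁
            · simp [x, hlo, hlt, (hsp v l).mp (hsub hlt)]
            · simp [x, hlo, hlt]
        have hysp : sp y = insert o (sp v \ t₁) := by
          ext l
          rw [hsp, Finset.mem_insert, Finset.mem_sdiff, hsp]
          by_cases hlo : l = o
          · simp [y, hlo]
          · by_cases hlt : l ∈ t₁ <;> simp [y, hlo, hlt]
        have hxc : (sp x).card = 4 := by rw [hxsp, Finset.card_insert_of_notMem hot, ht₁]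
        have hyc : (sp y).card + 2 = (sp v).card := by
          rw [hysp, Finset.card_insert_of_notMem (fun hh => ho (Finset.mem_sdiff.mp hh).1),
            Finset.card_sdiff_of_subset hsub, ht₁]
          omega
        have hy0 : y ≠ 0 := fun e => by
          have := congrFun e o; simp [y] at this
        have hyC : y ∈ Herm.centres hf M := ih y (by omega) hy0 (hiso0 y (by omega))
        have hval : h y x = 1 := by
          unfold Cfsg.hermForm
          rw [Finset.sum_eq_single o (fun l _ hl => by by_cases hlt : l ∈ t₁ <;> simp [x, y, hl, hlt]) (by simp)]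
          simp [x, y]
        have := hsum y x hyC (hfour x hxc) 1 (by rw [hval, one_mul])
        rw [one_smul] at this
        convert this using 1
        funext l
        by_cases hlo : l = o
        · subst hlo; simp [x, y, hvo]; linear_combination -h2
        · by_cases hlt : l ∈ t₁ <;> simp [x, y, hlo, hlt]
      · have hcardn : (sp v).card = n := le_antisymm (Finset.card_le_univ _ |>.trans_eq (by simp)) (by omega)
        have hne : ∀ l, v l ≠ 0 := fun l => (hsp v l).mp (by
          rw [Finset.eq_univ_of_card (sp v) (by simpa using hcardn)]; exact Finset.mem_univ l)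
        obtain ⟨o₂, t₂, ho₂, rfl, ht₂⟩ := Finset.card_eq_succ.mp ht₁
        have h12 : o₁ ≠ o₂ := fun e => ho₁ (by simp [e])
        have ho₁t : o₁ ∉ t₂ := fun e => ho₁ (by simp [e])
        let x : Fin n → F := fun l => if l = o₁ then w ^ 2 * v l else if l = o₂ then w * v l
          else if l ∈ t₂ then v l else 0
        let y : Fin n → F := fun l => if l = o₁ then w * v l else if l = o₂ then w ^ 2 * v l
          else if l ∈ t₂ then 0 else v l
        have hxsp : sp x = insert o₁ (insert o₂ t₂) := by
          ext l
          rw [hsp, Finset.mem_insert, Finset.mem_insert]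
          dsimp only [x]
          split_ifs <;> simp_all
        have hysp : sp y = t₂ᶜ := by
          ext l
          rw [hsp, Finset.mem_compl]
          dsimp only [y]
          split_ifs with a1 a2 a3
          · subst a1; simp [ho₁t, hw0, hne l]
          · subst a2; simp [ho₂, hw0, hne l]
          · simp [a3]
          · simp [a3, hne l]
        have hxc : (sp x).card = 4 := by rw [hxsp]; exact htc
        have hyc : (sp y).card + 2 = n := by rw [hysp, Finset.card_compl, ht₂, Fintype.card_fin]; omega
        have hy0 : y ≠ 0 := fun e => by
          have := congrFun e o₁; simp [y, hw0, hne o₁] at this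
        have hyC : y ∈ Herm.centres hf M := ih y (by omega) hy0 (hiso0 y (by omega))
        have hval : h y x = 1 := by
          unfold Cfsg.hermForm
          rw [Finset.sum_eq_add o₁ o₂ h12 (fun l _ hl => by
            by_cases hlt : l ∈ t₂ <;> simp [x, y, hl.1, hl.2, hlt]) (by simp) (by simp)]
          simp only [x, y, h12.symm, if_true, if_false]
          have e1 := four_pow_three hF (hne o₁)
          have e2 := four_pow_three hF (hne o₂)
          linear_combination (w ^ 5) * e1 + (w ^ 4) * e2 + (w ^ 2 + w) * hw3 + hww - h2
        have := hsum y x hyC (hfour x hxc) 1 (by rw [hval, one_mul])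
        rw [one_smul] at this
        convert this using 1
        funext l
        dsimp only [x, y, Pi.add_apply]
        split_ifs
        · linear_combination (-(v l)) * hww + v l * h2
        · linear_combination (-(v l)) * hww + v l * h2
        · ring
        · ring
  refine Herm.su_le_of_uT hF (by omega) fun v hvv d hd => ?_
  rcases eq_or_ne v 0 with rfl | hv0
  · convert M.one_mem using 1
    exact gl_ext fun x => by rw [Herm.uT_mulVec]; simp
  obtain ⟨_, hv'⟩ := hall _ v le_rfl hv0 hvv
  exact hv' d hd

end Cfsg.Agent.H3
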