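import Cfsg.Agent.H3.UStd

set_option autoImplicit false
set_option linter.unusedSectionVars false

/-!
# Vanishing norm-one combinations

Prescribed norm-one combinations of non-zero scalars, and a one-parameter family of diagonal elements of
determinant one killing a given linear form.
-/

namespace Cfsg.Agent.H3

open scoped Matrix

variable {F : Type*} [Field F] [Fintype F] {q n : ℕ} (hF : Fintype.card F = q ^ 2)

open scoped Classical in
/-- The elements of norm one. -/
noncomputable def normOne (q : ℕ) (F : Type*) [Field F] [Fintype F] : Finset F :=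
  Finset.univ.filter fun a => a ^ (q + 1) = 1

theorem mem_normOne {a : F} : a ∈ normOne q F ↔ a ^ (q + 1) = 1 := by
  classical
  simp [normOne]

include hF

theorem card_normOne : (normOne q F).card = q + 1 := by
  classical
  rw [normOne, ← Fintype.card_subtype, ← Nat.card_eq_fintype_card]
  exact card_norm_eq hF one_ne_zero (one_pow q)

/-- The norms of `a λ + b` take many values. -/
theorem card_norm_values {a b : F} (ha : a ≠ 0) (hb : b ≠ 0) [DecidableEq F] :
    q + 1 ≤ 2 * ((normOne q F).image fun l => (a * l + b) ^ (q + 1)).card := by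
  refine (card_normOne hF).symm.le.trans ?_
  refine Finset.card_le_mul_card_image _ 2 fun r hr => ?_
  obtain ⟨l, hl, rfl⟩ := Finset.mem_image.mp hr
  refine le_trans (Finset.card_le_card (t := {l, a ^ q * b / (a * b ^ q * l)}) fun m hm => ?_) Finset.card_le_two
  rw [Finset.mem_filter] at hm
  have h1 := norm_one_conj hF (mem_normOne.mp hl)
  have h2 := norm_one_conj hF (mem_normOne.mp hm.1)
  have hl0 : l ≠ 0 := left_ne_zero_of_mul (by rw [h1]; exact one_ne_zero)
  have hden : a * b ^ q * l ≠ 0 := mul_ne_zero (mul_ne_zero ha (pow_ne_zero q hb)) hl0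
  have h3 := hm.2
  rw [pow_succ, pow_succ, add_pow_q hF, add_pow_q hF, mul_pow, mul_pow] at h3
  have h4 : (m - l) * (a * b ^ q * l * m - a ^ q * b) = 0 := by
    linear_combination (l * m) * h3 + (-(a * a ^ q) * l * m - a ^ q * b * l) * h2 +
      (a * a ^ q * l * m + a ^ q * b * m) * h1
  rw [Finset.mem_insert, Finset.mem_singleton]
  rcases mul_eq_zero.mp h4 with h5 | h5
  · exact Or.inl (sub_eq_zero.mp h5)
  · exact Or.inr ((eq_div_iff hden).mpr (by linear_combination h5))

/-- Three norm-one multiples reach every non-zero value. -/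
theorem exists_three {a b c z : F} (ha : a ≠ 0) (hb : b ≠ 0) (hc : c ≠ 0) (hz : z ≠ 0) :
    ∃ l m r : F, l ^ (q + 1) = 1 ∧ m ^ (q + 1) = 1 ∧ r ^ (q + 1) = 1 ∧ a * l + b * m + c * r = z := by
  classical
  let K : Finset F := Finset.univ.filter fun x => x ^ q = x
  have hK : K.card = q := by
    rw [← Fintype.card_subtype, ← Nat.card_eq_fintype_card]
    exact card_fixed hF
  have hsub : ∀ a b : F, (normOne q F).image (fun l => (a * l + b) ^ (q + 1)) ⊆ K := fun a b x hx => by
    obtain ⟨l, -, rfl⟩ := Finset.mem_image.mp hx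
    exact Finset.mem_filter.mpr ⟨Finset.mem_univ _, norm_pow_q hF _⟩
  obtain ⟨x, hx⟩ : ((normOne q F).image (fun l => (a * l + b) ^ (q + 1)) ∩
      (normOne q F).image (fun l => (-c * l + z) ^ (q + 1))).Nonempty := by
    rw [Finset.nonempty_iff_ne_empty]
    intro h0
    have h1 := Finset.card_union_add_card_inter ((normOne q F).image (fun l => (a * l + b) ^ (q + 1)))
      ((normOne q F).image (fun l => (-c * l + z) ^ (q + 1)))
    rw [h0, Finset.card_empty, add_zero] at h1
    have h2 := Finset.card_le_card (Finset.union_subset (hsub a b) (hsub (-c) z))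
    have h3 := card_norm_values hF ha hb
    have h4 := card_norm_values hF (neg_ne_zero.mpr hc) hz
    omega
  rw [Finset.mem_inter, Finset.mem_image, Finset.mem_image] at hx
  obtain ⟨⟨l, hl, hl'⟩, ⟨r, hr, hr'⟩⟩ := hx
  rw [mem_normOne] at hl hr
  by_cases h0 : a * l + b = 0
  · rw [h0, zero_pow (by omega)] at hl'
    rw [← hl'] at hr'
    have := eq_zero_of_pow_eq_zero hr'
    exact ⟨l, 1, r, hl, one_pow _, hr, by linear_combination h0 - this⟩
  · set μ := (z - c * r) / (a * l + b) with hμ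
    have hμ1 : μ ^ (q + 1) = 1 := by
      rw [hμ, div_pow, hl', show z - c * r = -c * r + z by ring, hr', div_self]
      rw [← hl']
      exact pow_ne_zero _ h0
    refine ⟨l * μ, μ, r, by rw [mul_pow, hl, hμ1, one_mul], hμ1, hr, ?_⟩
    have : μ * (a * l + b) = z - c * r := div_mul_cancel₀ _ h0
    linear_combination this

/-- A vanishing norm-one combination on a set with four non-zero coefficients. -/
theorem exists_zero_sum {ι : Type*} [DecidableEq ι] (S : Finset ι) (C : ι → F) [DecidableEq F]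
    (h4 : 4 ≤ (S.filter fun l => C l ≠ 0).card) :
    ∃ lam : ι → F, (∀ l, lam l ^ (q + 1) = 1) ∧ ∑ l ∈ S, lam l * C l = 0 := by
  classical
  obtain ⟨T, hT, hTc⟩ := Finset.exists_subset_card_eq h4
  obtain ⟨i, T₁, hi, rfl, hT₁⟩ := Finset.card_eq_succ.mp hTc
  obtain ⟨j, T₂, hj, rfl, hT₂⟩ := Finset.card_eq_succ.mp hT₁
  obtain ⟨l₀, T₃, hl₀, rfl, hT₃⟩ := Finset.card_eq_succ.mp hT₂
  obtain ⟨o, rfl⟩ := Finset.card_eq_one.mp hT₃
  simp only [Finset.mem_insert, Finset.mem_singleton, not_or] at hi hj hl₀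
  have hmem : ∀ x ∈ ({i, j, l₀, o} : Finset ι), x ∈ S ∧ C x ≠ 0 := fun x hx =>
    Finset.mem_filter.mp (hT hx)
  obtain ⟨a₀, ha₀, ha1, -⟩ := exists_norm_one_ne hF
  set R := ∑ l ∈ S \ {i, j, l₀, o}, C l with hR
  obtain ⟨ρ, hρ, hρ0⟩ : ∃ ρ : F, ρ ^ (q + 1) = 1 ∧ R + ρ * C o ≠ 0 := by
    by_cases h1 : R + 1 * C o = 0
    · refine ⟨a₀, ha₀, fun h2 => ?_⟩
      have : (a₀ - 1) * C o = 0 := by linear_combination h2 - h1
      exact (mul_ne_zero (sub_ne_zero.mpr ha1) (hmem o (by simp)).2) this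
    · exact ⟨1, one_pow _, h1⟩
  obtain ⟨x, y, z, hx, hy, hz, hxyz⟩ := exists_three hF (hmem i (by simp)).2 (hmem j (by simp)).2
    (hmem l₀ (by simp)).2 (neg_ne_zero.mpr hρ0)
  let lam : ι → F := fun l => if l = i then x else if l = j then y else if l = l₀ then z else if l = o then ρ else 1
  refine ⟨lam, fun l => by dsimp only [lam]; split_ifs <;> simp [hx, hy, hz, hρ], ?_⟩
  have hsubS : ({i, j, l₀, o} : Finset ι) ⊆ S := fun a ha => (hmem a ha).1
  rw [← Finset.sum_sdiff hsubS]
  have h1 : ∑ l ∈ S \ {i, j, l₀, o}, lam l * C l = R := Finset.sum_congr rfl fun l hl => by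
    simp only [Finset.mem_sdiff, Finset.mem_insert, Finset.mem_singleton, not_or] at hl
    simp [lam, hl.2.1, hl.2.2.1, hl.2.2.2.1, hl.2.2.2.2]
  rw [h1, Finset.sum_insert (by simp [hi]), Finset.sum_insert (by simp [hj]), Finset.sum_insert (by simp [hl₀]),
    Finset.sum_singleton]
  simp [lam, Ne.symm hi.1, Ne.symm hi.2.1, Ne.symm hi.2.2, Ne.symm hj.1, Ne.symm hj.2, Ne.symm hl₀]
  linear_combination hxyz

omit hF in
/-- Four classes of coordinates. -/
theorem exists_classes (q : ℕ) (hn : 13 ≤ n) (bad : Fin n) :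
    ∃ (a c x y : ℕ) (κ : Fin n → Fin 4), 4 ≤ a ∧ 4 ≤ c ∧ (a * x + c * y) % (q + 1) = 1 % (q + 1) ∧
      (Finset.univ.filter fun l => κ l = 0).card = a ∧ (Finset.univ.filter fun l => κ l = 1).card = a ∧
      (Finset.univ.filter fun l => κ l = 2).card = c ∧
      ((Finset.univ.filter fun l => κ l = 3).card = 0 ∨ 4 ≤ (Finset.univ.filter fun l => κ l = 3).card) ∧
      5 ≤ (Finset.univ.filter fun l => κ l = κ bad).card := by
  obtain ⟨a, c, x, y, ha, hc, hsum, hr, hxy, h5⟩ : ∃ a c x y, 4 ≤ a ∧ 4 ≤ c ∧ 2 * a + c ≤ n ∧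
      (2 * a + c = n ∨ 2 * a + c + 4 ≤ n) ∧ (a * x + c * y) % (q + 1) = 1 % (q + 1) ∧ (5 ≤ a ∨ 5 ≤ c) := by
    rcases (show n = 13 ∨ n = 14 ∨ n = 15 ∨ n = 16 ∨ 17 ≤ n by omega) with h | h | h | h | h
    · exact ⟨4, 5, q, 1, le_rfl, by omega, by omega, by omega,
        by rw [show 4 * q + 5 * 1 = 1 + 4 * (q + 1) by ring, Nat.add_mul_mod_self_right], Or.inr le_rfl⟩
    · exact ⟨5, 4, 1, q, by omega, le_rfl, by omega, by omega,
        by rw [show 5 * 1 + 4 * q = 1 + 4 * (q + 1) by ring, Nat.add_mul_mod_self_right], Or.inl le_rfl⟩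
    · exact ⟨4, 7, 2, q, le_rfl, by omega, by omega, by omega,
        by rw [show 4 * 2 + 7 * q = 1 + 7 * (q + 1) by ring, Nat.add_mul_mod_self_right], Or.inr (by omega)⟩
    · exact ⟨5, 6, q, 1, by omega, by omega, by omega, by omega,
        by rw [show 5 * q + 6 * 1 = 1 + 5 * (q + 1) by ring, Nat.add_mul_mod_self_right], Or.inl le_rfl⟩
    · exact ⟨4, 5, q, 1, le_rfl, by omega, by omega, by omega,
        by rw [show 4 * q + 5 * 1 = 1 + 4 * (q + 1) by ring, Nat.add_mul_mod_self_right], Or.inr le_rfl⟩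
  let pos : Fin n := ⟨if 5 ≤ c then 2 * a else 0, by split_ifs <;> omega⟩
  let π : Equiv.Perm (Fin n) := Equiv.swap bad pos
  let κ₀ : ℕ → Fin 4 := fun v => if v < a then 0 else if v < 2 * a then 1 else if v < 2 * a + c then 2 else 3
  let κ : Fin n → Fin 4 := fun l => κ₀ (π l)
  have hcard : ∀ (e : Fin 4) (lo hi : ℕ), lo ≤ hi → hi ≤ n →
      (∀ v, v < n → (κ₀ v = e ↔ lo ≤ v ∧ v < hi)) → (Finset.univ.filter fun l => κ l = e).card = hi - lo := by
    intro e lo hi hlo hhi hiff
    rw [show hi - lo = (Finset.univ : Finset (Fin (hi - lo))).card by simp]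
    refine (Finset.card_bij (fun (v : Fin (hi - lo)) _ => π.symm ⟨lo + v.val, by have := v.isLt; omega⟩) (fun v _ => ?_) (fun v _ v' _ hv => ?_)
      (fun l hl => ?_)).symm
    · rw [Finset.mem_filter]
      refine ⟨Finset.mem_univ _, ?_⟩
      simp only [κ, Equiv.apply_symm_apply]
      exact (hiff _ (by omega)).mpr ⟨by omega, by omega⟩
    · have := π.symm.injective hv
      simp only [Fin.mk.injEq] at this
      exact Fin.ext (by omega)
    · rw [Finset.mem_filter] at hl
      obtain ⟨h1, h2⟩ := (hiff _ (π l).2).mp hl.2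
      exact ⟨⟨(π l : ℕ) - lo, by omega⟩, Finset.mem_univ _,
        π.injective (by rw [Equiv.apply_symm_apply]; exact Fin.ext (by simp; omega))⟩
  have e0 := hcard 0 0 a (by omega) (by omega) (fun v hv => by simp only [κ₀]; split_ifs <;> simp <;> omega)
  have e1 := hcard 1 a (2 * a) (by omega) (by omega)
    (fun v hv => by simp only [κ₀]; split_ifs <;> simp <;> omega)
  have e2 := hcard 2 (2 * a) (2 * a + c) (by omega) (by omega)
    (fun v hv => by simp only [κ₀]; split_ifs <;> simp <;> omega)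
  have e3 := hcard 3 (2 * a + c) n (by omega) le_rfl
    (fun v hv => by simp only [κ₀]; split_ifs <;> simp <;> omega)
  rw [Nat.sub_zero] at e0
  rw [show 2 * a - a = a by omega] at e1
  rw [show 2 * a + c - 2 * a = c by omega] at e2
  refine ⟨a, c, x, y, κ, ha, hc, hxy, e0, e1, e2, by rw [e3]; omega, ?_⟩
  have hb : κ bad = κ₀ pos := by simp [κ, π]
  rw [hb]
  by_cases h : 5 ≤ c
  · have : κ₀ pos = 2 := by
      simp only [κ₀, pos, if_pos h]
      split_ifs <;> first | omega | rfl
    rw [this, e2]; exact h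
  · have : κ₀ pos = 0 := by
      simp only [κ₀, pos, if_neg h]
      split_ifs <;> first | omega | rfl
    rw [this, e0]; omega

omit hF in
/-- The scaling of the three leading classes by `τ`, its conjugate and one. -/
def twist {n : ℕ} (q : ℕ) (κ : Fin n → Fin 4) (τ : F) (l : Fin n) : F :=
  if κ l = 0 then τ else if κ l = 1 then τ ^ q else 1

/-- A one-parameter family of diagonal elements of determinant one killing a linear form. -/
theorem exists_family (hn : 13 ≤ n) (C : Fin n → F) (bad : Fin n) (hC : ∀ l, l ≠ bad → C l ≠ 0) :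
    ∃ (κ : Fin n → Fin 4) (lam : Fin n → F), (∀ l, lam l ^ (q + 1) = 1) ∧
      (∀ τ : F, τ ^ (q + 1) = 1 →
        ∏ l, lam l * twist q κ τ l = 1 ∧ ∑ l, lam l * twist q κ τ l * C l = 0) ∧
      ∀ e : Fin 4, e ≠ 3 → ∃ l, κ l = e ∧ l ≠ bad := by
  classical
  obtain ⟨a, c, x, y, κ, ha, hc, hxy, e0, e1, e2, e3, e5⟩ := exists_classes q hn bad
  let S : Fin 4 → Finset (Fin n) := fun e => Finset.univ.filter fun l => κ l = e
  have hnz : ∀ e, (S e).card = 0 ∨ 4 ≤ ((S e).filter fun l => C l ≠ 0).card := by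
    intro e
    by_cases h0 : (S e).card = 0
    · exact Or.inl h0
    refine Or.inr ?_
    have hsub : (S e).erase bad ⊆ (S e).filter fun l => C l ≠ 0 := fun l hl => by
      rw [Finset.mem_erase] at hl
      exact Finset.mem_filter.mpr ⟨hl.2, hC l hl.1⟩
    refine le_trans ?_ (Finset.card_le_card hsub)
    by_cases hb : bad ∈ S e
    · rw [Finset.card_erase_of_mem hb]
      have he : κ bad = e := (Finset.mem_filter.mp hb).2
      have : (S e).card = (Finset.univ.filter fun l => κ l = κ bad).card := by rw [he]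
      omega
    · rw [Finset.erase_eq_of_notMem hb]
      rcases (show e = 0 ∨ e = 1 ∨ e = 2 ∨ e = 3 by omega) with rfl | rfl | rfl | rfl
      · exact e0.symm ▸ ha
      · exact e1.symm ▸ ha
      · exact e2.symm ▸ hc
      · rcases e3 with h | h
        · exact absurd h h0
        · exact h
  have hsol : ∀ e, ∃ lam : Fin n → F, (∀ l, lam l ^ (q + 1) = 1) ∧ ∑ l ∈ S e, lam l * C l = 0 := fun e => by
    rcases hnz e with h | h
    · refine ⟨fun _ => 1, fun _ => one_pow _, ?_⟩
      rw [Finset.card_eq_zero.mp h, Finset.sum_empty]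
    · exact exists_zero_sum hF (S e) C h
  choose lam₀ hlam₀ hsum₀ using hsol
  set P := ∏ l, lam₀ (κ l) l with hPdef
  have hP : P ^ (q + 1) = 1 := by
    rw [hPdef, ← Finset.prod_pow]; exact Finset.prod_eq_one fun l _ => hlam₀ _ l
  have hPn := norm_one_conj hF hP
  let μ : Fin 4 → F := fun e => if e = 0 then (P ^ q) ^ x else if e = 2 then (P ^ q) ^ y else 1
  have hμ : ∀ e, μ e ^ (q + 1) = 1 := fun e => by
    dsimp only [μ]
    have hP' : (P ^ q) ^ (q + 1) = 1 := by rw [← pow_mul, mul_comm, pow_mul, hP, one_pow]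
    split_ifs
    · rw [← pow_mul, mul_comm, pow_mul, hP', one_pow]
    · rw [← pow_mul, mul_comm, pow_mul, hP', one_pow]
    · exact one_pow _
  let lam : Fin n → F := fun l => μ (κ l) * lam₀ (κ l) l
  have hlam : ∀ l, lam l ^ (q + 1) = 1 := fun l => by
    simp only [lam, mul_pow, hμ, hlam₀, one_mul]
  refine ⟨κ, lam, hlam, fun τ hτ => ⟨?_, ?_⟩, fun e he => ?_⟩
  · have hτn := norm_one_conj hF hτ
    have hfib : ∀ f : Fin 4 → F, ∏ l, f (κ l) = ∏ e : Fin 4, f e ^ (S e).card := fun f => by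
      rw [← Finset.prod_fiberwise Finset.univ κ (fun l => f (κ l))]
      exact Finset.prod_congr rfl fun e _ => by
        rw [Finset.prod_congr rfl fun l hl => by rw [(Finset.mem_filter.mp hl).2], Finset.prod_const]
    let t : Fin 4 → F := fun e => if e = 0 then τ else if e = 1 then τ ^ q else 1
    have hsplit : ∀ l, lam l * twist q κ τ l = μ (κ l) * t (κ l) * lam₀ (κ l) l := fun l => by
      simp only [lam, twist, t]; ring
    rw [Finset.prod_congr rfl fun l _ => hsplit l, Finset.prod_mul_distrib, ← hPdef,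
      hfib (fun e => μ e * t e), Fin.prod_univ_four]
    simp only [μ, t, show (1 : Fin 4) ≠ 0 by decide, show (2 : Fin 4) ≠ 0 by decide,
      show (3 : Fin 4) ≠ 0 by decide, show (1 : Fin 4) ≠ 2 by decide, show (3 : Fin 4) ≠ 2 by decide,
      show (2 : Fin 4) ≠ 1 by decide, show (3 : Fin 4) ≠ 1 by decide, if_true, if_false, mul_one, one_mul,
      one_pow]
    rw [show (S 0).card = a from e0, show (S 1).card = a from e1, show (S 2).card = c from e2]
    have hord : (P ^ q) ^ (a * x + c * y) = P ^ q := by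
      have hP' : (P ^ q) ^ (q + 1) = 1 := by rw [← pow_mul, mul_comm, pow_mul, hP, one_pow]
      rw [pow_eq_pow_mod _ hP', hxy, ← pow_eq_pow_mod _ hP', pow_one]
    have hτa : τ ^ a * (τ ^ q) ^ a = 1 := by rw [← mul_pow, hτn, one_pow]
    calc (((P ^ q) ^ x * τ) ^ a * (τ ^ q) ^ a * ((P ^ q) ^ y) ^ c) * P
        = (P ^ q) ^ (a * x + c * y) * (τ ^ a * (τ ^ q) ^ a) * P := by
          rw [mul_pow, ← pow_mul (P ^ q) x a, ← pow_mul (P ^ q) y c, mul_comm a x, mul_comm c y, pow_add]
          ring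
      _ = 1 := by rw [hord, hτa, mul_one, mul_comm]; exact hPn
  · rw [← Finset.sum_fiberwise Finset.univ κ (fun l => lam l * twist q κ τ l * C l)]
    refine Finset.sum_eq_zero fun e _ => ?_
    rw [Finset.sum_congr rfl fun l hl => by
      rw [show lam l * twist q κ τ l * C l =
        (μ e * (if e = 0 then τ else if e = 1 then τ ^ q else 1)) * (lam₀ e l * C l) by
          simp only [lam, twist, (Finset.mem_filter.mp hl).2]; ring], ← Finset.mul_sum, hsum₀ e, mul_zero]
  · have h4 : 4 ≤ (S e).card := by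
      rcases (show e = 0 ∨ e = 1 ∨ e = 2 by omega) with rfl | rfl | rfl
      · exact e0.symm ▸ ha
      · exact e1.symm ▸ ha
      · exact e2.symm ▸ hc
    obtain ⟨l, hl, hlb⟩ := Finset.exists_mem_notMem_of_card_lt_card (s := ({bad} : Finset (Fin n))) (t := S e)
      (by rw [Finset.card_singleton]; omega)
    exact ⟨l, (Finset.mem_filter.mp hl).2, by simpa using hlb⟩

end Cfsg.Agent.H3
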