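import Cfsg.Agent.H3.UMonoBase

set_option autoImplicit false
set_option linter.unusedSectionVars false

/-!
# Overgroups of the monomial subgroup of `SU`: groups in which mixing is total

`Spreading` says that an element with one monomial column is monomial.  We show that then an element which is
not monomial has at most one vanishing entry in each row and column.
-/

namespace Cfsg.Agent.H3

open scoped Matrix Classical
open Cfsg.Agent.H98

variable {F : Type*} [Field F] [Fintype F] {q n : ℕ}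

local notation "Mat" => Matrix (Fin n) (Fin n) F
local notation "h" => Cfsg.hermForm n F q
local notation "G₁" => Cfsg.GU n F q ⊓ Cfsg.Geo.specialLinear (Fin n) F

/-- At most one coordinate is non-zero. -/
def IsAxis (v : Fin n → F) : Prop := ∀ i j, v i ≠ 0 → v j ≠ 0 → i = j

/-- Every column has at most one non-zero entry. -/
def IsMonom (g : GL (Fin n) F) : Prop :=
  ∀ l, IsAxis ((g : Matrix (Fin n) (Fin n) F) *ᵥ Pi.single l 1)

/-- One monomial column forces all columns to be monomial. -/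
def Spreading (M : Subgroup (GL (Fin n) F)) : Prop :=
  ∀ m ∈ M, ∀ c : Fin n, IsAxis (((m : GL (Fin n) F) : Matrix (Fin n) (Fin n) F) *ᵥ Pi.single c 1) → IsMonom m

theorem isAxis_smul_single (a : F) (l : Fin n) : IsAxis (a • Pi.single l 1 : Fin n → F) := fun i j hi hj => by
  have h1 : i = l := by by_contra hne; simp [hne] at hi
  have h2 : j = l := by by_contra hne; simp [hne] at hj
  exact h1.trans h2.symm

theorem isAxis_single (l : Fin n) : IsAxis (Pi.single l 1 : Fin n → F) := by
  simpa using isAxis_smul_single (1 : F) l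

theorem gl_single_ne_zero (g : GL (Fin n) F) (l : Fin n) : (g : Mat) *ᵥ Pi.single l 1 ≠ 0 := fun h0 => by
  have h1 := congrArg (fun v => ((g⁻¹ : GL (Fin n) F) : Mat) *ᵥ v) h0
  simp only [gl_inv_mulVec, Matrix.mulVec_zero] at h1
  simpa using congrFun h1 l

theorem exists_axis {v : Fin n → F} (hv : IsAxis v) (hv0 : v ≠ 0) :
    ∃ (i : Fin n) (a : F), a ≠ 0 ∧ v = a • Pi.single i 1 := by
  obtain ⟨i, hi⟩ := Function.ne_iff.mp hv0
  refine ⟨i, v i, hi, funext fun l => ?_⟩
  by_cases hl : l = i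
  · subst hl; simp
  · simpa [hl] using not_not.mp fun h' => hl (hv l i h' hi)

theorem monom_inv {g : GL (Fin n) F} (hg : IsMonom g⁻¹) : IsMonom g := by
  choose π a ha hπ using fun d => exists_axis (hg d) (gl_single_ne_zero g⁻¹ d)
  have hgπ : ∀ d, (g : Mat) *ᵥ Pi.single (π d) 1 = (a d)⁻¹ • Pi.single d 1 := fun d => by
    have h2 := gl_mulVec_inv g (Pi.single d 1)
    rw [hπ, Matrix.mulVec_smul] at h2
    rw [← h2, smul_smul, inv_mul_cancel₀ (ha d), one_smul]
  have hinj : Function.Injective π := fun d d' he => by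
    have h1 := hgπ d
    rw [he, hgπ d'] at h1
    by_contra hne
    have h2 := congrFun h1 d
    simp [hne] at h2
    exact ha d h2.symm
  intro l
  obtain ⟨d, rfl⟩ := (Finite.injective_iff_surjective.mp hinj) l
  rw [hgπ]
  exact isAxis_smul_single _ _

variable (hF : Fintype.card F = q ^ 2)
include hF

/-- The entries of the inverse. -/
theorem inv_entry {g : GL (Fin n) F} (hg : g ∈ Cfsg.GU n F q) (d l : Fin n) :
    (((g⁻¹ : GL (Fin n) F) : Mat) *ᵥ Pi.single d 1) l = ((g : Mat) *ᵥ Pi.single l 1) d ^ q := by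
  have hg : ∀ a b, h ((g : Mat) *ᵥ a) ((g : Mat) *ᵥ b) = h a b := hg
  rw [← herm_single_right hF (((g⁻¹ : GL (Fin n) F) : Mat) *ᵥ Pi.single d 1) l,
    ← hg _ (Pi.single l 1), gl_mulVec_inv, hermForm_single_left, one_mul]

/-- The inner product with an image. -/
theorem herm_image {g : GL (Fin n) F} (hg : g ∈ Cfsg.GU n F q) (v : Fin n → F) (d : Fin n) :
    h v ((g : Mat) *ᵥ Pi.single d 1) = (((g⁻¹ : GL (Fin n) F) : Mat) *ᵥ v) d := by
  have hg : ∀ a b, h ((g : Mat) *ᵥ a) ((g : Mat) *ᵥ b) = h a b := hg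
  rw [← herm_single_right hF (((g⁻¹ : GL (Fin n) F) : Mat) *ᵥ v) d, ← hg (((g⁻¹ : GL (Fin n) F) : Mat) *ᵥ v) _,
    gl_mulVec_inv]

section Pair

variable {x : GL (Fin n) F} {r r' : Fin n → F} {α β : F} (hr : Cfsg.hermForm n F q r r = 1) (hr' : Cfsg.hermForm n F q r' r' = 1)
  (horth : Cfsg.hermForm n F q r r' = 0) (hα : α ≠ 0) (hβ : β ≠ 0)
  (hx : ∀ v, (x : Matrix (Fin n) (Fin n) F) *ᵥ v =
    v + (α * Cfsg.hermForm n F q v r) • r + (β * Cfsg.hermForm n F q v r') • r') (hmon : IsMonom x)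
include hr hr' horth hα hβ hx hmon

/-- A monomial map moving only a plane lives on four coordinates. -/
theorem rank_two_supp : (Finset.univ.filter fun l => r l ≠ 0 ∨ r' l ≠ 0).card ≤ 4 := by
  classical
  have hq0 : q ≠ 0 := by have := two_le_q hF; omega
  set U := Finset.univ.filter fun l => r l ≠ 0 ∨ r' l ≠ 0 with hU
  by_contra hc
  push Not at hc
  have hw : ∀ l ∈ U, ∃ m : Fin n, ((x : Mat) *ᵥ Pi.single l 1 - (Pi.single l 1 : Fin n → F)) l ≠ 0 ∧
      ∀ o, o ≠ l → o ≠ m → ((x : Mat) *ᵥ Pi.single l 1 - (Pi.single l 1 : Fin n → F)) o = 0 := by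
    intro l hl
    obtain ⟨m, a, ha, hm⟩ := exists_axis (hmon l) (gl_single_ne_zero x l)
    refine ⟨m, fun h0 => ?_, fun o hol hom => by rw [hm]; simp [hol, hom]⟩
    have hz : (x : Mat) *ᵥ Pi.single l 1 - Pi.single l 1 = 0 := by
      funext o
      by_cases hol : o = l
      · rw [hol]; exact h0
      by_cases hom : o = m
      · subst hom
        rw [hm] at h0
        simp [hol, Ne.symm hol] at h0
      · rw [hm]; simp [hol, hom]
    rw [hx, add_assoc, add_sub_cancel_left] at hz
    have h1 := congrArg (fun z => h z r) hz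
    have h2 := congrArg (fun z => h z r') hz
    simp only [hermForm_add_left hF, hermForm_smul_left hF, hermForm_zero_left hF, hr, hr', horth,
      (hermForm_eq_zero_comm hF).mp horth, hermForm_single_left, mul_one, mul_zero, add_zero, zero_add, one_mul,
      mul_eq_zero, hα, hβ, false_or, pow_eq_zero_iff hq0] at h1 h2
    rcases (Finset.mem_filter.mp hl).2 with h3 | h3
    · exact h3 h1
    · exact h3 h2
  obtain ⟨i, hi⟩ := Finset.card_pos.mp (show 0 < U.card by omega)
  obtain ⟨m, hi0, him⟩ := hw i hi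
  obtain ⟨l, hl, hln⟩ := Finset.exists_mem_notMem_of_card_lt_card (s := ({i, m} : Finset (Fin n))) (t := U)
    (lt_of_le_of_lt Finset.card_le_two (by omega))
  simp only [Finset.mem_insert, Finset.mem_singleton, not_or] at hln
  obtain ⟨o, hl0, hlo⟩ := hw l hl
  obtain ⟨p, hp, hpn⟩ := Finset.exists_mem_notMem_of_card_lt_card (s := ({i, m, l, o} : Finset (Fin n))) (t := U)
    (lt_of_le_of_lt Finset.card_le_four (by omega))
  simp only [Finset.mem_insert, Finset.mem_singleton, not_or] at hpn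
  have hxi : ∀ k, (x : Mat) *ᵥ Pi.single k 1 - (Pi.single k 1 : Fin n → F) = (α * r k ^ q) • r + (β * r' k ^ q) • r' :=
    fun k => by
      rw [hx, hermForm_single_left, hermForm_single_left, one_mul, one_mul, add_assoc, add_sub_cancel_left]
  rw [hxi] at hi0 hl0
  have e1 := him p hpn.1 hpn.2.1
  have e2 := hlo p hpn.2.2.1 hpn.2.2.2
  have e3 := him l hln.1 hln.2
  rw [hxi] at e1 e2 e3
  simp only [Pi.add_apply, Pi.smul_apply, smul_eq_mul] at e1 e2 e3 hi0 hl0
  -- the two moved vectors span the plane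
  have hD : r i ^ q * r' l ^ q - r l ^ q * r' i ^ q ≠ 0 := by
    intro hD
    have h1 : r i ^ q * (α * r l ^ q * r l + β * r' l ^ q * r' l) = 0 := by
      linear_combination r l ^ q * e3 + (β * r' l) * hD
    have h2 : r' i ^ q * (α * r l ^ q * r l + β * r' l ^ q * r' l) = 0 := by
      linear_combination r' l ^ q * e3 - (α * r l) * hD
    refine hi0 ?_
    rw [(mul_eq_zero.mp h1).resolve_right hl0, (mul_eq_zero.mp h2).resolve_right hl0]
    ring
  have hrp : r p = 0 := by
    have : α * (r i ^ q * r' l ^ q - r l ^ q * r' i ^ q) * r p = 0 := by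
      linear_combination r' l ^ q * e1 - r' i ^ q * e2
    exact (mul_eq_zero.mp this).resolve_left (mul_ne_zero hα hD)
  have hrp' : r' p = 0 := by
    have : β * (r i ^ q * r' l ^ q - r l ^ q * r' i ^ q) * r' p = 0 := by
      linear_combination r i ^ q * e2 - r l ^ q * e1
    exact (mul_eq_zero.mp this).resolve_left (mul_ne_zero hβ hD)
  exact (Finset.mem_filter.mp hp).2.elim (fun h' => h' hrp) (fun h' => h' hrp')

/-- Unless `x` reflects, the two supports agree. -/
theorem rank_two_subset (hr2 : ¬ IsAxis r) (hα2 : α ≠ -2) {i : Fin n} (hi : r i ≠ 0) : r' i ≠ 0 := by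
  classical
  intro hi'
  have hq0 : q ≠ 0 := by have := two_le_q hF; omega
  have hcol : ∀ k l, r' k = 0 → ((x : Mat) *ᵥ Pi.single k 1) l = (if l = k then 1 else 0) + α * r k ^ q * r l := by
    intro k l hk
    rw [hx, hermForm_single_left, hermForm_single_left, hk, zero_pow hq0]
    simp [Pi.single_apply]
  have key : ∀ k, r k ≠ 0 → r' k = 0 → ∃ j, j ≠ k ∧ r j ≠ 0 ∧ (∀ l, l ≠ k → l ≠ j → r l = 0) ∧
      1 + α * r k ^ q * r k = 0 := by
    intro k hk hk'
    obtain ⟨j, hjk, hj⟩ : ∃ j, j ≠ k ∧ r j ≠ 0 := by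
      by_contra h'
      push Not at h'
      exact hr2 fun a b ha hb =>
        (not_not.mp fun e => ha (h' a e)).trans (not_not.mp fun e => hb (h' b e)).symm
    have hxj : ((x : Mat) *ᵥ Pi.single k 1) j ≠ 0 := by
      rw [hcol k j hk', if_neg hjk, zero_add]
      exact mul_ne_zero (mul_ne_zero hα (pow_ne_zero q hk)) hj
    refine ⟨j, hjk, hj, fun l hlk hlj => ?_, ?_⟩
    · by_contra hl
      refine hlj (hmon k l j ?_ hxj)
      rw [hcol k l hk', if_neg hlk, zero_add]
      exact mul_ne_zero (mul_ne_zero hα (pow_ne_zero q hk)) hl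
    · by_contra h0
      exact hjk (hmon k j k hxj (by rw [hcol k k hk', if_pos rfl]; exact h0))
  obtain ⟨j, hji, hj, hsupp, hNi⟩ := key i hi hi'
  have hsum : ∀ v : Fin n → F, h r v = r i * v i ^ q + r j * v j ^ q := fun v => by
    rw [Cfsg.hermForm]
    exact Fintype.sum_eq_add i j (Ne.symm hji) fun l hl => by rw [hsupp l hl.1 hl.2, zero_mul]
  have hj' : r' j = 0 := by
    have := hsum r'
    rw [horth, hi', zero_pow hq0, mul_zero, zero_add] at this
    exact eq_zero_of_pow_eq_zero ((mul_eq_zero.mp this.symm).resolve_left hj)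
  obtain ⟨_, -, -, -, hNj⟩ := key j hj hj'
  have := hsum r
  rw [hr] at this
  exact hα2 (by linear_combination α * this + hNi + hNj)

end Pair

section Spread

variable {M : Subgroup (GL (Fin n) F)} (hMK : M ≤ Cfsg.GU n F q ⊓ Cfsg.Geo.specialLinear (Fin n) F) (hdiag : HasDiag q M) (hspread : Spreading M)
include hMK hdiag hspread

/-- Two zeros in one row force two small columns with the same support. -/
theorem two_zeros_row {g : GL (Fin n) F} (hg : g ∈ M) (hgm : ¬ IsMonom g) {c d d' : Fin n} (hdd : d ≠ d')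
    (hd : ((g : Mat) *ᵥ Pi.single d 1) c = 0) (hd' : ((g : Mat) *ᵥ Pi.single d' 1) c = 0) :
    (Finset.univ.filter fun l => ((g : Mat) *ᵥ Pi.single d 1) l ≠ 0).card ≤ 4 ∧
      ∀ l, ((g : Mat) *ᵥ Pi.single d 1) l ≠ 0 → ((g : Mat) *ᵥ Pi.single d' 1) l ≠ 0 := by
  classical
  have hgU : g ∈ Cfsg.GU n F q := (hMK hg).1
  have hgI : ∀ a b, h ((g : Mat) *ᵥ a) ((g : Mat) *ᵥ b) = h a b := hgU
  obtain ⟨a, ha, ha1, ha2⟩ := exists_norm_one_ne hF
  have haa := norm_one_conj hF ha
  let δ : Fin n → F := fun l => if l = d then a else if l = d' then a ^ q else 1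
  have hδ : ∀ l, δ l ^ (q + 1) = 1 := fun l => by
    simp only [δ]
    split_ifs
    · exact ha
    · rw [← pow_mul, mul_comm, pow_mul, ha, one_pow]
    · exact one_pow _
  have hδp : ∏ l, δ l = 1 := by
    rw [Fintype.prod_eq_mul d d' hdd fun l hl => by simp [δ, hl.1, hl.2]]
    simp [δ, hdd.symm, haa]
  set x := g * (guDiag (q := q) δ hδ).1 * g⁻¹ with hxdef
  have hxM : x ∈ M := M.mul_mem (M.mul_mem hg (hdiag δ hδ hδp)) (M.inv_mem hg)
  set r := (g : Mat) *ᵥ Pi.single d 1 with hrdef
  set r' := (g : Mat) *ᵥ Pi.single d' 1 with hr'def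
  have hx : ∀ v, (x : Mat) *ᵥ v = v + ((a - 1) * h v r) • r + ((a ^ q - 1) * h v r') • r' := by
    intro v
    rw [hxdef, Units.val_mul, Units.val_mul, ← Matrix.mulVec_mulVec, ← Matrix.mulVec_mulVec, hrdef, hr'def,
      herm_image hF hgU, herm_image hF hgU]
    set w := ((g⁻¹ : GL (Fin n) F) : Mat) *ᵥ v with hw
    have hdw : ((guDiag (q := q) δ hδ).1 : Mat) *ᵥ w =
        w + ((a - 1) * w d) • Pi.single d 1 + ((a ^ q - 1) * w d') • Pi.single d' 1 := by
      ext l
      simp only [guDiag, Matrix.mulVec_diagonal, δ, Pi.add_apply, Pi.smul_apply, Pi.single_apply, smul_eq_mul]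
      split_ifs with h1 h2 h2
      · exact absurd (h1.symm.trans h2) hdd
      · subst h1; ring
      · subst h2; ring
      · ring
    rw [hdw, Matrix.mulVec_add, Matrix.mulVec_add, Matrix.mulVec_smul, Matrix.mulVec_smul, hw, gl_mulVec_inv]
  have hr : h r r = 1 := by rw [hrdef, hgI, herm_single_right hF, Pi.single_eq_same]
  have hr' : h r' r' = 1 := by rw [hr'def, hgI, herm_single_right hF, Pi.single_eq_same]
  have horth : h r r' = 0 := by rw [hrdef, hr'def, hgI, herm_single_right hF, Pi.single_eq_of_ne hdd.symm]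
  have hα : a - 1 ≠ 0 := sub_ne_zero.mpr ha1
  have hβ : a ^ q - 1 ≠ 0 := fun h0 => ha1 (by rw [sub_eq_zero.mp h0, mul_one] at haa; exact haa)
  have hmon : IsMonom x := hspread x hxM c (by
    rw [hx, hermForm_single_left, hermForm_single_left, hd, hd', zero_pow (by have := two_le_q hF; omega)]
    simpa using isAxis_single c)
  refine ⟨le_trans (Finset.card_le_card fun l hl => ?_) (rank_two_supp hF hr hr' horth hα hβ hx hmon), fun l hl =>
    rank_two_subset hF hr hr' horth hα hβ hx hmon (fun h' => hgm (hspread g hg d h'))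
      (fun h0 => ha2 (by linear_combination h0)) hl⟩
  rw [Finset.mem_filter] at hl ⊢
  exact ⟨hl.1, Or.inl hl.2⟩

/-- Every row of a mixed element has at most one zero. -/
theorem one_zero_row (hn : 13 ≤ n) {g : GL (Fin n) F} (hg : g ∈ M) (hgm : ¬ IsMonom g) {c d d' : Fin n}
    (hd : ((g : Mat) *ᵥ Pi.single d 1) c = 0) (hd' : ((g : Mat) *ᵥ Pi.single d' 1) c = 0) : d = d' := by
  classical
  by_contra hdd
  have hgU : g ∈ Cfsg.GU n F q := (hMK hg).1
  have hgI : ∀ a b, h ((g : Mat) *ᵥ a) ((g : Mat) *ᵥ b) = h a b := hgU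
  have hq0 : q ≠ 0 := by have := two_le_q hF; omega
  let S : Finset (Fin n) := Finset.univ.filter fun l => ((g : Mat) *ᵥ Pi.single d 1) l ≠ 0
  obtain ⟨h4, hsub⟩ := two_zeros_row hF hMK hdiag hspread hg hgm hdd hd hd'
  obtain ⟨-, hsub'⟩ := two_zeros_row hF hMK hdiag hspread hg hgm (Ne.symm hdd) hd' hd
  have hout : ∀ l, l ∉ S → ((g : Mat) *ᵥ Pi.single d 1) l = 0 := fun l hl => by
    by_contra h'
    exact hl (Finset.mem_filter.mpr ⟨Finset.mem_univ _, h'⟩)
  obtain ⟨c₁, -, hc₁⟩ := Finset.exists_mem_notMem_of_card_lt_card (s := S) (t := Finset.univ)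
    (lt_of_le_of_lt h4 (by simp; omega))
  obtain ⟨c₂, -, hc₂⟩ := Finset.exists_mem_notMem_of_card_lt_card (s := insert c₁ S) (t := Finset.univ)
    (lt_of_le_of_lt ((Finset.card_insert_le _ _).trans (Nat.add_le_add_right h4 1)) (by simp; omega))
  rw [Finset.mem_insert, not_or] at hc₂
  -- the rows through `c₁`, `c₂` are small
  have hrow := (two_zeros_row hF hMK hdiag hspread (M.inv_mem hg) (fun h' => hgm (monom_inv h')) (c := d)
    (Ne.symm hc₂.1) (by rw [inv_entry hF hgU, hout _ hc₁, zero_pow hq0])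
    (by rw [inv_entry hF hgU, hout _ hc₂.2, zero_pow hq0])).1
  let Z : Finset (Fin n) := Finset.univ.filter fun z => ((g : Mat) *ᵥ Pi.single z 1) c₁ = 0
  have hZ : n ≤ Z.card + 4 := by
    have h1 : (Finset.univ \ Z).card ≤ 4 := le_trans (Finset.card_le_card fun z hz => by
      simp only [Finset.mem_sdiff, Finset.mem_univ, true_and, Z, Finset.mem_filter] at hz ⊢
      rw [inv_entry hF hgU]
      exact pow_ne_zero q hz) hrow
    rw [Finset.card_univ_diff, Fintype.card_fin] at h1
    omega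
  have hZS : ∀ z ∈ Z, ∀ l, l ∉ S → ((g : Mat) *ᵥ Pi.single z 1) l = 0 := by
    intro z hz l hl
    by_cases hzd : z = d
    · rw [hzd]; exact hout l hl
    by_contra h'
    exact (two_zeros_row hF hMK hdiag hspread hg hgm hzd (Finset.mem_filter.mp hz).2 (hout c₁ hc₁)).2 l h'
      (hout l hl)
  -- at most four orthonormal vectors live on four coordinates
  let A : Matrix Z S F := fun z s => ((g : Mat) *ᵥ Pi.single (z : Fin n) 1) s
  let B : Matrix S Z F := fun s z => ((g : Mat) *ᵥ Pi.single (z : Fin n) 1) s ^ q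
  have hAB : A * B = 1 := by
    ext z z'
    rw [Matrix.mul_apply, Matrix.one_apply]
    change ∑ s : S, ((g : Mat) *ᵥ Pi.single (z : Fin n) 1) s * ((g : Mat) *ᵥ Pi.single (z' : Fin n) 1) s ^ q = _
    rw [Finset.univ_eq_attach, Finset.sum_attach S (fun s =>
      ((g : Mat) *ᵥ Pi.single (z : Fin n) 1) s * ((g : Mat) *ᵥ Pi.single (z' : Fin n) 1) s ^ q),
      Finset.sum_subset (Finset.subset_univ S) fun l _ hl => by rw [hZS _ z.2 l hl, zero_mul]]
    change h ((g : Mat) *ᵥ Pi.single (z : Fin n) 1) ((g : Mat) *ᵥ Pi.single (z' : Fin n) 1) = _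
    rw [hgI, herm_single_right hF, Pi.single_apply]
    exact if_congr ⟨fun e => Subtype.ext e.symm, fun e => by rw [e]⟩ rfl rfl
  have h1 := Matrix.rank_mul_le_left A B
  rw [hAB, Matrix.rank_one, Fintype.card_coe] at h1
  have h2 := A.rank_le_card_width
  rw [Fintype.card_coe] at h2
  have hS4 : S.card ≤ 4 := h4
  omega

/-- Every column of a mixed element has at most one zero. -/
theorem one_zero_col (hn : 13 ≤ n) {g : GL (Fin n) F} (hg : g ∈ M) (hgm : ¬ IsMonom g) {c c' d : Fin n}
    (hc : ((g : Mat) *ᵥ Pi.single d 1) c = 0) (hc' : ((g : Mat) *ᵥ Pi.single d 1) c' = 0) : c = c' := by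
  have hq0 : q ≠ 0 := by have := two_le_q hF; omega
  exact one_zero_row hF hMK hdiag hspread hn (M.inv_mem hg) (fun h' => hgm (monom_inv h'))
    (c := d) (by rw [inv_entry hF (hMK hg).1, hc, zero_pow hq0])
    (by rw [inv_entry hF (hMK hg).1, hc', zero_pow hq0])

end Spread

/-- Three independent vectors cannot be combined into small vectors along the norm-one circle. -/
theorem twist_spread {A B C : Fin n → F}
    (hind : ∀ a b c : F, a • A + b • B + c • C = 0 → a = 0 ∧ b = 0 ∧ c = 0) {m : ℕ}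
    (hm : (m = 1 ∧ 3 ≤ q) ∨ (m = 2 ∧ 8 ≤ q)) :
    ∃ τ : F, τ ^ (q + 1) = 1 ∧ m < (Finset.univ.filter fun l => (τ • A + τ ^ q • B + C) l ≠ 0).card := by
  classical
  by_contra hc
  push Not at hc
  set U := Finset.univ.filter fun l => A l ≠ 0 ∨ B l ≠ 0 ∨ C l ≠ 0 with hU
  have hU3 : 3 ≤ U.card := by
    let L : (Fin 3 → F) →ₗ[F] (U → F) :=
      { toFun := fun y l => y 0 * A l + y 1 * B l + y 2 * C l
        map_add' := fun y z => by funext l; simp; ring
        map_smul' := fun k y => by funext l; simp; ring }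
    have hinj : Function.Injective L := by
      rw [injective_iff_map_eq_zero]
      intro y hy
      obtain ⟨h0, h1, h2⟩ := hind (y 0) (y 1) (y 2) (funext fun l => by
        by_cases hl : l ∈ U
        · simpa [L] using congrFun hy ⟨l, hl⟩
        · simp [U] at hl
          simp [hl.1, hl.2.1, hl.2.2])
      funext e
      fin_cases e <;> assumption
    simpa using LinearMap.finrank_le_finrank_of_injective hinj
  have hroot : ∀ l ∈ U,
      ((normOne q F).filter fun τ => (τ • A + τ ^ q • B + C) l = 0).card ≤ 2 := by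
    intro l hl
    by_contra h3
    push Not at h3
    obtain ⟨u, v, w, hu, hv, hw, huv, huw, hvw⟩ := Finset.two_lt_card_iff.mp h3
    have hpoly : ∀ τ ∈ (normOne q F).filter fun τ => (τ • A + τ ^ q • B + C) l = 0,
        A l * τ ^ 2 + C l * τ + B l = 0 := fun τ hτ => by
      rw [Finset.mem_filter, mem_normOne] at hτ
      have h1 := norm_one_conj hF hτ.1
      have h2 := hτ.2
      simp only [Pi.add_apply, Pi.smul_apply, smul_eq_mul] at h2
      linear_combination τ * h2 - B l * h1
    have eu := hpoly u hu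
    have ev := hpoly v hv
    have ew := hpoly w hw
    have e1 : A l * (u + v) + C l = 0 :=
      mul_left_cancel₀ (sub_ne_zero.mpr huv) (by linear_combination eu - ev)
    have e2 : A l * (u + w) + C l = 0 :=
      mul_left_cancel₀ (sub_ne_zero.mpr huw) (by linear_combination eu - ew)
    have eA : A l = 0 := mul_left_cancel₀ (sub_ne_zero.mpr hvw) (by linear_combination e1 - e2)
    have eC : C l = 0 := by rw [eA, zero_mul, zero_add] at e1; exact e1
    have eB : B l = 0 := by rw [eA, eC] at eu; linear_combination eu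
    exact (Finset.mem_filter.mp hl).2.elim (fun h' => h' eA) fun h' => h'.elim (fun h'' => h'' eB) fun h'' => h'' eC
  have hvan : ∀ τ ∈ normOne q F, U.card - m ≤ (U.filter fun l => (τ • A + τ ^ q • B + C) l = 0).card := by
    intro τ hτ
    have h1 := Finset.card_filter_add_card_filter_not (s := U) (fun l => (τ • A + τ ^ q • B + C) l = 0)
    have h2 : (U.filter fun l => ¬ (τ • A + τ ^ q • B + C) l = 0).card ≤ m :=
      le_trans (Finset.card_le_card (Finset.filter_subset_filter _ (Finset.subset_univ U)))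
        (hc τ (mem_normOne.mp hτ))
    omega
  have hcount := Finset.sum_le_sum hvan
  rw [Finset.sum_const, card_normOne hF, smul_eq_mul] at hcount
  have hswap : ∑ τ ∈ normOne q F, (U.filter fun l => (τ • A + τ ^ q • B + C) l = 0).card =
      ∑ l ∈ U, ((normOne q F).filter fun τ => (τ • A + τ ^ q • B + C) l = 0).card := by
    simp only [Finset.card_filter]; exact Finset.sum_comm
  have hle := Finset.sum_le_sum hroot
  rw [Finset.sum_const, smul_eq_mul, ← hswap] at hle
  rcases hm with ⟨rfl, hq⟩ | ⟨rfl, hq⟩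
  · have := Nat.mul_le_mul_right (U.card - 1) (show 4 ≤ q + 1 by omega)
    omega
  · have := Nat.mul_le_mul_right (U.card - 2) (show 9 ≤ q + 1 by omega)
    omega

/-- A diagonal element can kill a row without making the image small. -/
theorem exists_killing (hn : 13 ≤ n) (g : GL (Fin n) F) (y : Fin n → F) (hy : ∀ l, y l ≠ 0) (d : Fin n)
    (hrow : ∀ l l', ((g : Mat) *ᵥ Pi.single l 1) d = 0 → ((g : Mat) *ᵥ Pi.single l' 1) d = 0 → l = l') {m : ℕ}
    (hm : (m = 1 ∧ 3 ≤ q) ∨ (m = 2 ∧ 8 ≤ q)) :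
    ∃ δ : Fin n → F, (∀ l, δ l ^ (q + 1) = 1) ∧ ∏ l, δ l = 1 ∧ ((g : Mat) *ᵥ (δ * y)) d = 0 ∧
      m < (Finset.univ.filter fun l => ((g : Mat) *ᵥ (δ * y)) l ≠ 0).card := by
  classical
  obtain ⟨bad, hbad⟩ : ∃ bad : Fin n, ∀ l, l ≠ bad → (g : Mat) d l * y l ≠ 0 := by
    by_cases hz : ∃ l, (g : Mat) d l = 0
    · obtain ⟨bad, hb⟩ := hz
      refine ⟨bad, fun l hl => mul_ne_zero (fun h0 => hl (hrow l bad ?_ ?_)) (hy l)⟩
      · simpa using h0
      · simpa using hb
    · push Not at hz
      exact ⟨⟨0, by omega⟩, fun l _ => mul_ne_zero (hz l) (hy l)⟩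
  obtain ⟨κ, lam, hlam, hfam, hcls⟩ := exists_family hF hn (fun l => (g : Mat) d l * y l) bad hbad
  let u₀ : Fin n → F := fun l => if κ l = 0 then lam l * y l else 0
  let u₁ : Fin n → F := fun l => if κ l = 1 then lam l * y l else 0
  let u₂ : Fin n → F := fun l => if κ l = 0 then 0 else if κ l = 1 then 0 else lam l * y l
  have hind : ∀ a b c : F,
      a • ((g : Mat) *ᵥ u₀) + b • ((g : Mat) *ᵥ u₁) + c • ((g : Mat) *ᵥ u₂) = 0 → a = 0 ∧ b = 0 ∧ c = 0 := by
    intro a b c h0
    rw [← Matrix.mulVec_smul, ← Matrix.mulVec_smul, ← Matrix.mulVec_smul, ← Matrix.mulVec_add,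
      ← Matrix.mulVec_add] at h0
    have h1 : a • u₀ + b • u₁ + c • u₂ = 0 := gl_mulVec_injective g (by
      change (g : Mat) *ᵥ (a • u₀ + b • u₁ + c • u₂) = (g : Mat) *ᵥ 0
      rw [h0, Matrix.mulVec_zero])
    have hlam0 : ∀ l, lam l * y l ≠ 0 := fun l => mul_ne_zero (fun e => by
      have := hlam l; rw [e, zero_pow (by omega)] at this; exact zero_ne_one this) (hy l)
    refine ⟨?_, ?_, ?_⟩
    · obtain ⟨l, hl, -⟩ := hcls 0 (by decide)
      simpa [u₀, u₁, u₂, hl, hlam0 l] using congrFun h1 l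
    · obtain ⟨l, hl, -⟩ := hcls 1 (by decide)
      simpa [u₀, u₁, u₂, hl, hlam0 l] using congrFun h1 l
    · obtain ⟨l, hl, -⟩ := hcls 2 (by decide)
      simpa [u₀, u₁, u₂, hl, hlam0 l] using congrFun h1 l
  obtain ⟨τ, hτ, hcard⟩ := twist_spread hF hind hm
  obtain ⟨hprod, hsum⟩ := hfam τ hτ
  let δ : Fin n → F := fun l => lam l * twist q κ τ l
  have hδ : ∀ l, δ l ^ (q + 1) = 1 := fun l => by
    simp only [δ, twist, mul_pow, hlam, one_mul]
    split_ifs
    · exact hτ
    · rw [← pow_mul, mul_comm, pow_mul, hτ, one_pow]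
    · exact one_pow _
  have hcomb : δ * y = τ • u₀ + τ ^ q • u₁ + u₂ := by
    funext l
    simp only [δ, twist, u₀, u₁, u₂, Pi.mul_apply, Pi.add_apply, Pi.smul_apply, smul_eq_mul]
    split_ifs with h0 h1
    · rw [h0] at h1; exact absurd h1 (by decide)
    · ring
    · ring
    · ring
  refine ⟨δ, hδ, hprod, ?_, ?_⟩
  · refine Eq.trans ?_ hsum
    simp only [Matrix.mulVec, dotProduct, δ, Pi.mul_apply]
    exact Finset.sum_congr rfl fun l _ => by ring
  · rw [hcomb, Matrix.mulVec_add, Matrix.mulVec_add, Matrix.mulVec_smul, Matrix.mulVec_smul]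
    exact hcard

end Cfsg.Agent.H3
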