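import Cfsg.Agent.H3.UMonoOdd

set_option autoImplicit false
set_option linter.unusedSectionVars false

/-!
# Overgroups of the monomial subgroup of `SU`: mixing cannot be total in characteristic two
-/

namespace Cfsg.Agent.H3

open scoped Matrix Classical
open Cfsg.Agent.H98

variable {F : Type*} [Field F] [Fintype F] {q n : ℕ}

local notation "Mat" => Matrix (Fin n) (Fin n) F
local notation "h" => Cfsg.hermForm n F q
local notation "G₁" => Cfsg.GU n F q ⊓ Cfsg.Geo.specialLinear (Fin n) F

/-- The centre of a transvection of `M` with parameter one. -/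
def IsOneCentre (hF : Fintype.card F = q ^ 2) (M : Subgroup (GL (Fin n) F)) (z : Fin n → F) : Prop :=
  ∃ hz : Cfsg.hermForm n F q z z = 0, Herm.uT (Herm.isUnitary_std (n := n) hF) hz 1 ∈ M

variable (hF : Fintype.card F = q ^ 2)
include hF

/-- With four elements in the fixed field every equation for the half-traces is soluble. -/
theorem exists_trace_root (h2 : (2 : F) = 0) (hq : q = 4) {e : F} (he : e * e + e + 1 = 0) :
    ∃ z : F, z ^ (q + 1) = 1 ∧ z + z ^ q = e := by
  obtain ⟨z, hz, hz1, -⟩ := exists_norm_one_ne hF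
  subst hq
  have h5 : z ^ 5 = 1 := hz
  have hs : z ^ 4 + z ^ 3 + z ^ 2 + z + 1 = 0 := by
    have : (z - 1) * (z ^ 4 + z ^ 3 + z ^ 2 + z + 1) = 0 := by linear_combination h5
    exact (mul_eq_zero.mp this).resolve_left (sub_ne_zero.mpr hz1)
  have hprod : (e - (z + z ^ 4)) * (e - (z ^ 2 + z ^ 3)) = 0 := by
    linear_combination he + hs - e * hs + (z + z ^ 2) * h5 - h2
  rcases mul_eq_zero.mp hprod with h1 | h1
  · exact ⟨z, hz, (sub_eq_zero.mp h1).symm⟩
  · refine ⟨z ^ 2, by rw [← pow_mul, mul_comm, pow_mul, hz, one_pow], ?_⟩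
    rw [sub_eq_zero] at h1
    rw [h1, ← pow_mul, show z ^ (2 * 4) = z ^ 5 * z ^ 3 by ring, h5, one_mul]

variable {M : Subgroup (GL (Fin n) F)}

/-- Images of centres. -/
theorem oneCentre_conj (hMK : M ≤ G₁) {m : GL (Fin n) F} (hm : m ∈ M) {z : Fin n → F}
    (hz : IsOneCentre hF M z) : IsOneCentre hF M ((m : Mat) *ᵥ z) := by
  obtain ⟨hzz, hzM⟩ := hz
  have hiso : ∀ a b, h ((m : Mat) *ᵥ a) ((m : Mat) *ᵥ b) = h a b := (hMK hm).1
  refine ⟨by rw [hiso, hzz], ?_⟩
  rw [← Herm.conj_uT (Herm.isUnitary_std (n := n) hF) hiso hzz]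
  exact M.mul_mem (M.mul_mem hm hzM) (M.inv_mem hm)

/-- A centre with a zero has weight at most two. -/
theorem oneCentre_small (hspread : Spreading M) {z : Fin n → F} (hz : IsOneCentre hF M z) {l : Fin n}
    (hl : z l = 0) : (Finset.univ.filter fun o => z o ≠ 0).card ≤ 2 := by
  have hq0 : q ≠ 0 := by have := two_le_q hF; omega
  obtain ⟨hzz, hzM⟩ := hz
  set T := Herm.uT (Herm.isUnitary_std (n := n) hF) hzz 1 with hT
  have hTv : ∀ k, (T : Mat) *ᵥ Pi.single k 1 = Pi.single k 1 + z k ^ q • z := fun k => by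
    rw [hT, Herm.uT_mulVec, hermForm_single_left, one_mul, one_mul]
  have hmon := hspread T hzM l (by rw [hTv, hl, zero_pow hq0, zero_smul, add_zero]; exact isAxis_single l)
  by_cases hall : ∀ o, z o = 0
  · simp [hall]
  push Not at hall
  obtain ⟨i, hi⟩ := hall
  obtain ⟨o, a, -, ho⟩ := exists_axis (hmon i) (gl_single_ne_zero T i)
  refine (Finset.card_le_card (t := ({i, o} : Finset (Fin n))) fun k hk => ?_).trans Finset.card_le_two
  rw [Finset.mem_insert, Finset.mem_singleton]
  by_contra hne
  rw [not_or] at hne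
  have h1 := congrFun (hTv i) k
  rw [ho] at h1
  simp [hne.1, hne.2, hi] at h1
  exact (Finset.mem_filter.mp hk).2 h1

/-- In characteristic two mixing is not total. -/
theorem not_spreading_even (h2 : (2 : F) = 0) (hn : 13 ≤ n) (hq : 3 ≤ q) (hMK : M ≤ G₁) (hdiag : HasDiag q M)
    (hmono : ∀ m ∈ G₁, IsMonom m → m ∈ M) (hspread : Spreading M) {g : GL (Fin n) F} (hg : g ∈ M)
    (hgm : ¬ IsMonom g) : False := by
  have hq0 : q ≠ 0 := by omega
  haveI : CharP F 2 := by
    refine CharTwo.of_one_ne_zero_of_two_eq_zero one_ne_zero h2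
  have hf := Herm.isUnitary_std (n := n) hF
  have hone : Herm.frobQ hF (1 : F) = -1 := by rw [map_one]; linear_combination h2
  -- a centre without zeros
  let i₁ : Fin n := ⟨0, by omega⟩
  let j₁ : Fin n := ⟨1, by omega⟩
  have hij : i₁ ≠ j₁ := fun e => by simpa [i₁, j₁] using congrArg Fin.val e
  have hbase : ∀ ν : F, ν ^ (q + 1) = 1 → IsOneCentre hF M (Pi.single i₁ 1 + ν • Pi.single j₁ 1 : Fin n → F) := by
    intro ν hν
    have hνν := norm_one_conj hF hν
    set u : Fin n → F := Pi.single i₁ 1 + ν • Pi.single j₁ 1 with hu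
    have huu : h u u = 0 := by
      simp [hu, hermForm_add_left hF, hermForm_add_right hF, hermForm_smul_left hF, hermForm_smul_right hF,
        hermForm_single_left, hij, hij.symm, zero_pow hq0, hνν]
      linear_combination h2
    refine ⟨huu, hmono _ (Herm.uT_mem_su hF huu hone) fun k => ?_⟩
    have hTv : (Herm.uT hf huu 1 : Mat) *ᵥ Pi.single k 1 = Pi.single k 1 + u k ^ q • u := by
      rw [Herm.uT_mulVec, hermForm_single_left, one_mul, one_mul]
    rw [hTv]
    by_cases h1 : k = i₁
    · subst h1
      convert isAxis_smul_single ν j₁ using 1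
      funext o
      simp [hu, hij, Pi.single_apply]
      split_ifs <;> first | ring1 | linear_combination h2 | linear_combination ν * h2
    by_cases h1' : k = j₁
    · subst h1'
      convert isAxis_smul_single (ν ^ q) i₁ using 1
      funext o
      simp [hu, hij.symm, Pi.single_apply]
      by_cases ho : o = i₁
      · subst ho; simp [hij]
      · by_cases ho' : o = j₁
        · subst ho'; simp [hij.symm]; linear_combination hνν + h2
        · simp [ho, ho']
    have : u k = 0 := by simp [hu, h1, h1']
    rw [this, zero_pow hq0, zero_smul, add_zero]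
    exact isAxis_single k
  obtain ⟨z, hz, hzf⟩ : ∃ z, IsOneCentre hF M z ∧ ∀ l, z l ≠ 0 := by
    by_contra hc
    push Not at hc
    have hsmall : ∀ ν : F, ν ^ (q + 1) = 1 → (Finset.univ.filter fun l =>
        ((g : Mat) *ᵥ (Pi.single i₁ 1 + ν • Pi.single j₁ 1)) l ≠ 0).card ≤ 2 := fun ν hν => by
      have h1 := oneCentre_conj hF hMK hg (hbase ν hν)
      obtain ⟨l, hl⟩ := hc _ h1
      exact oneCentre_small hF hspread h1 hl
    obtain ⟨a, ha, ha1, -⟩ := exists_norm_one_ne hF
    obtain ⟨l, hl, hl'⟩ : ∃ l, l ∈ (Finset.univ : Finset (Fin n)) ∧ l ∉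
        ((Finset.univ.filter fun l => ((g : Mat) *ᵥ (Pi.single i₁ 1 + (1 : F) • Pi.single j₁ 1)) l ≠ 0) ∪
          Finset.univ.filter fun l => ((g : Mat) *ᵥ (Pi.single i₁ 1 + a • Pi.single j₁ 1)) l ≠ 0) ∪
        Finset.univ.filter fun l => ((g : Mat) *ᵥ Pi.single j₁ 1) l = 0 := by
      refine Finset.exists_mem_notMem_of_card_lt_card ?_
      have h3 : (Finset.univ.filter fun l => ((g : Mat) *ᵥ Pi.single j₁ 1) l = 0).card ≤ 1 :=
        Finset.card_le_one.mpr fun b hb b' hb' => one_zero_col hF hMK hdiag hspread hn hg hgm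
          (Finset.mem_filter.mp hb).2 (Finset.mem_filter.mp hb').2
      refine lt_of_le_of_lt ((Finset.card_union_le _ _).trans (Nat.add_le_add ((Finset.card_union_le _ _).trans
        (Nat.add_le_add (hsmall 1 (one_pow _)) (hsmall a ha))) h3)) (by simp; omega)
    simp only [Finset.mem_union, Finset.mem_filter, Finset.mem_univ, true_and, not_or, not_not,
      Matrix.mulVec_add, Matrix.mulVec_smul, Pi.add_apply, Pi.smul_apply, smul_eq_mul] at hl'
    have : (a - 1) * ((g : Mat) *ᵥ Pi.single j₁ 1) l = 0 := by linear_combination hl'.1.2 - hl'.1.1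
    exact hl'.2 ((mul_eq_zero.mp this).resolve_left (sub_ne_zero.mpr ha1))
  by_cases hq4 : q = 4
  · -- pairs of equal norm
    subst hq4
    let N : Fin n → F := fun l => z l ^ (4 + 1)
    have hN3 : ∀ l, N l = 1 ∨ (N l * N l + N l + 1 = 0 ∧ N l ≠ 1) := fun l => by
      by_cases h1 : N l = 1
      · exact Or.inl h1
      refine Or.inr ⟨?_, h1⟩
      have h4 : N l ^ 4 = N l := norm_pow_q hF _
      have h0 : N l ≠ 0 := pow_ne_zero _ (hzf l)
      have : N l * (N l - 1) * (N l * N l + N l + 1) = 0 := by linear_combination h4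
      exact (mul_eq_zero.mp this).resolve_left (mul_ne_zero h0 (sub_ne_zero.mpr h1))
    -- a product of pairs with total change one is contradictory
    have key : ∀ (K : ℕ), 2 ≤ K → K ≤ 3 → ∀ (f : Fin K × Fin 2 ↪ Fin n) (c : Fin K → F),
        (∀ k, N (f (k, 1)) = N (f (k, 0))) → (∀ k, c k * c k + c k + 1 = 0) →
        ∑ k, N (f (k, 0)) * c k = 1 → False := by
      intro K hK2 hK3 f c hfN hc hsum
      choose ζ hζ hζc using fun k => exists_trace_root hF h2 rfl (hc k)
      let val : Fin K × Fin 2 → F := fun p => if p.2 = 0 then ζ p.1 else ζ p.1 ^ 4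
      let δ : Fin n → F := Function.extend f val (1 : Fin n → F)
      have hδf : ∀ p, δ (f p) = val p := fun p => f.injective.extend_apply val (1 : Fin n → F) p
      have hδo : ∀ l, l ∉ Set.range f → δ l = 1 := fun l hl =>
        Function.extend_apply' val (1 : Fin n → F) l (fun ⟨p, hp⟩ => hl ⟨p, hp⟩)
      have hval : ∀ p, val p ^ (4 + 1) = 1 ∧ val p ≠ 1 := fun p => by
        have h1 : ζ p.1 ≠ 1 := fun e => by
          have h3 := hζc p.1
          rw [e, one_pow] at h3
          have h4 := hc p.1
          rw [← h3] at h4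
          exact one_ne_zero (α := F) (by linear_combination h4 - 3 * h2)
        have h5 : (ζ p.1 ^ 4) ^ (4 + 1) = 1 := by rw [← pow_mul, mul_comm, pow_mul, hζ, one_pow]
        simp only [val]
        split_ifs
        · exact ⟨hζ _, h1⟩
        · refine ⟨h5, fun e => h1 ?_⟩
          have := norm_one_conj hF (hζ p.1)
          rwa [e, mul_one] at this
      have hδ : ∀ l, δ l ^ (4 + 1) = 1 := fun l => by
        by_cases hl : l ∈ Set.range f
        · obtain ⟨p, rfl⟩ := hl; rw [hδf]; exact (hval p).1
        · rw [hδo l hl, one_pow]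
      have hδp : ∏ l, δ l = 1 := by
        rw [← Fintype.prod_of_injective f f.injective val δ hδo (fun p => (hδf p).symm), Fintype.prod_prod_type]
        refine Finset.prod_eq_one fun k _ => ?_
        simp only [val, Fin.prod_univ_two, Fin.isValue, if_true, show (1 : Fin 2) ≠ 0 by decide, if_false]
        exact norm_one_conj hF (hζ k)
      have hzz : Cfsg.hermForm n F 4 z z = 0 := hz.1
      have hS : Cfsg.hermForm n F 4 (δ * z) z = 1 := by
        have h1 : ∑ l, (δ l - 1) * N l = 1 := by
          rw [← Fintype.sum_of_injective f f.injective (fun p => (val p - 1) * N (f p)) _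
            (fun l hl => by rw [hδo l hl, sub_self, zero_mul]) (fun p => by rw [hδf]), Fintype.sum_prod_type]
          refine Eq.trans (Finset.sum_congr rfl fun k _ => ?_) hsum
          simp only [val, Fin.sum_univ_two, Fin.isValue, if_true, show (1 : Fin 2) ≠ 0 by decide, if_false]
          rw [hfN]
          linear_combination N (f (k, 0)) * hζc k - N (f (k, 0)) * h2
        have h3 : Cfsg.hermForm n F 4 (δ * z) z = ∑ l, (δ l - 1) * N l + Cfsg.hermForm n F 4 z z := by
          unfold Cfsg.hermForm
          rw [← Finset.sum_add_distrib]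
          exact Finset.sum_congr rfl fun l _ => by simp only [N, Pi.mul_apply]; ring
        rw [h3, h1, hzz, add_zero]
      have hwc : IsOneCentre hF M (δ * z + z) := by
        have h1 : IsOneCentre hF M (δ * z) := by
          convert oneCentre_conj hF hMK (hdiag δ hδ hδp) hz using 1
          funext l
          simp [guDiag, Matrix.mulVec_diagonal]
        have h3 := oneCentre_conj hF hMK hz.2 h1
        rwa [Herm.uT_mulVec, hS, one_mul, one_smul] at h3
      obtain ⟨l, -, hl⟩ := Finset.exists_mem_notMem_of_card_lt_card (s := Finset.univ.image f)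
        (t := Finset.univ) (by
          rw [Finset.card_image_of_injective _ f.injective, Finset.card_univ, Finset.card_univ, Fintype.card_fin]
          simp
          omega)
      have hsmall := oneCentre_small hF hspread hwc (l := l) (by
        rw [Pi.add_apply, Pi.mul_apply, hδo l (fun ⟨p, hp⟩ => hl (Finset.mem_image.mpr ⟨p, Finset.mem_univ _, hp⟩))]
        linear_combination z l * h2)
      have hsub : Finset.univ.image f ⊆ Finset.univ.filter fun o => (δ * z + z) o ≠ 0 := fun o ho => by
        obtain ⟨p, -, rfl⟩ := Finset.mem_image.mp ho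
        refine Finset.mem_filter.mpr ⟨Finset.mem_univ _, ?_⟩
        rw [Pi.add_apply, Pi.mul_apply, hδf]
        intro h0
        have : (val p - 1) * z (f p) = 0 := by linear_combination h0 - z (f p) * h2
        exact (hval p).2 (sub_eq_zero.mp ((mul_eq_zero.mp this).resolve_right (hzf _)))
      have h5 := (Finset.card_le_card hsub).trans hsmall
      rw [Finset.card_image_of_injective _ f.injective] at h5
      simp at h5
      omega
    obtain ⟨w, hw, hw1⟩ : ∃ w : F, w * w + w + 1 = 0 ∧ w ≠ 1 := by
      obtain ⟨s, hs, hs0, hs1⟩ := exists_fixed_ne hF hq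
      have : s * (s - 1) * (s * s + s + 1) = 0 := by linear_combination hs
      exact ⟨s, (mul_eq_zero.mp this).resolve_left (mul_ne_zero hs0 (sub_ne_zero.mpr hs1)), hs1⟩
    let cls : F → Finset (Fin n) := fun e => Finset.univ.filter fun l => N l = e
    have hemb : ∀ (e : F) (K : ℕ), K * 2 ≤ (cls e).card →
        ∃ f : Fin K × Fin 2 ↪ Fin n, ∀ p, N (f p) = e := by
      intro e K hK
      obtain ⟨f⟩ := Function.Embedding.nonempty_of_card_le (α := Fin K × Fin 2) (β := cls e) (by simpa using hK)
      exact ⟨f.trans (Function.Embedding.subtype _), fun p => (Finset.mem_filter.mp (f p).2).2⟩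
    have hw' : (w + 1) * (w + 1) + (w + 1) + 1 = 0 := by linear_combination hw + (w + 1) * h2
    by_cases hA : 4 ≤ (cls 1).card
    · obtain ⟨f, hf'⟩ := hemb 1 2 hA
      refine key 2 le_rfl (by norm_num) f ![w, w + 1] (fun k => by rw [hf', hf']) (fun k => ?_) ?_
      · fin_cases k
        · exact hw
        · exact hw'
      · simp [Fin.sum_univ_two, hf']
        linear_combination w * h2
    by_cases hB : ∃ e, e * e + e + 1 = 0 ∧ 6 ≤ (cls e).card
    · obtain ⟨e, he, he6⟩ := hB
      obtain ⟨f, hf'⟩ := hemb e 3 he6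
      refine key 3 (by norm_num) le_rfl f (fun _ => e + 1) (fun k => by rw [hf', hf'])
        (fun k => by linear_combination he + (e + 1) * h2) ?_
      simp [Fin.sum_univ_three, hf']
      linear_combination 3 * he - 2 * h2
    push Not at hB
    have hcov : n ≤ (cls 1).card + (cls w).card + (cls (w + 1)).card := by
      have hsub : (Finset.univ : Finset (Fin n)) ⊆ cls 1 ∪ cls w ∪ cls (w + 1) := fun l _ => by
        simp only [Finset.mem_union, cls, Finset.mem_filter, Finset.mem_univ, true_and]
        rcases hN3 l with h1 | ⟨h1, -⟩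
        · exact Or.inl (Or.inl h1)
        · have : (N l - w) * (N l - (w + 1)) = 0 := by linear_combination h1 + hw - (N l + 1 + w * N l) * h2
          rcases mul_eq_zero.mp this with h3 | h3
          · exact Or.inl (Or.inr (sub_eq_zero.mp h3))
          · exact Or.inr (sub_eq_zero.mp h3)
      have h1 := Finset.card_le_card hsub
      rw [Finset.card_univ, Fintype.card_fin] at h1
      exact h1.trans ((Finset.card_union_le _ _).trans (Nat.add_le_add_right (Finset.card_union_le _ _) _))
    have h6 := hB w hw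
    have h7 := hB (w + 1) hw'
    obtain ⟨f, hf'⟩ := hemb w 1 (by omega)
    obtain ⟨f', hf''⟩ := hemb (w + 1) 1 (by omega)
    let F2 : Fin 2 × Fin 2 → Fin n := fun p => if p.1 = 0 then f (0, p.2) else f' (0, p.2)
    have hF2 : Function.Injective F2 := by
      rintro ⟨k, a⟩ ⟨k', a'⟩ he
      fin_cases k <;> fin_cases k' <;> simp [F2] at he
      · simpa using he
      · exact absurd (hf' (0, a)) (by rw [he, hf'']; simp)
      · exact absurd (hf'' (0, a)) (by rw [he, hf']; simp)
      · simpa using he
    refine key 2 le_rfl (by norm_num) ⟨F2, hF2⟩ ![w, w + 1] (fun k => ?_) (fun k => ?_) ?_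
    · fin_cases k <;> simp [F2, hf', hf'']
    · fin_cases k
      · exact hw
      · exact hw'
    · simp [Fin.sum_univ_two, F2, hf', hf'']
      linear_combination 2 * hw - h2
  · -- a one-parameter family of centres with a zero
    have h8 : 8 ≤ q := by
      obtain ⟨m, -, hm⟩ := FiniteField.card F 2
      have hdvd : q ∣ 2 ^ (m : ℕ) := ⟨q, by rw [← hm, hF]; ring⟩
      obtain ⟨j, -, rfl⟩ := (Nat.dvd_prime_pow Nat.prime_two).mp hdvd
      rcases (show j = 0 ∨ j = 1 ∨ j = 2 ∨ 3 ≤ j by omega) with rfl | rfl | rfl | hj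
      · simp at hq
      · simp at hq
      · simp at hq4
      · exact (show 2 ^ 3 ≤ 2 ^ j from Nat.pow_le_pow_right two_pos hj)
    let d : Fin n := ⟨0, by omega⟩
    obtain ⟨δ, hδ, hδp, h0, hwt⟩ := exists_killing hF hn g z hzf d
      (fun l l' hl hl' => one_zero_row hF hMK hdiag hspread hn hg hgm hl hl') (m := 2) (Or.inr ⟨rfl, h8⟩)
    have h1 : IsOneCentre hF M (δ * z) := by
      convert oneCentre_conj hF hMK (hdiag δ hδ hδp) hz using 1
      funext l
      simp [guDiag, Matrix.mulVec_diagonal]
    have := oneCentre_small hF hspread (oneCentre_conj hF hMK hg h1) h0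
    omega

end Cfsg.Agent.H3
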