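import Cfsg.Agent.H3.UMonoCore

set_option autoImplicit false
set_option linter.unusedSectionVars false

/-!
# Overgroups of the monomial subgroup of `SU`: mixing cannot be total in odd characteristic
-/

namespace Cfsg.Agent.H3

open scoped Matrix Classical
open Cfsg.Agent.H98

variable {F : Type*} [Field F] [Fintype F] {q n : ℕ}

local notation "Mat" => Matrix (Fin n) (Fin n) F
local notation "h" => Cfsg.hermForm n F q
local notation "G₁" => Cfsg.GU n F q ⊓ Cfsg.Geo.specialLinear (Fin n) F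

variable (hF : Fintype.card F = q ^ 2)
include hF

/-- Monomial elements with prescribed scalars. -/
theorem exists_mono_of_prod (π : Equiv.Perm (Fin n)) (s : Fin n → F) (hs : ∀ l, s l ^ (q + 1) = 1)
    (hp : (∏ l, s l) * ((Equiv.Perm.sign π : ℤ) : F) = 1) :
    ∃ m ∈ G₁, ∀ v : Fin n → F, ((m : GL (Fin n) F) : Mat) *ᵥ v = fun l => s l * v (π.symm l) := by
  let A : Mat := (guDiag (q := q) s hs).1 * Equiv.Perm.permMatrix F π.symm
  have hact : ∀ v, A *ᵥ v = fun l => s l * v (π.symm l) := fun v => by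
    funext l
    simp [A, ← Matrix.mulVec_mulVec, guDiag, Matrix.mulVec_diagonal, Matrix.permMatrix_mulVec]
  have hA : A.det = 1 := by
    simp only [A, guDiag, Units.val_mk, Matrix.det_mul, Matrix.det_diagonal]
    rw [Matrix.det_permutation, Equiv.Perm.sign_symm]
    simpa using hp
  refine ⟨Matrix.GeneralLinearGroup.mkOfDetNeZero A (by rw [hA]; exact one_ne_zero), ⟨mem_GU_iff.2 ?_, ?_⟩, hact⟩
  · intro u v
    change h (A *ᵥ u) (A *ᵥ v) = _
    rw [hact, hact]
    unfold Cfsg.hermForm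
    refine Fintype.sum_equiv π.symm _ _ fun l => ?_
    rw [mul_pow]
    have := norm_one_conj hF (hs l)
    linear_combination (u (π.symm l) * v (π.symm l) ^ q) * this
  · exact MonoidHom.mem_ker.mpr (Units.ext hA)

omit hF in
/-- Monomial maps are monomial. -/
theorem isMonom_of_mono {m : GL (Fin n) F} {π : Equiv.Perm (Fin n)} {s : Fin n → F}
    (hm : ∀ v : Fin n → F, (m : Mat) *ᵥ v = fun l => s l * v (π.symm l)) : IsMonom m := fun l i j hi hj => by
  have key : ∀ o, ((m : Mat) *ᵥ Pi.single l 1) o ≠ 0 → o = π l := fun o ho => by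
    by_contra hne
    rw [hm] at ho
    have : π.symm o ≠ l := fun e => hne (by rw [← e, Equiv.apply_symm_apply])
    simp [this] at ho
  rw [key i hi, key j hj]

variable {M : Subgroup (GL (Fin n) F)}

/-- Some mixed element has a zero entry. -/
theorem exists_zero (hn : 13 ≤ n) (hq : 3 ≤ q) (hMK : M ≤ G₁) (hdiag : HasDiag q M) {g : GL (Fin n) F}
    (hg : g ∈ M) (hgm : ¬ IsMonom g) :
    ∃ x ∈ M, ¬ IsMonom x ∧ ∃ c d, (((x : GL (Fin n) F) : Mat) *ᵥ Pi.single c 1) d = 0 := by
  by_cases hz : ∃ c d, ((g : Mat) *ᵥ Pi.single c 1) d = 0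
  · exact ⟨g, hg, hgm, hz⟩
  push Not at hz
  let c : Fin n := ⟨0, by omega⟩
  obtain ⟨δ, hδ, hδp, h0, hwt⟩ := exists_killing hF hn g (((g⁻¹ : GL (Fin n) F) : Mat) *ᵥ Pi.single c 1)
    (fun l => by rw [inv_entry hF (hMK hg).1]; exact pow_ne_zero q (hz l c)) c
    (fun l _ hl => absurd hl (hz l c)) (m := 1) (Or.inl ⟨rfl, hq⟩)
  refine ⟨g * (guDiag (q := q) δ hδ).1 * g⁻¹, M.mul_mem (M.mul_mem hg (hdiag δ hδ hδp)) (M.inv_mem hg), ?_⟩
  have hcol : ((g * (guDiag (q := q) δ hδ).1 * g⁻¹ : GL (Fin n) F) : Mat) *ᵥ Pi.single c 1 =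
      (g : Mat) *ᵥ (δ * (((g⁻¹ : GL (Fin n) F) : Mat) *ᵥ Pi.single c 1)) := by
    rw [Units.val_mul, Units.val_mul, ← Matrix.mulVec_mulVec, ← Matrix.mulVec_mulVec]
    congr 1
    funext l
    simp [guDiag, Matrix.mulVec_diagonal]
  refine ⟨fun hmon => ?_, c, c, by rw [hcol]; exact h0⟩
  obtain ⟨i, j, hi, hj, hij⟩ := Finset.one_lt_card_iff.mp hwt
  rw [Finset.mem_filter] at hi hj
  exact hij (hmon c i j (by rw [hcol]; exact hi.2) (by rw [hcol]; exact hj.2))

/-- In odd characteristic mixing is not total. -/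
theorem not_spreading_odd (h2 : (2 : F) ≠ 0) (hn : 13 ≤ n) (hq : 3 ≤ q) (hMK : M ≤ G₁) (hdiag : HasDiag q M)
    (hmono : ∀ m ∈ G₁, IsMonom m → m ∈ M) (hspread : Spreading M) {g : GL (Fin n) F} (hg : g ∈ M)
    (hgm : ¬ IsMonom g) : False := by
  have hq0 : q ≠ 0 := by omega
  obtain ⟨x, hx, hxm, c, d, hcd⟩ := exists_zero hF hn hq hMK hdiag hg hgm
  have hxU : ∀ a b, h ((x : Mat) *ᵥ a) ((x : Mat) *ᵥ b) = h a b := (hMK hx).1
  have hvl : ∀ l, l ≠ d → ((x : Mat) *ᵥ Pi.single c 1) l ≠ 0 := fun l hl h0 =>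
    hl (one_zero_col hF hMK hdiag hspread hn hx hxm h0 hcd)
  set r₂ := ((x⁻¹ : GL (Fin n) F) : Mat) *ᵥ Pi.single d 1 with hr₂
  have hr₂c : r₂ c = 0 := by rw [hr₂, inv_entry hF (hMK hx).1, hcd, zero_pow hq0]
  have hr₂l : ∀ l, l ≠ c → r₂ l ≠ 0 := fun l hl h0 =>
    hl (one_zero_col hF hMK hdiag hspread hn (M.inv_mem hx) (fun h' => hxm (monom_inv h')) h0 hr₂c)
  rcases le_or_gt n q with hnq | hnq
  · -- a scalar compensated at the zero
    obtain ⟨η, hη, hηn⟩ : ∃ η : F, η ^ (q + 1) = 1 ∧ η ^ n ≠ 1 := by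
      by_contra hall
      push Not at hall
      have hle : (normOne q F).card ≤ (Polynomial.nthRootsFinset n (1 : F)).card :=
        Finset.card_le_card fun a ha =>
          (Polynomial.mem_nthRootsFinset (by omega) _).mpr (hall a (mem_normOne.mp ha))
      have h1 : (Polynomial.nthRootsFinset n (1 : F)).card ≤ n := by
        rw [Polynomial.nthRootsFinset_def]
        exact (Multiset.toFinset_card_le _).trans (Polynomial.card_nthRoots _ _)
      rw [card_normOne hF] at hle
      omega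
    have hηη := norm_one_conj hF hη
    set θ := (η ^ q) ^ n with hθ
    have hθn : θ ^ (q + 1) = 1 := by
      rw [hθ, ← pow_mul, ← pow_mul, show q * (n * (q + 1)) = (q + 1) * (q * n) by ring, pow_mul, hη, one_pow]
    have hθθ : η ^ n * θ = 1 := by rw [hθ, ← mul_pow, hηη, one_pow]
    have hθ1 : θ ≠ 1 := fun h0 => hηn (by rwa [h0, mul_one] at hθθ)
    let δ : Fin n → F := fun l => η * if l = d then θ else 1
    have hδ : ∀ l, δ l ^ (q + 1) = 1 := fun l => by
      simp only [δ, mul_pow, hη, one_mul]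
      split_ifs
      · exact hθn
      · exact one_pow _
    have hδp : ∏ l, δ l = 1 := by
      simp only [δ, Finset.prod_mul_distrib, Finset.prod_const, Finset.card_univ, Fintype.card_fin,
        Finset.prod_ite_eq', Finset.mem_univ, if_true]
      exact hθθ
    set y := x⁻¹ * (guDiag (q := q) δ hδ).1 * x with hy
    have hyM : y ∈ M := M.mul_mem (M.mul_mem (M.inv_mem hx) (hdiag δ hδ hδp)) hx
    have hyv : ∀ v, (y : Mat) *ᵥ v = η • v + (η * (θ - 1) * ((x : Mat) *ᵥ v) d) • r₂ := by
      intro v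
      rw [hy, Units.val_mul, Units.val_mul, ← Matrix.mulVec_mulVec, ← Matrix.mulVec_mulVec]
      have : ((guDiag (q := q) δ hδ).1 : Mat) *ᵥ ((x : Mat) *ᵥ v) =
          η • ((x : Mat) *ᵥ v) + (η * (θ - 1) * ((x : Mat) *ᵥ v) d) • Pi.single d 1 := by
        funext l
        simp only [guDiag, Matrix.mulVec_diagonal, δ, Pi.add_apply, Pi.smul_apply, Pi.single_apply, smul_eq_mul]
        split_ifs with hl
        · subst hl; ring
        · ring
      rw [this, Matrix.mulVec_add, Matrix.mulVec_smul, Matrix.mulVec_smul, gl_inv_mulVec, hr₂]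
    have hyc : (y : Mat) *ᵥ Pi.single c 1 = η • Pi.single c 1 := by rw [hyv, hcd, mul_zero, zero_smul, add_zero]
    have hmon := hspread y hyM c (by rw [hyc]; exact isAxis_smul_single η c)
    obtain ⟨i, -, hi⟩ := Finset.exists_mem_notMem_of_card_lt_card (s := ({c} : Finset (Fin n))) (t := Finset.univ)
      (by simp; omega)
    obtain ⟨l, -, hl⟩ := Finset.exists_mem_notMem_of_card_lt_card (s := ({c, i} : Finset (Fin n))) (t := Finset.univ)
      (lt_of_le_of_lt Finset.card_le_two (by simp; omega))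
    obtain ⟨l', -, hl'⟩ := Finset.exists_mem_notMem_of_card_lt_card (s := ({c, i, l} : Finset (Fin n)))
      (t := Finset.univ) (lt_of_le_of_lt Finset.card_le_three (by simp; omega))
    simp only [Finset.mem_insert, Finset.mem_singleton, not_or] at hi hl hl'
    have hxi : ((x : Mat) *ᵥ Pi.single i 1) d ≠ 0 := fun h0 => hr₂l i hi (by
      rw [hr₂, inv_entry hF (hMK hx).1, h0, zero_pow hq0])
    have hne : ∀ o, o ≠ c → o ≠ i → ((y : Mat) *ᵥ Pi.single i 1) o ≠ 0 := fun o hoc hoi => by
      rw [hyv]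
      simp only [Pi.add_apply, Pi.smul_apply, Pi.single_eq_of_ne hoi, smul_eq_mul, mul_zero, zero_add]
      exact mul_ne_zero (mul_ne_zero (mul_ne_zero (left_ne_zero_of_mul (by rw [hηη]; exact one_ne_zero))
        (sub_ne_zero.mpr hθ1)) hxi) (hr₂l o hoc)
    exact hl'.2.2 (hmon i l' l (hne l' hl'.1 hl'.2.1) (hne l hl.1 hl.2))
  · -- two coordinates of equal norm
    set v := (x : Mat) *ᵥ Pi.single c 1 with hv
    obtain ⟨p, hp, r, hr, hpr, hN⟩ := Finset.exists_ne_map_eq_of_card_lt_of_maps_to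
      (s := Finset.univ.erase d) (t := (Finset.univ.filter fun z : F => z ^ q = z).erase 0)
      (f := fun l => v l ^ (q + 1)) (by
        rw [Finset.card_erase_of_mem (by simp [zero_pow hq0]), Finset.card_erase_of_mem (Finset.mem_univ _),
          Finset.card_univ, Fintype.card_fin, ← Fintype.card_subtype, ← Nat.card_eq_fintype_card, card_fixed hF]
        omega)
      (fun l hl => by
        rw [Finset.mem_coe, Finset.mem_erase] at hl ⊢
        exact ⟨pow_ne_zero _ (hvl l hl.1), Finset.mem_filter.mpr ⟨Finset.mem_univ _, norm_pow_q hF _⟩⟩)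
    rw [Finset.mem_erase] at hp hr
    have hvp := hvl p hp.1
    set μ := v r / v p with hμdef
    have hμ : μ ^ (q + 1) = 1 := by rw [hμdef, div_pow, ← hN, div_self (pow_ne_zero _ hvp)]
    have hμμ := norm_one_conj hF hμ
    have hvr : v r = μ * v p := (div_mul_cancel₀ _ hvp).symm
    let s : Fin n → F := fun l => if l = p then μ ^ q else if l = r then μ else if l = d then -1 else 1
    have hs : ∀ l, s l ^ (q + 1) = 1 := fun l => by
      simp only [s]
      split_ifs
      · rw [← pow_mul, mul_comm, pow_mul, hμ, one_pow]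
      · exact hμ
      · rw [pow_succ, ← conjQ_apply hF, map_neg, map_one]; ring
      · exact one_pow _
    have hsp : ∏ l, s l = -1 := by
      have : ∀ l, s l = (if l = p then μ ^ q else 1) * ((if l = r then μ else 1) * if l = d then -1 else 1) := by
        intro l
        by_cases h1 : l = p
        · subst h1; simp [s, hpr, hp.1]
        by_cases h2 : l = r
        · subst h2; simp [s, h1, hr.1]
        simp [s, h1, h2]
      simp only [this, Finset.prod_mul_distrib, Finset.prod_ite_eq', Finset.mem_univ, if_true]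
      rw [← mul_assoc, mul_comm (μ ^ q) μ, hμμ, one_mul]
    obtain ⟨m, hm, hmv⟩ := exists_mono_of_prod hF (Equiv.swap p r) s hs (by
      rw [hsp, Equiv.Perm.sign_swap hpr]; norm_num)
    obtain ⟨γ, hγ⟩ := exists_norm_eq hF (μ := ((2 : F))⁻¹) (by
      rw [inv_pow, ← conjQ_apply hF (2 : F), map_ofNat])
    have hγγ : 2 * (γ * γ ^ q) = 1 := by rw [← pow_succ', hγ, mul_inv_cancel₀ h2]
    set w : Fin n → F := γ • (Pi.single p 1 - μ • Pi.single r 1) with hw
    have hwv : ∀ u, h u w = γ ^ q * (u p - μ ^ q * u r) := fun u => by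
      rw [hw, hermForm_smul_right hF, sub_eq_add_neg, ← neg_smul, hermForm_add_right hF, hermForm_smul_right hF,
        herm_single_right hF, herm_single_right hF, ← conjQ_apply hF (-μ), map_neg, conjQ_apply hF]
      ring
    have hform : ∀ u, (m : Mat) *ᵥ u = u + ((-2) * h u w) • w + ((-2) * h u (Pi.single d 1)) • Pi.single d 1 := by
      intro u
      rw [hmv, hwv, herm_single_right hF]
      funext l
      by_cases h1 : l = p
      · subst h1
        simp [s, hw, hpr, hp.1]
        linear_combination (u l - μ ^ q * u r) * hγγ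
      by_cases h2' : l = r
      · subst h2'
        simp [s, hw, h1, hr.1]
        linear_combination (μ * (-(u p) + μ ^ q * u l)) * hγγ + u l * hμμ
      have h3 : Equiv.swap p r l = l := Equiv.swap_apply_of_ne_of_ne h1 h2'
      by_cases h4 : l = d
      · subst h4
        simp [s, hw, h1, h2', h3]
        ring
      simp [s, hw, h1, h2', h3, h4]
    set y := x⁻¹ * m * x with hy
    have hyM : y ∈ M := M.mul_mem (M.mul_mem (M.inv_mem hx) (hmono m hm (isMonom_of_mono hmv))) hx
    set r₁ := ((x⁻¹ : GL (Fin n) F) : Mat) *ᵥ w with hr₁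
    have hinv : ∀ a b, h (((x⁻¹ : GL (Fin n) F) : Mat) *ᵥ a) (((x⁻¹ : GL (Fin n) F) : Mat) *ᵥ b) = h a b :=
      ((Cfsg.GU n F q).inv_mem (hMK hx).1)
    have hswitch : ∀ a b, h ((x : Mat) *ᵥ a) b = h a (((x⁻¹ : GL (Fin n) F) : Mat) *ᵥ b) := fun a b => by
      conv_rhs => rw [← hxU, gl_mulVec_inv]
    have hyv : ∀ u, (y : Mat) *ᵥ u = u + ((-2) * h u r₁) • r₁ + ((-2) * h u r₂) • r₂ := by
      intro u
      rw [hy, Units.val_mul, Units.val_mul, ← Matrix.mulVec_mulVec, ← Matrix.mulVec_mulVec, hform,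
        Matrix.mulVec_add, Matrix.mulVec_add, Matrix.mulVec_smul, Matrix.mulVec_smul, gl_inv_mulVec, hswitch, hswitch,
        hr₁, hr₂]
      simp only [hw, Matrix.mulVec_smul]
    have hyc : (y : Mat) *ᵥ Pi.single c 1 = Pi.single c 1 := by
      rw [hyv, hr₁, hr₂, ← hswitch, ← hswitch, ← hv, hwv, herm_single_right hF, hcd, hvr]
      have : v p - μ ^ q * (μ * v p) = 0 := by linear_combination (-(v p)) * hμμ
      simp [this]
    have hmon := hspread y hyM c (by rw [hyc]; exact isAxis_single c)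
    have h22 : (-2 : F) ≠ 0 := neg_ne_zero.mpr h2
    have hunit : h w w = 1 := by
      rw [hwv]
      simp [hw, hpr, hpr.symm]
      linear_combination hγγ + (γ * γ ^ q) * hμμ
    have hcard := rank_two_supp hF (r := r₁) (r' := r₂) (by rw [hr₁, hinv, hunit])
      (by rw [hr₂, hinv, herm_single_right hF, Pi.single_eq_same])
      (by rw [hr₁, hr₂, hinv, herm_single_right hF, hw]; simp [Ne.symm hp.1, Ne.symm hr.1]) h22 h22 hyv hmon
    have hsub : (Finset.univ.erase c) ⊆ Finset.univ.filter fun l => r₁ l ≠ 0 ∨ r₂ l ≠ 0 := fun l hl =>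
      Finset.mem_filter.mpr ⟨Finset.mem_univ _, Or.inr (hr₂l l (Finset.mem_erase.mp hl).1)⟩
    have := Finset.card_le_card hsub
    rw [Finset.card_erase_of_mem (Finset.mem_univ _), Finset.card_univ, Fintype.card_fin] at this
    omega

end Cfsg.Agent.H3
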