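import Cfsg.Agent.H3.UStd
import Cfsg.Agent.H3.UFrameTwo

set_option autoImplicit false
set_option linter.unusedSectionVars false

/-!
# Coordinate decompositions with members of dimension at least two
-/

namespace Cfsg.Agent.H3

open scoped Matrix
open Cfsg.Agent.H98

variable {F : Type*} [Field F] [Fintype F] {q n t k : ℕ} (hF : Fintype.card F = q ^ 2)

local notation "Mat" => Matrix (Fin n) (Fin n) F
local notation "h" => Cfsg.hermForm n F q
local notation "G₁" => Cfsg.GU n F q ⊓ Cfsg.Geo.specialLinear (Fin n) F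

/-- An isometry which fixes the coordinate vectors outside one member. -/
def IsBlk (q : ℕ) (idx : Fin t × Fin k ≃ Fin n) (i : Fin t) (R : GL (Fin n) F) : Prop :=
  R ∈ Cfsg.GU n F q ∧ ∀ l, (idx.symm l).1 ≠ i → (R : Mat) *ᵥ Pi.single l 1 = Pi.single l 1

/-- A stabiliser of a coordinate decomposition does not exhaust `SU`. -/
theorem std_proper (hF : Fintype.card F = q ^ 2) (hn : 13 ≤ n) (ht : 2 ≤ t) (hk : 0 < k)
    (idx : Fin t × Fin k ≃ Fin n) :
    ∃ x ∈ G₁, x ∉ Cfsg.Geo.decompositionStabilizer (stdDec F idx) ⊓ G₁ := by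
  classical
  have hf := Herm.isUnitary_std (n := n) hF
  let b : Fin n := idx (⟨0, by omega⟩, ⟨0, hk⟩)
  let c : Fin n := idx (⟨1, by omega⟩, ⟨0, hk⟩)
  have hbc : b ≠ c := fun e => by simpa using idx.injective e
  obtain ⟨a, ha⟩ := Finset.exists_mem_notMem_of_card_lt_card (s := ({b, c} : Finset (Fin n))) (t := Finset.univ)
    (lt_of_le_of_lt Finset.card_le_two (by simp; omega))
  obtain ⟨d, hd⟩ := Finset.exists_mem_notMem_of_card_lt_card (s := ({b, c, a} : Finset (Fin n))) (t := Finset.univ)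
    (lt_of_le_of_lt Finset.card_le_three (by simp; omega))
  simp only [Finset.mem_insert, Finset.mem_singleton, not_or, Finset.mem_univ, true_and] at ha hd
  obtain ⟨ν, hν⟩ := exists_norm_eq hF (μ := (-1 : F)) (by rw [← conjQ_apply hF, map_neg, map_one])
  have hν' : ν * ν ^ q = -1 := by rw [← pow_succ', hν]
  have hν0 : ν ≠ 0 := fun h0 => by simp [h0] at hν'
  obtain ⟨ζ, hζ, hζ0⟩ : ∃ ζ : F, Herm.frobQ hF ζ = -ζ ∧ ζ ≠ 0 := by
    obtain ⟨ζ, h0, h1⟩ := Herm.exists_skew hf; exact ⟨ζ, h1, h0⟩
  set v : Fin n → F := Pi.single a 1 + ν • Pi.single b 1 + (Pi.single c 1 + ν • Pi.single d 1) with hv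
  have hq0 : q ≠ 0 := by have := two_le_q hF; omega
  have hvv : h v v = 0 := by
    simp [hv, hermForm_add_left hF, hermForm_add_right hF, hermForm_smul_left hF, hermForm_smul_right hF,
      hermForm_single_left, Pi.single_apply, hbc, hbc.symm, ha.1, ha.2, Ne.symm ha.1, Ne.symm ha.2, hd.1, hd.2.1,
      hd.2.2, Ne.symm hd.1, Ne.symm hd.2.1, Ne.symm hd.2.2, zero_pow hq0, hν']
  refine ⟨Herm.uT hf hvv ζ, Herm.uT_mem_su hF hvv hζ, fun hh => ?_⟩
  obtain ⟨τ, hτ⟩ := hh.1
  have himg : (Herm.uT hf hvv ζ : Mat) *ᵥ Pi.single a 1 ∈ stdDec F idx (τ (idx.symm a).1) := by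
    rw [← hτ]
    exact ⟨_, single_mem_stdDec idx a 1, by simp⟩
  rw [Herm.uT_mulVec, hermForm_single_left, one_mul] at himg
  have hva : v a = 1 := by
    simp [hv, Pi.single_apply, ha.1, ha.2, Ne.symm hd.2.2]
  have hb : (idx.symm b).1 = τ (idx.symm a).1 := by
    by_contra hne
    have := himg b hne
    rw [hva, one_pow, mul_one] at this
    simp [hv, Pi.single_apply, Ne.symm ha.1, hbc, Ne.symm hd.1, hζ0, hν0] at this
  have hc : (idx.symm c).1 = τ (idx.symm a).1 := by
    by_contra hne
    have := himg c hne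
    rw [hva, one_pow, mul_one] at this
    simp [hv, Pi.single_apply, Ne.symm ha.2, hbc.symm, Ne.symm hd.2.1, hζ0] at this
  have := hb.trans hc.symm
  simp [b, c] at this

include hF

section

variable {idx : Fin t × Fin k ≃ Fin n} {i : Fin t}

theorem blk_coord {R : GL (Fin n) F} (hR : IsBlk q idx i R) {l : Fin n} (hl : (idx.symm l).1 ≠ i)
    (x : Fin n → F) : ((R : Mat) *ᵥ x) l = x l := by
  rw [← herm_single_right hF ((R : Mat) *ᵥ x) l]
  conv_lhs => rw [← hR.2 l hl]
  rw [(mem_GU_iff.1 hR.1), herm_single_right hF]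

theorem blk_mem {R : GL (Fin n) F} (hR : IsBlk q idx i R) {x : Fin n → F} (hx : x ∈ stdDec F idx i) :
    (R : Mat) *ᵥ x ∈ stdDec F idx i := fun l hl => by rw [blk_coord hF hR hl, hx l hl]

theorem blk_fix {R : GL (Fin n) F} (hR : IsBlk q idx i R) {x : Fin n → F}
    (hx : ∀ l, (idx.symm l).1 = i → x l = 0) : (R : Mat) *ᵥ x = x := by
  conv_lhs => rw [← Finset.univ_sum_single x, Matrix.mulVec_sum]
  conv_rhs => rw [← Finset.univ_sum_single x]
  refine Finset.sum_congr rfl fun l _ => ?_
  rw [show (Pi.single l (x l) : Fin n → F) = x l • Pi.single l 1 by rw [← Pi.single_smul, smul_eq_mul, mul_one],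
    Matrix.mulVec_smul]
  by_cases hl : (idx.symm l).1 = i
  · simp [hx l hl]
  · rw [hR.2 l hl]

theorem blk_stab {R : GL (Fin n) F} (hR : IsBlk q idx i R) :
    R ∈ Cfsg.Geo.decompositionStabilizer (stdDec F idx) := by
  refine stab_of_members fun j w hw => ?_
  by_cases hj : j = i
  · subst hj; exact blk_mem hF hR hw
  · rw [blk_fix hF hR fun l hl => hw l (hl ▸ Ne.symm hj)]; exact hw

theorem blk_mul {R S : GL (Fin n) F} (hR : IsBlk q idx i R) (hS : IsBlk q idx i S) : IsBlk q idx i (R * S) :=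
  ⟨(Cfsg.GU n F q).mul_mem hR.1 hS.1, fun l hl => by
    rw [Units.val_mul, ← Matrix.mulVec_mulVec, hS.2 l hl, hR.2 l hl]⟩

theorem blk_inv {R : GL (Fin n) F} (hR : IsBlk q idx i R) : IsBlk q idx i R⁻¹ :=
  ⟨(Cfsg.GU n F q).inv_mem hR.1, fun l hl => by
    conv_lhs => rw [← hR.2 l hl]
    exact gl_inv_mulVec R _⟩

theorem blk_diag (d : Fin n → F) (hd : ∀ l, d l ^ (q + 1) = 1) (hdi : ∀ l, (idx.symm l).1 ≠ i → d l = 1) :
    IsBlk q idx i (guDiag (q := q) d hd).1 :=
  ⟨(guDiag (q := q) d hd).2, fun l hl => by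
    ext l'
    simp only [guDiag, Matrix.mulVec_diagonal, Pi.single_apply]
    split_ifs with e
    · rw [e, hdi l hl, one_mul]
    · rw [mul_zero]⟩

theorem det_gl_GU {R : GL (Fin n) F} (hR : R ∈ Cfsg.GU n F q) : (R : Mat).det ^ (q + 1) = 1 :=
  det_GU hF ⟨R, hR⟩

theorem det_inv_gl (R : GL (Fin n) F) : (R : Mat).det * ((R⁻¹ : GL (Fin n) F) : Mat).det = 1 := by
  rw [← Matrix.det_mul, ← Units.val_mul, mul_inv_cancel, Units.val_one, Matrix.det_one]

/-- Transitivity inside a member. -/
theorem exists_blk {x y : Fin n → F} (hx : x ∈ stdDec F idx i) (hy : y ∈ stdDec F idx i) (hx0 : x ≠ 0)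
    (hy0 : y ≠ 0) (hN : h x x = h y y) : ∃ R : GL (Fin n) F, IsBlk q idx i R ∧ (R : Mat) *ᵥ x = y := by
  classical
  let O := Finset.univ.filter fun l => (idx.symm l).1 ≠ i
  let e : Fin O.card → Fin n := fun a => (O.equivFin.symm a : Fin n)
  have he : ∀ a, (idx.symm (e a)).1 ≠ i := fun a => (Finset.mem_filter.mp (O.equivFin.symm a).2).2
  have hinj : Function.Injective e := fun a b hab => O.equivFin.symm.injective (Subtype.ext hab)
  let fam : (Fin n → F) → Fin (O.card + 1) → (Fin n → F) := fun z => Fin.cons z fun a => Pi.single (e a) 1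
  have hli : ∀ z ∈ stdDec F idx i, z ≠ 0 → LinearIndependent F (fam z) := by
    intro z hz hz0
    refine linearIndependent_finCons.mpr ⟨?_, fun hmem => hz0 (funext fun l => ?_)⟩
    · exact (orth_single hF n).linearIndependent.comp e hinj
    · by_cases hl : (idx.symm l).1 = i
      · have hle : Submodule.span F (Set.range fun a => (Pi.single (e a) 1 : Fin n → F)) ≤
            LinearMap.ker (LinearMap.proj l) := by
          rw [Submodule.span_le]
          rintro _ ⟨a, rfl⟩
          exact Pi.single_eq_of_ne (fun (e' : l = e a) => he a (e' ▸ hl)) _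
        exact hle hmem
      · exact hz l hl
  obtain ⟨g, hg⟩ := exists_GU_witt hF (fam x) (fam y) (hli x hx hx0) (hli y hy hy0) (fun a b => by
    have hcross : ∀ z ∈ stdDec F idx i, ∀ a, h z (Pi.single (e a) 1) = 0 ∧ h (Pi.single (e a) 1) z = 0 :=
      fun z hz a => by
        have h1 : h z (Pi.single (e a) 1) = 0 := by rw [herm_single_right hF, hz _ (he a)]
        exact ⟨h1, (hermForm_eq_zero_comm hF).mp h1⟩
    induction a using Fin.cases with
    | zero =>
      induction b using Fin.cases with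
      | zero => simpa [fam] using hN
      | succ b => simp [fam, (hcross x hx b).1, (hcross y hy b).1]
    | succ a =>
      induction b using Fin.cases with
      | zero => simp [fam, (hcross x hx a).2, (hcross y hy a).2]
      | succ b => simp [fam])
  refine ⟨g.1, ⟨g.2, fun l hl => ?_⟩, by simpa [fam] using hg 0⟩
  have := hg (O.equivFin ⟨l, Finset.mem_filter.mpr ⟨Finset.mem_univ l, hl⟩⟩).succ
  simpa [fam, e] using this

variable (hk : 2 ≤ k)
include hk

/-- Transitivity inside a member with any determinant. -/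
theorem exists_blk_det {x y : Fin n → F} (hx : x ∈ stdDec F idx i) (hy : y ∈ stdDec F idx i)
    (hN0 : h x x ≠ 0) (hN : h x x = h y y) {θ : F} (hθ : θ ^ (q + 1) = 1) :
    ∃ R : GL (Fin n) F, IsBlk q idx i R ∧ (R : Mat) *ᵥ x = y ∧ (R : Mat).det = θ := by
  classical
  let a : Fin n := idx (i, ⟨0, by omega⟩)
  let b : Fin n := idx (i, ⟨1, by omega⟩)
  have hab : a ≠ b := fun e => by simpa using idx.injective e
  obtain ⟨γ, hγ⟩ := exists_norm_eq hF (μ := h x x) (hermForm_pow_q hF x x)
  have hγ0 : γ ≠ 0 := fun h0 => hN0 (by rw [← hγ, h0, zero_pow (by omega)])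
  have hz : (γ • Pi.single a 1 : Fin n → F) ∈ stdDec F idx i :=
    (stdDec F idx i).smul_mem _ (by have := single_mem_stdDec (F := F) idx a 1; simpa [a] using this)
  have hz0 : (γ • Pi.single a 1 : Fin n → F) ≠ 0 := smul_ne_zero hγ0 (by simp)
  have hzz : h (γ • Pi.single a 1) (γ • Pi.single a 1) = h x x := by
    rw [hermForm_smul_left hF, hermForm_smul_right hF, herm_single_right hF, Pi.single_eq_same, mul_one,
      ← pow_succ', hγ]
  have hx0 : x ≠ 0 := fun e => hN0 (by rw [e, hermForm_zero_left hF])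
  have hy0 : y ≠ 0 := fun e => hN0 (by rw [hN, e, hermForm_zero_left hF])
  obtain ⟨S, hS, hSx⟩ := exists_blk hF hz hx hz0 hx0 hzz
  obtain ⟨T, hT, hTy⟩ := exists_blk hF hz hy hz0 hy0 (hzz.trans hN)
  set c := θ * (S : Mat).det * ((T⁻¹ : GL (Fin n) F) : Mat).det with hc
  have hc1 : c ^ (q + 1) = 1 := by
    rw [hc, mul_pow, mul_pow, hθ, det_gl_GU hF hS.1, det_gl_GU hF ((Cfsg.GU n F q).inv_mem hT.1), one_mul,
      one_mul]
  have hd : ∀ l, Function.update (1 : Fin n → F) b c l ^ (q + 1) = 1 := fun l => by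
    by_cases hl : l = b <;> simp [hl, hc1]
  have hB : IsBlk q idx i (guDiag (q := q) _ hd).1 := blk_diag hF _ hd fun l hl => by
    have : l ≠ b := fun e => hl (by simp [e, b])
    simp [this]
  refine ⟨T * (guDiag (q := q) _ hd).1 * S⁻¹, blk_mul hF (blk_mul hF hT hB) (blk_inv hF hS), ?_, ?_⟩
  · have hfix : ((guDiag (q := q) _ hd).1 : Mat) *ᵥ (γ • Pi.single a 1) = γ • Pi.single a 1 := by
      ext l
      simp only [guDiag, Matrix.mulVec_diagonal, Pi.smul_apply, Pi.single_apply]
      split_ifs with e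
      · subst e; simp [hab]
      · simp
    simp only [Units.val_mul, ← Matrix.mulVec_mulVec]
    conv_lhs => rw [← hSx]
    rw [gl_inv_mulVec, hfix, hTy]
  · have hdet : ((guDiag (q := q) _ hd).1 : Mat).det = c := by
      simp [guDiag, Finset.prod_update_of_mem]
    rw [Units.val_mul, Units.val_mul, Matrix.det_mul, Matrix.det_mul, hdet, hc]
    linear_combination θ * (S : Mat).det * ((S⁻¹ : GL (Fin n) F) : Mat).det * det_inv_gl hF T +
      θ * det_inv_gl hF S

/-- Shifting the value against a given vector of a member, with known determinant. -/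
theorem exists_blk_shift {x : Fin n → F} (hx : x ∈ stdDec F idx i) (hx0 : x ≠ 0) {ρ₁ ρ₂ : F}
    (h₁ : ρ₁ ^ (q + 1) = 1) (h₂ : ρ₂ ^ (q + 1) = 1) :
    ∃ R : GL (Fin n) F, IsBlk q idx i R ∧ h ((R : Mat) *ᵥ x) x = h x x + (ρ₁ - ρ₂) ∧ (R : Mat).det = ρ₁ * ρ₂ := by
  classical
  let a : Fin n := idx (i, ⟨0, by omega⟩)
  let b : Fin n := idx (i, ⟨1, by omega⟩)
  have hab : a ≠ b := fun e => by simpa using idx.injective e
  have hea : (Pi.single a 1 : Fin n → F) ∈ stdDec F idx i := by
    have := single_mem_stdDec (F := F) idx a 1; simpa [a] using this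
  have heb : (Pi.single b 1 : Fin n → F) ∈ stdDec F idx i := by
    have := single_mem_stdDec (F := F) idx b 1; simpa [b] using this
  have hq0 : q ≠ 0 := by have := two_le_q hF; omega
  by_cases hN0 : h x x = 0
  · obtain ⟨ν, hν⟩ := exists_norm_eq hF (μ := (-1 : F)) (by rw [← conjQ_apply hF, map_neg, map_one])
    have hν' : ν * ν ^ q = -1 := by rw [← pow_succ', hν]
    set z : Fin n → F := Pi.single a 1 + ν • Pi.single b 1 with hz
    have hzz : h z z = 0 := by
      simp [hz, hermForm_add_left hF, hermForm_add_right hF, hermForm_smul_left hF, hermForm_smul_right hF,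
        hermForm_single_left, hab, hab.symm, zero_pow hq0, hν']
    have hz0 : z ≠ 0 := fun e => by
      have := congrFun e a
      simp [hz, hab] at this
    obtain ⟨S, hS, hSx⟩ := exists_blk hF ((stdDec F idx i).add_mem hea ((stdDec F idx i).smul_mem _ heb)) hx hz0
      hx0 (hzz.trans hN0.symm)
    let d : Fin n → F := fun l => if l = a then ρ₁ else if l = b then ρ₂ else 1
    have hd : ∀ l, d l ^ (q + 1) = 1 := fun l => by
      dsimp only [d]; split_ifs <;> simp [h₁, h₂]
    have hB : IsBlk q idx i (guDiag (q := q) d hd).1 := blk_diag hF d hd fun l hl => by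
      have h1 : l ≠ a := fun e => hl (by simp [e, a])
      have h2 : l ≠ b := fun e => hl (by simp [e, b])
      simp [d, h1, h2]
    refine ⟨S * (guDiag (q := q) d hd).1 * S⁻¹, blk_mul hF (blk_mul hF hS hB) (blk_inv hF hS), ?_, ?_⟩
    · simp only [Units.val_mul, ← Matrix.mulVec_mulVec]
      rw [hN0, zero_add, ← hSx, gl_inv_mulVec, (mem_GU_iff.1 hS.1)]
      have : ((guDiag (q := q) d hd).1 : Mat) *ᵥ z = ρ₁ • Pi.single a 1 + (ρ₂ * ν) • Pi.single b 1 := by
        ext l
        simp only [guDiag, Matrix.mulVec_diagonal, hz, Pi.add_apply, Pi.smul_apply, Pi.single_apply, d]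
        split_ifs with e1 e2 e3
        · exact absurd (e1.symm.trans e2) hab
        · simp
        · simp
        · simp
      rw [this]
      simp [hz, hermForm_add_left hF, hermForm_add_right hF, hermForm_smul_left hF, hermForm_smul_right hF,
        hermForm_single_left, hab, hab.symm, zero_pow hq0]
      linear_combination ρ₂ * hν'
    · have hdet : ((guDiag (q := q) d hd).1 : Mat).det = ρ₁ * ρ₂ := by
        simp only [guDiag, Units.val_mk, Matrix.det_diagonal]
        rw [Finset.prod_eq_mul a b hab (fun l _ hl => by simp [d, hl.1, hl.2]) (by simp) (by simp)]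
        simp [d, hab.symm]
      rw [Units.val_mul, Units.val_mul, Matrix.det_mul, Matrix.det_mul, hdet]
      linear_combination (ρ₁ * ρ₂) * det_inv_gl hF S
  · obtain ⟨γ, hγ⟩ := exists_norm_eq hF (μ := h x x) (hermForm_pow_q hF x x)
    have hγ0 : γ ≠ 0 := fun h0 => hN0 (by rw [← hγ, h0, zero_pow (by omega)])
    have hza : h (γ • Pi.single a 1) (γ • Pi.single a 1) = h x x := by
      rw [hermForm_smul_left hF, hermForm_smul_right hF, herm_single_right hF, Pi.single_eq_same, mul_one,
        ← pow_succ', hγ]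
    obtain ⟨S, hS, hSx⟩ := exists_blk hF ((stdDec F idx i).smul_mem γ hea) hx (smul_ne_zero hγ0 (by simp)) hx0 hza
    set κ := 1 + (ρ₁ - ρ₂) / h x x with hκ
    obtain ⟨β, hβ⟩ := exists_norm_eq hF (μ := 1 - κ ^ (q + 1))
      (by rw [← conjQ_apply hF, map_sub, map_one, conjQ_apply, norm_pow_q hF])
    set y₀ : Fin n → F := (γ * κ) • Pi.single a 1 + (γ * β) • Pi.single b 1 with hy₀
    have hyy : h y₀ y₀ = h x x := by
      simp [hy₀, hermForm_add_left hF, hermForm_add_right hF, hermForm_smul_left hF, hermForm_smul_right hF,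
        hermForm_single_left, hab, hab.symm, zero_pow hq0]
      rw [← hγ, mul_pow, mul_pow]
      linear_combination γ ^ (q + 1) * hβ
    have hy₀m : y₀ ∈ stdDec F idx i :=
      (stdDec F idx i).add_mem ((stdDec F idx i).smul_mem _ hea) ((stdDec F idx i).smul_mem _ heb)
    obtain ⟨R, hR, hRx, hRd⟩ := exists_blk_det hF hk hx (blk_mem hF hS hy₀m) hN0
      (by rw [(mem_GU_iff.1 hS.1), hyy]) (θ := ρ₁ * ρ₂) (by rw [mul_pow, h₁, h₂, one_mul])
    refine ⟨R, hR, ?_, hRd⟩
    rw [hRx]
    conv_lhs => rw [← hSx]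
    rw [(mem_GU_iff.1 hS.1)]
    simp [hy₀, hermForm_add_left hF, hermForm_smul_left hF, hermForm_smul_right hF, hermForm_single_left,
      hab, hab.symm, zero_pow hq0]
    rw [hκ, show γ * (1 + (ρ₁ - ρ₂) / h x x) * γ ^ q = γ ^ (q + 1) * (1 + (ρ₁ - ρ₂) / h x x) by ring, hγ]
    field_simp

end

/-- Stabilisers of coordinate decompositions with members of dimension at least two are maximal. -/
theorem wreath_std_maximal (hn : 13 ≤ n) (ht : 2 ≤ t) (hk : 2 ≤ k) (hex : ¬ (k = 2 ∧ q = 2))
    (idx : Fin t × Fin k ≃ Fin n) :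
    Cfsg.Geo.IsMaximalIn G₁ (Cfsg.Geo.decompositionStabilizer (stdDec F idx) ⊓ G₁) := by
  classical
  have hf := Herm.isUnitary_std (n := n) hF
  have hq2 := two_le_q hF
  have hD := stdDec_mdec (F := F) ht (show 0 < k by omega) idx
  have horth : ∀ i j, i ≠ j → ∀ u ∈ stdDec F idx i, ∀ v ∈ stdDec F idx j, h u v = 0 :=
    fun i j hij u hu v hv => stdDec_orth hF hij hu hv
  refine isMaximalIn_of inf_le_right (std_proper hF hn ht (by omega) idx) fun M hHM hMK g hg hgH => ?_
  have hiso : ∀ m ∈ M, ∀ a b, h ((m : Mat) *ᵥ a) ((m : Mat) *ᵥ b) = h a b := fun m hm => (hMK hm).1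
  have hdiag := hasDiag_of_le hHM
  have hpair : ∀ {i j : Fin t} {R R' : GL (Fin n) F}, IsBlk q idx i R → IsBlk q idx j R' →
      (R : Mat).det * (R' : Mat).det = 1 → R * R' ∈ M := fun hR hR' hdet =>
    hHM ⟨Subgroup.mul_mem _ (blk_stab hF hR) (blk_stab hF hR'), (Cfsg.GU n F q).mul_mem hR.1 hR'.1,
      MonoidHom.mem_ker.mpr (Units.ext (by simp [hdet]))⟩
  have hCD : ∀ i, ∀ v ∈ stdDec F idx i, h v v = 0 → v ∈ Herm.centres hf M := fun i v hv hvv =>
    ⟨hvv, fun d hd => hHM ⟨stab_of_members fun j w hw => by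
      rw [Herm.uT_mulVec]
      by_cases hj : j = i
      · subst hj; exact (stdDec F idx j).add_mem hw ((stdDec F idx j).smul_mem _ hv)
      · rw [horth j i hj w hw v hv, mul_zero, zero_smul, add_zero]; exact hw, Herm.uT_mem_su hF hvv hd⟩⟩
  -- an isotropic vector of a member with a mixed image
  obtain ⟨u, huC, A, B, hAB, huA, huB⟩ : ∃ u ∈ Herm.centres hf M, ∃ A B, A ≠ B ∧ comp hD A u ≠ 0 ∧
      comp hD B u ≠ 0 := by
    by_contra hc
    push Not at hc
    obtain ⟨i, w, hw, a, b, hab, hwa, hwb⟩ := exists_spread hD (fun hh => hgH ⟨hh, hMK hg⟩)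
    obtain ⟨e, he, e', he', hee, hee', h1, h2⟩ : ∃ e ∈ stdDec F idx i, ∃ e' ∈ stdDec F idx i, h e e = 0 ∧
        h e' e' = 0 ∧ h e e' = 1 ∧ h e' e = 1 := by
      obtain ⟨ν, hν⟩ := exists_norm_eq hF (μ := (-1 : F)) (by rw [← conjQ_apply hF, map_neg, map_one])
      have hν' : ν * ν ^ q = -1 := by rw [← pow_succ', hν]
      let p : Fin n := idx (i, ⟨0, by omega⟩)
      let r : Fin n := idx (i, ⟨1, by omega⟩)
      have hpr : p ≠ r := fun e => by simpa using idx.injective e
      have hep : (Pi.single p 1 : Fin n → F) ∈ stdDec F idx i := by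
        have := single_mem_stdDec (F := F) idx p 1; simpa [p] using this
      have her : (Pi.single r 1 : Fin n → F) ∈ stdDec F idx i := by
        have := single_mem_stdDec (F := F) idx r 1; simpa [r] using this
      have hzm := (stdDec F idx i).add_mem hep ((stdDec F idx i).smul_mem ν her)
      have hzz : h (Pi.single p 1 + ν • Pi.single r 1) (Pi.single p 1 + ν • Pi.single r 1) = 0 := by
        simp [hermForm_add_left hF, hermForm_add_right hF, hermForm_smul_left hF, hermForm_smul_right hF,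
          hermForm_single_left, hpr, hpr.symm, zero_pow (show q ≠ 0 by omega), hν']
      obtain ⟨e', he', h3, h4, h5⟩ := Herm.partner_in hf hzm hep hzz (y := Pi.single p 1)
        (by rw [herm_single_right hF]; simp [hpr])
      exact ⟨_, hzm, e', he', hzz, h3, h4, h5⟩
    have hone : ∀ v ∈ stdDec F idx i, h v v = 0 → v ≠ 0 →
        ∃ j, (g : Mat) *ᵥ v ∈ stdDec F idx j ∧ comp hD j ((g : Mat) *ᵥ v) ≠ 0 := by
      intro v hv hvv hv0
      obtain ⟨j, hj⟩ : ∃ j, comp hD j ((g : Mat) *ᵥ v) ≠ 0 := by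
        by_contra h'; push Not at h'
        exact hv0 (gl_mulVec_injective g (by
          change (g : Mat) *ᵥ v = (g : Mat) *ᵥ 0
          rw [Matrix.mulVec_zero]
          exact comp_ext hD fun j => by rw [h' j, map_zero]))
      exact ⟨j, mem_of_supp_subset hD fun l hl =>
        hc _ (Herm.centres_conj hf hiso hg (hCD i v hv hvv)) j l (Ne.symm hl) hj, hj⟩
    have hsame : ∀ v v', v ∈ stdDec F idx i → v' ∈ stdDec F idx i → ∀ j j', (g : Mat) *ᵥ v ∈ stdDec F idx j →
        (g : Mat) *ᵥ v' ∈ stdDec F idx j' → h v v' ≠ 0 → j = j' := fun v v' _ _ j j' hj hj' hne => by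
      by_contra hjj
      exact hne (by rw [← hiso g hg]; exact horth j j' hjj _ hj _ hj')
    have he0 : e ≠ 0 := fun h0 => by rw [h0, hermForm_zero_left hF] at h1; exact zero_ne_one h1
    have he'0 : e' ≠ 0 := fun h0 => by rw [h0, hermForm_zero_left hF] at h2; exact zero_ne_one h2
    obtain ⟨j, hje, hje0⟩ := hone e he hee he0
    let L : Submodule F (Fin n → F) := (stdDec F idx j).comap (Matrix.mulVecLin (g : Mat))
    have hle : stdDec F idx i ≤ L := Herm.le_of_isotropic hf he he' hee hee' h1 h2 fun v hv hvv => by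
      change (g : Mat) *ᵥ v ∈ stdDec F idx j
      rcases eq_or_ne v 0 with rfl | hv0
      · simp
      obtain ⟨jv, hjv, -⟩ := hone v hv hvv hv0
      obtain ⟨j', hje', -⟩ := hone e' he' hee' he'0
      have hjj' : j = j' := hsame e e' he he' j j' hje hje' (by rw [h1]; exact one_ne_zero)
      by_cases hve : h v e = 0
      · by_cases hve' : h v e' = 0
        · have hsum0 : v + e ≠ 0 := fun e0 => by
            have := congrArg (fun z => h z e') e0
            simp [hermForm_add_left hF, hve', h1, hermForm_zero_left hF] at this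
          obtain ⟨js, hjs, -⟩ := hone (v + e) ((stdDec F idx i).add_mem hv he) (by
            rw [hermForm_add_left hF, hermForm_add_right hF, hermForm_add_right hF, hvv, hee, hve,
              (hermForm_eq_zero_comm hF).mp hve]; ring) hsum0
          by_contra hne
          have hjvj : jv ≠ j := fun e0 => hne (e0 ▸ hjv)
          rw [Matrix.mulVec_add] at hjs
          by_cases hjsj : js = j
          · exact hne ((Submodule.add_mem_iff_left _ hje).mp (hjsj ▸ hjs))
          · have h6 := comp_other hD hjsj hjs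
            rw [map_add, comp_other hD hjvj hjv, zero_add] at h6
            exact hje0 h6
        · exact hjj' ▸ (hsame v e' hv he' jv j' hjv hje' hve' ▸ hjv)
      · exact hsame v e hv he jv j hjv hje hve ▸ hjv
    have hgw : (g : Mat) *ᵥ w ∈ stdDec F idx j := hle hw
    by_cases ha : j = a
    · exact hwb (comp_other hD (ha ▸ hab) hgw)
    · exact hwa (comp_other hD ha hgw)
  -- a centre supported in two members
  obtain ⟨a, ha, ha1, ha2⟩ := exists_norm_one_ne hF
  have haa := norm_one_conj hF ha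
  have haq : (a ^ q) ^ (q + 1) = 1 := by rw [← pow_mul, mul_comm, pow_mul, ha, one_pow]
  set uA := comp hD A u with huAdef
  set uB := comp hD B u with huBdef
  obtain ⟨R, hR, hRv, hRd⟩ := exists_blk_shift hF hk (comp_mem hD A u) huA (ρ₁ := 1) (ρ₂ := a) (one_pow _) ha
  obtain ⟨R', hR', hR'v, hR'd⟩ := exists_blk_shift hF hk (comp_mem hD B u) huB (ρ₁ := a ^ q) (ρ₂ := 1) haq
    (one_pow _)
  set X := (R : Mat) *ᵥ uA - uA with hX
  set Y := (R' : Mat) *ᵥ uB - uB with hY
  have hXm : X ∈ stdDec F idx A := Submodule.sub_mem _ (blk_mem hF hR (comp_mem hD A u)) (comp_mem hD A u)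
  have hYm : Y ∈ stdDec F idx B := Submodule.sub_mem _ (blk_mem hF hR' (comp_mem hD B u)) (comp_mem hD B u)
  have hcoord : ∀ j (v : Fin n → F) l, (idx.symm l).1 = j → (v - comp hD j v) l = 0 := by
    intro j v l hl
    have h3 := congrFun (sum_comp hD v) l
    rw [Finset.sum_apply, Finset.sum_eq_single j (fun j' _ hj' =>
      comp_mem hD j' v l (hl ▸ Ne.symm hj')) (by simp)] at h3
    simp [h3]
  have hRu : ∀ v, (R : Mat) *ᵥ v = v + ((R : Mat) *ᵥ comp hD A v - comp hD A v) := fun v => by
    have h3 := blk_fix hF hR (x := v - comp hD A v) (hcoord A v)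
    rw [Matrix.mulVec_sub, sub_eq_iff_eq_add] at h3
    rw [h3]; abel
  have hR'u : ∀ v, (R' : Mat) *ᵥ v = v + ((R' : Mat) *ᵥ comp hD B v - comp hD B v) := fun v => by
    have h3 := blk_fix hF hR' (x := v - comp hD B v) (hcoord B v)
    rw [Matrix.mulVec_sub, sub_eq_iff_eq_add] at h3
    rw [h3]; abel
  have hmem : R * R' ∈ M := hpair hR hR' (by rw [hRd, hR'd, one_mul, mul_one, haa])
  set u' := ((R * R' : GL (Fin n) F) : Mat) *ᵥ u with hu'def
  have hu' : u' = u + X + Y := by
    rw [hu'def, Units.val_mul, ← Matrix.mulVec_mulVec, hR'u, hRu (u + _), map_add, comp_other hD hAB.symm hYm,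
      add_zero, ← huAdef, ← huBdef, ← hX, ← hY]
    abel
  have hu'C : u' ∈ Herm.centres hf M := Herm.centres_conj hf hiso hmem huC
  have hXu : ∀ {j : Fin t} {Z : Fin n → F}, Z ∈ stdDec F idx j → h Z u = h Z (comp hD j u) := fun {j Z} hZ => by
    rw [← Herm.sigma_apply hf u Z, ← Herm.sigma_apply hf (comp hD j u) Z, f_comp_left hf hD horth hZ u]
  have hXa : h X uA = 1 - a := by
    rw [hX, hermForm_sub_left hF, hRv]; ring
  have hYb : h Y uB = a ^ q - 1 := by
    rw [hY, hermForm_sub_left hF, hR'v]; ring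
  have hval : h u' u = a ^ q - a := by
    rw [hu', hermForm_add_left hF, hermForm_add_left hF, huC.1, hXu hXm, hXu hYm, ← huAdef, ← huBdef, hXa, hYb]
    ring
  have hne : h u' u ≠ 0 := by
    rw [hval]
    intro h0
    have : (a - 1) * (a + 1) = 0 := by linear_combination haa - a * h0
    rcases mul_eq_zero.mp this with h3 | h3
    · exact ha1 (sub_eq_zero.mp h3)
    · exact ha2 (eq_neg_of_add_eq_zero_left h3)
  have hXY : X + Y ∈ Herm.centres hf M := by
    have h3 : h u u' = a - a ^ q := by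
      rw [← hermForm_pow_q hF, hval, ← conjQ_apply hF, map_sub, conjQ_apply, conjQ_apply, pow_q_pow_q hF]
    have h4 := Herm.centres_pair hf hiso hu'C huC hne (k := 1) (l := -1) (by
      rw [one_smul, neg_one_smul, ← sub_eq_add_neg, hermForm_sub_left hF, hermForm_sub_right hF,
        hermForm_sub_right hF, huC.1, hu'C.1, hval, h3]
      ring)
    rw [one_smul, neg_one_smul, hu'] at h4
    convert h4 using 1
    abel
  have hXX : h X X = -(2 - a - a ^ q) := by
    have h3 : h uA ((R : Mat) *ᵥ uA) = h uA uA + (1 - a ^ q) := by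
      rw [← hermForm_pow_q hF, hRv, add_pow_q hF, hermForm_pow_q hF, ← conjQ_apply hF, map_sub, map_one,
        conjQ_apply]
    rw [hX, hermForm_sub_left hF, hermForm_sub_right hF, hermForm_sub_right hF, hRv, h3,
      (mem_GU_iff.1 hR.1)]
    ring
  have hN0 : (2 : F) - a - a ^ q ≠ 0 := fun h0 => by
    have : (1 - a) * (1 - a ^ q) = 0 := by linear_combination haa + h0
    rcases mul_eq_zero.mp this with h3 | h3
    · exact ha1 (sub_eq_zero.mp h3).symm
    · rw [sub_eq_zero] at h3
      rw [← h3, mul_one] at haa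
      exact ha1 haa
  have hYY : h Y Y = 2 - a - a ^ q := by
    have hx : h (X + Y) (X + Y) = 0 := hXY.1
    rw [hermForm_add_left hF, hermForm_add_right hF, hermForm_add_right hF, horth A B hAB X hXm Y hYm,
      horth B A hAB.symm Y hYm X hXm, hXX] at hx
    linear_combination hx
  -- weight two centres between the two members
  have hAW : ∀ p r : Fin n, (idx.symm p).1 = A → (idx.symm r).1 = B → ∀ α β : F,
      α ^ (q + 1) + β ^ (q + 1) = 0 → (α • Pi.single p 1 + β • Pi.single r 1 : Fin n → F) ∈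
        Herm.centres hf M := by
    intro p r hp hr α β hαβ
    have hpr : p ≠ r := fun e => hAB (by rw [← hp, ← hr, e])
    obtain ⟨γ, hγ⟩ := exists_norm_eq hF (μ := h X X) (hermForm_pow_q hF X X)
    obtain ⟨γ', hγ'⟩ := exists_norm_eq hF (μ := h Y Y) (hermForm_pow_q hF Y Y)
    have hγ0 : γ ≠ 0 := fun h0 => by
      rw [h0, zero_pow (by omega), hXX] at hγ; exact neg_ne_zero.mpr hN0 hγ.symm
    have hγ'0 : γ' ≠ 0 := fun h0 => by rw [h0, zero_pow (by omega), hYY] at hγ'; exact hN0 hγ'.symm
    have hem : ∀ (l : Fin n) (j : Fin t) (c : F), (idx.symm l).1 = j →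
        (c • Pi.single l 1 : Fin n → F) ∈ stdDec F idx j :=
      fun l j c hl => hl ▸ (stdDec F idx _).smul_mem _ (single_mem_stdDec idx l 1)
    have hnorm : ∀ (l : Fin n) (c : F), h (c • Pi.single l 1) (c • Pi.single l 1) = c ^ (q + 1) := fun l c => by
      rw [hermForm_smul_left hF, hermForm_smul_right hF, herm_single_right hF, Pi.single_eq_same, mul_one,
        pow_succ']
    obtain ⟨S, hS, hSx, hSd⟩ := exists_blk_det hF hk hXm (hem p A γ hp)
      (by rw [hXX]; exact neg_ne_zero.mpr hN0) (by rw [hnorm, hγ]) (one_pow (q + 1))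
    obtain ⟨S', hS', hSy, hS'd⟩ := exists_blk_det hF hk hYm (hem r B γ' hr)
      (by rw [hYY]; exact hN0) (by rw [hnorm, hγ']) (one_pow (q + 1))
    have h3 := Herm.centres_conj hf hiso (hpair hS hS' (by rw [hSd, hS'd, one_mul])) hXY
    rw [Units.val_mul, ← Matrix.mulVec_mulVec, Matrix.mulVec_add,
      blk_fix hF hS' (x := X) (fun l hl => hXm l (hl ▸ hAB.symm)), hSy, Matrix.mulVec_add, hSx,
      blk_fix hF hS (x := γ' • Pi.single r 1) (fun l hl => hem r B γ' hr l (hl ▸ hAB))] at h3
    rcases eq_or_ne α 0 with rfl | hα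
    · rw [zero_pow (by omega), zero_add] at hαβ
      rw [eq_zero_of_pow_eq_zero hαβ, zero_smul, zero_smul, add_zero]
      refine ⟨hermForm_zero_left hF 0, fun d hd => ?_⟩
      convert M.one_mem using 1
      exact gl_ext fun x => by rw [Herm.uT_mulVec]; simp
    have hβ : β ≠ 0 := fun h0 => by
      rw [h0, zero_pow (by omega), add_zero] at hαβ; exact hα (eq_zero_of_pow_eq_zero hαβ)
    have h4 := Herm.centres_smul hf h3 (α / γ)
    obtain ⟨o, -, ho⟩ := Finset.exists_mem_notMem_of_card_lt_card (s := ({p, r} : Finset (Fin n)))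
      (t := Finset.univ) (lt_of_le_of_lt Finset.card_le_two (by simp; omega))
    simp only [Finset.mem_insert, Finset.mem_singleton, not_or] at ho
    set ρ := β / (α / γ * γ') with hρ
    have hρ1 : ρ ^ (q + 1) = 1 := by
      rw [hρ, div_pow, mul_pow, div_pow, hγ, hγ', hXX, hYY, show β ^ (q + 1) = -α ^ (q + 1) by
        linear_combination hαβ]
      field_simp
    let d : Fin n → F := fun l => if l = r then ρ else if l = o then ρ ^ q else 1
    have hd : ∀ l, d l ^ (q + 1) = 1 := fun l => by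
      dsimp only [d]; split_ifs
      · exact hρ1
      · rw [← pow_mul, mul_comm, pow_mul, hρ1, one_pow]
      · exact one_pow _
    have hp1 : ∏ l, d l = 1 := by
      rw [Finset.prod_eq_mul r o (Ne.symm ho.2) (fun l _ hl => by simp [d, hl.1, hl.2]) (by simp) (by simp)]
      simp [d, ho.2, norm_one_conj hF hρ1]
    have h5 := Herm.centres_conj hf hiso (hdiag d hd hp1) h4
    convert h5 using 1
    funext l
    simp only [guDiag, Matrix.mulVec_diagonal, Pi.add_apply, Pi.smul_apply, Pi.single_apply, smul_eq_mul, d]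
    have hval1 : α / γ * γ = α := div_mul_cancel₀ _ hγ0
    have hval2 : ρ * (α / γ * γ') = β :=
      div_mul_cancel₀ _ (mul_ne_zero (div_ne_zero hα hγ0) hγ'0)
    by_cases hlr : l = r
    · subst hlr
      simp [Ne.symm hpr]
      linear_combination -hval2
    · by_cases hlp : l = p
      · subst hlp
        simp [hlr, Ne.symm ho.1]
        linear_combination -hval1
      · simp [hlr, hlp]
  have hW : ∀ (i j : Fin n) (α β : F), i ≠ j → α ^ (q + 1) + β ^ (q + 1) = 0 →
      (α • Pi.single i 1 + β • Pi.single j 1 : Fin n → F) ∈ Herm.centres hf M := by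
    intro i j α β hij hαβ
    by_cases hb : (idx.symm i).1 = (idx.symm j).1
    · refine hCD _ _ ((stdDec F idx _).add_mem ((stdDec F idx _).smul_mem _ (single_mem_stdDec idx i 1))
        ((stdDec F idx _).smul_mem _ (hb ▸ single_mem_stdDec idx j 1))) ?_
      simp [hermForm_add_left hF, hermForm_add_right hF, hermForm_smul_left hF, hermForm_smul_right hF,
        hermForm_single_left, hij, Ne.symm hij, zero_pow (show q ≠ 0 by omega)]
      linear_combination hαβ
    set I := (idx.symm i).1
    set J := (idx.symm j).1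
    let τ₁ := Equiv.swap A I
    let τ : Equiv.Perm (Fin t) := τ₁.trans (Equiv.swap (τ₁ B) J)
    have hτA : τ A = I := by
      simp only [τ, τ₁, Equiv.trans_apply, Equiv.swap_apply_left]
      refine Equiv.swap_apply_of_ne_of_ne (fun e => ?_) hb
      have : Equiv.swap A I B = Equiv.swap A I A := by rw [Equiv.swap_apply_left]; exact e.symm
      exact hAB ((Equiv.swap A I).injective this).symm
    have hτB : τ B = J := by simp [τ]
    let π : Equiv.Perm (Fin n) := idx.symm.trans ((τ.prodCongr (Equiv.refl _)).trans idx)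
    have hπ : ∀ l, (idx.symm (π l)).1 = τ (idx.symm l).1 := fun l => by simp [π]
    obtain ⟨m, hm, s, hs, hmv⟩ := exists_mono hF π i
    have hs0 : ∀ l, s l ≠ 0 := fun l h0 => by
      have := hs l; rw [h0, zero_pow (by omega)] at this; exact zero_ne_one this
    have hmM : m ∈ M := hHM ⟨mono_stab idx π τ hπ hs0 hmv, hm⟩
    have hbl : ∀ l, τ (idx.symm (π.symm l)).1 = (idx.symm l).1 := fun l => by
      rw [← hπ, Equiv.apply_symm_apply]
    have h3 := Herm.centres_conj hf hiso hmM (hAW (π.symm i) (π.symm j)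
      (τ.injective (by rw [hbl, hτA])) (τ.injective (by rw [hbl, hτB])) (α / s i) (β / s j)
      (by rw [div_pow, div_pow, hs, hs, div_one, div_one, hαβ]))
    convert h3 using 1
    rw [hmv]
    funext l
    simp only [Pi.add_apply, Pi.smul_apply, Pi.single_apply, smul_eq_mul, π.symm.injective.eq_iff]
    by_cases hli : l = i
    · subst hli; simp [hij, mul_div_cancel₀ _ (hs0 l)]
    · by_cases hlj : l = j
      · subst hlj; simp [hli, mul_div_cancel₀ _ (hs0 l)]
      · simp [hli, hlj]
  by_cases hq : 3 ≤ q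
  · exact su_le_of_weight_two hF hq (by omega) hMK hdiag hW
  · have hq' : q = 2 := by omega
    subst hq'
    have hk3 : 3 ≤ k := by omega
    let i₀ : Fin t := ⟨0, by omega⟩
    let i₁ : Fin t := ⟨1, by omega⟩
    let p₀ : Fin n := idx (i₀, ⟨0, by omega⟩)
    let p₁ : Fin n := idx (i₀, ⟨1, by omega⟩)
    let p₂ : Fin n := idx (i₀, ⟨2, by omega⟩)
    let r : Fin n := idx (i₁, ⟨0, by omega⟩)
    have h01 : p₀ ≠ p₁ := fun e => by simpa using idx.injective e
    have h02 : p₀ ≠ p₂ := fun e => by simpa using idx.injective e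
    have h12 : p₁ ≠ p₂ := fun e => by simpa using idx.injective e
    have hmemp : ∀ a' : Fin k, (Pi.single (idx (i₀, a')) 1 : Fin n → F) ∈ stdDec F idx i₀ := fun a' => by
      have := single_mem_stdDec (F := F) idx (idx (i₀, a')) 1; simpa using this
    set v : Fin n → F := Pi.single p₀ 1 + Pi.single p₁ 1 + Pi.single p₂ 1 with hv
    have hvv : Cfsg.hermForm n F 2 v v = 1 := by
      simp [hv, hermForm_add_left hF, hermForm_add_right hF, hermForm_single_left, h01, h02, h12, h01.symm,
        h02.symm, h12.symm]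
      linear_combination four_two_eq_zero hF
    obtain ⟨S, hS, hSx⟩ := exists_blk hF (hmemp ⟨0, by omega⟩)
      ((stdDec F idx i₀).add_mem ((stdDec F idx i₀).add_mem (hmemp _) (hmemp _)) (hmemp _)) (by simp)
      (fun e => by change v = 0 at e; rw [e, hermForm_zero_left hF] at hvv; exact zero_ne_one hvv)
      (by change _ = Cfsg.hermForm n F 2 v v; rw [hvv, herm_single_right hF, Pi.single_eq_same])
    have hd1 : (((S⁻¹ : GL (Fin n) F) : Mat).det) ^ (2 + 1) = 1 := det_gl_GU hF ((Cfsg.GU n F 2).inv_mem hS.1)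
    have hd : ∀ l, Function.update (1 : Fin n → F) r ((S⁻¹ : GL (Fin n) F) : Mat).det l ^ (2 + 1) = 1 := fun l => by
      by_cases hl : l = r
      · rw [hl, Function.update_self]; exact hd1
      · simp [hl]
    have hB' : IsBlk 2 idx i₁ (guDiag (q := 2) _ hd).1 := blk_diag hF _ hd fun l hl => by
      have : l ≠ r := fun e => hl (by simp [e, r])
      simp [this]
    have hdet : ((guDiag (q := 2) _ hd).1 : Mat).det = ((S⁻¹ : GL (Fin n) F) : Mat).det := by
      simp [guDiag, Finset.prod_update_of_mem]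
    refine su_le_of_weight_four hF hn hMK hdiag hW (hpair hS hB' (by rw [hdet, det_inv_gl hF])) (i₀ := p₀) ?_
    have himg : ((S * (guDiag (q := 2) _ hd).1 : GL (Fin n) F) : Mat) *ᵥ Pi.single p₀ 1 = v := by
      rw [Units.val_mul, ← Matrix.mulVec_mulVec, blk_fix hF hB' (x := Pi.single p₀ 1) (fun l hl =>
        Pi.single_eq_of_ne (fun (e : l = p₀) => by simp [e, p₀, i₀, i₁] at hl) _)]
      exact hSx
    rw [himg]
    refine le_trans (le_of_eq (Finset.card_pair h01).symm) (Finset.card_le_card fun l hl => ?_)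
    rw [Finset.mem_filter]
    refine ⟨Finset.mem_univ l, ?_⟩
    simp only [Finset.mem_insert, Finset.mem_singleton] at hl
    rcases hl with rfl | rfl <;> simp [hv, h01, h02, h12, h01.symm]

end Cfsg.Agent.H3
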