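import Cfsg.Agent.H3.UMonoEven
import Cfsg.Agent.H3.UWreath

set_option autoImplicit false
set_option linter.unusedSectionVars false

/-!
# The monomial subgroup of `SU` is maximal
-/

namespace Cfsg.Agent.H3

open scoped Matrix Classical
open Cfsg.Agent.H98

variable {F : Type*} [Field F] [Fintype F] {q n t k : ℕ}

local notation "Mat" => Matrix (Fin n) (Fin n) F
local notation "h" => Cfsg.hermForm n F q
local notation "G₁" => Cfsg.GU n F q ⊓ Cfsg.Geo.specialLinear (Fin n) F

variable (hF : Fintype.card F = q ^ 2)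
include hF

variable {M : Subgroup (GL (Fin n) F)}

omit hF in
/-- The support of a vector. -/
theorem eq_two_coords (v : Fin n → F) {i j : Fin n} (hij : i ≠ j) (hv : ∀ l, l ≠ i → l ≠ j → v l = 0) :
    v = v i • Pi.single i 1 + v j • Pi.single j 1 := by
  funext l
  by_cases hli : l = i
  · subst hli; simp [hij]
  by_cases hlj : l = j
  · subst hlj; simp [Ne.symm hij]
  simp [hli, hlj, hv l hli hlj]

/-- A homology axis with an entry of norm different from one splits. -/
theorem inO_split (hMK : M ≤ G₁) (hdiag : HasDiag q M) {c j : Fin n} {u : Fin n → F} (hu : InO q M c u)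
    (hj : u j ≠ 0) (hN : u j ^ (q + 1) ≠ 1) :
    ∃ (γ : F) (e' : Fin n → F) (hp : IsFramePair q (Pi.single j 1 : Fin n → F) e' c),
      γ ≠ 0 ∧ (∀ l, l ≠ j → γ * e' l = u l) ∧ e' j = 0 ∧ InO q M c e' ∧ liftGroup hF hp M = ⊤ := by
  obtain ⟨huu, huc, huM⟩ := hu
  have hq2 := two_le_q hF
  have hjc : j ≠ c := fun e => hj (e ▸ huc)
  obtain ⟨γ, hγ⟩ := exists_norm_eq hF (μ := 1 - u j ^ (q + 1)) (by
    rw [sub_eq_add_neg, add_pow_q hF, one_pow, ← conjQ_apply hF (-(u j ^ (q + 1))), map_neg, conjQ_apply hF,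
      norm_pow_q hF])
  have hγ0 : γ ≠ 0 := fun h0 => hN (by rw [h0, zero_pow (by omega)] at hγ; linear_combination hγ)
  have hγγ : γ * γ ^ q + u j * u j ^ q = 1 := by rw [← pow_succ', ← pow_succ', hγ]; ring
  set e' : Fin n → F := γ⁻¹ • (u - u j • Pi.single j 1) with he'
  have he'j : e' j = 0 := by simp [he']
  have he'l : ∀ l, l ≠ j → γ * e' l = u l := fun l hl => by simp [he', hl, hγ0]
  have hrepr : u = u j • Pi.single j 1 + γ • e' := by
    funext l
    by_cases hl : l = j
    · subst hl; simp [he'j]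
    · simp [hl, he'l l hl]
  have hej : h e' (Pi.single j 1) = 0 := by rw [herm_single_right hF, he'j]
  have he'e' : h e' e' = 1 := by
    have h1 := huu
    rw [hrepr, hermForm_add_left hF, hermForm_add_right hF, hermForm_add_right hF] at h1
    simp only [hermForm_smul_left hF, hermForm_smul_right hF, (hermForm_eq_zero_comm hF).mp hej, hej,
      herm_single_right hF, Pi.single_eq_same, mul_zero, add_zero, zero_add, mul_one] at h1
    have h2 : γ * γ ^ q * h e' e' = γ * γ ^ q := by linear_combination h1 - hγγ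
    exact (mul_eq_left₀ (mul_ne_zero hγ0 (pow_ne_zero q hγ0))).mp h2
  have hp : IsFramePair q (Pi.single j 1 : Fin n → F) e' c :=
    { fst := by rw [herm_single_right hF, Pi.single_eq_same]
      snd := he'e'
      orth := (hermForm_eq_zero_comm hF).mp hej
      fst_c := Pi.single_eq_of_ne hjc.symm _
      snd_c := by simp [he', huc, Ne.symm hjc] }
  -- a homology of the plane
  obtain ⟨a, ha, hna⟩ := Finset.exists_mem_notMem_of_card_lt_card
    (s := ({1, 1 - (u j * u j ^ q)⁻¹} : Finset F)) (t := normOne q F)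
    (lt_of_le_of_lt Finset.card_le_two (by rw [card_normOne hF]; omega))
  rw [mem_normOne] at ha
  simp only [Finset.mem_insert, Finset.mem_singleton, not_or] at hna
  have hy : Cfsg.hermForm 2 F q ![u j, γ] ![u j, γ] = 1 := by
    rw [hermForm_two]
    simp
    linear_combination hγγ
  obtain ⟨g₀, hg₀⟩ := exists_GU_mulVec_eq hF (v := (Pi.single 0 1 : Fin 2 → F)) (w := ![u j, γ]) (by simp)
    (fun h0 => hj (by simpa using congrFun h0 0)) (by rw [hy, hermForm_single_left]; simp)
  have hd : ∀ i : Fin 2, (![a, 1] : Fin 2 → F) i ^ (q + 1) = 1 := fun i => by fin_cases i <;> simp [ha]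
  set g := g₀ * guDiag (q := q) ![a, 1] hd * g₀⁻¹ with hg
  have hgv : ∀ v, (g.1 : Matrix (Fin 2) (Fin 2) F) *ᵥ v =
      v + ((a - 1) * Cfsg.hermForm 2 F q v ![u j, γ]) • ![u j, γ] := by
    intro v
    rw [← hg₀, herm_image hF g₀.2, hg, Subgroup.coe_mul, Subgroup.coe_mul, Subgroup.coe_inv, Units.val_mul,
      Units.val_mul, ← Matrix.mulVec_mulVec, ← Matrix.mulVec_mulVec]
    set w := ((g₀.1⁻¹ : GL (Fin 2) F) : Matrix (Fin 2) (Fin 2) F) *ᵥ v with hw
    have : ((guDiag (q := q) ![a, 1] hd).1 : Matrix (Fin 2) (Fin 2) F) *ᵥ w =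
        w + ((a - 1) * w 0) • Pi.single 0 1 := by
      funext i
      fin_cases i <;> simp [guDiag, Matrix.mulVec_diagonal]
      ring
    rw [this, Matrix.mulVec_add, Matrix.mulVec_smul, hw, gl_mulVec_inv]
  have hdet : (g.1 : Matrix (Fin 2) (Fin 2) F).det = a := by
    rw [hg, Subgroup.coe_mul, Subgroup.coe_mul, Subgroup.coe_inv, Units.val_mul, Units.val_mul, Matrix.det_mul,
      Matrix.det_mul, mul_right_comm, ← Matrix.det_mul, Units.mul_inv]
    simp [guDiag, Fin.prod_univ_two]
  have hpc : ∀ x, Cfsg.hermForm 2 F q (planeCoord q (Pi.single j 1 : Fin n → F) e' x) ![u j, γ] = h x u := by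
    intro x
    rw [hermForm_two]
    conv_rhs => rw [hrepr, hermForm_add_right hF, hermForm_smul_right hF, hermForm_smul_right hF]
    simp [planeCoord]
    ring
  obtain ⟨m, hm, hmx⟩ := huM a ha
  have hgL : g ∈ liftGroup hF hp M := ⟨m, hm, fun x => by
    rw [hmx, liftMap, hgv, hdet, add_sub_cancel_left, hpc]
    conv_lhs => rw [hrepr]
    simp [plane, ← hrepr]
    match_scalars <;> field_simp <;> ring⟩
  have hgz : ∀ i, ((g.1 : Matrix (Fin 2) (Fin 2) F) *ᵥ Pi.single 0 1) i ≠ 0 := by
    intro i
    rw [hgv, hermForm_single_left]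
    fin_cases i
    · simp
      intro h0
      refine hna.2 ?_
      have hjj : u j * u j ^ q ≠ 0 := mul_ne_zero hj (pow_ne_zero q hj)
      field_simp
      linear_combination h0
    · simp [hj, hγ0, sub_ne_zero.mpr hna.1]
  have htop := liftGroup_top hF hp (inO_single hF hdiag hjc) hgL hgz
  refine ⟨γ, e', hp, hγ0, he'l, he'j, ?_, htop⟩
  have h1 := inO_plane hF hMK hp (inO_single hF hdiag hjc) htop (y := (Pi.single 1 1 : Fin 2 → F))
    (by rw [hermForm_single_left]; simp)
  simpa [plane] using h1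

/-- A mixed homology axis yields all centres of some coordinate plane. -/
theorem exists_plane (hn : 13 ≤ n) (hq : 3 ≤ q) (hMK : M ≤ G₁) (hdiag : HasDiag q M) :
    ∀ (w : ℕ) (c : Fin n) (u : Fin n → F), InO q M c u → ¬ IsAxis u →
      (Finset.univ.filter fun l => u l ≠ 0).card ≤ w → ∃ i j : Fin n, i ≠ j ∧ ∀ a b : F,
        a ^ (q + 1) + b ^ (q + 1) = 0 →
          (a • Pi.single i 1 + b • Pi.single j 1 : Fin n → F) ∈ Herm.centres (Herm.isUnitary_std (n := n) hF) M := by
  intro w
  induction w with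
  | zero =>
    intro c u _ hax hw
    refine absurd (fun i j hi _ => absurd hw (Nat.not_le.mpr (Finset.card_pos.mpr
      ⟨i, Finset.mem_filter.mpr ⟨Finset.mem_univ _, hi⟩⟩))) hax
  | succ w ih =>
    intro c u hu hax hw
    -- make some entry have norm different from one
    obtain ⟨u, hu, hax, hw, j, hj, hN⟩ : ∃ v, InO q M c v ∧ ¬ IsAxis v ∧
        (Finset.univ.filter fun l => v l ≠ 0).card ≤ w + 1 ∧ ∃ j, v j ≠ 0 ∧ v j ^ (q + 1) ≠ 1 := by
      by_cases hc : ∃ j, u j ≠ 0 ∧ u j ^ (q + 1) ≠ 1
      · exact ⟨u, hu, hax, hw, hc⟩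
      push Not at hc
      unfold IsAxis at hax
      push Not at hax
      obtain ⟨i, j, hi, hj, hij⟩ := hax
      obtain ⟨a, ha, ha1, haN⟩ : ∃ a : F, a ^ (q + 1) = 1 ∧ a ≠ 1 ∧ (a - 1) ^ (q + 1) ≠ 1 := by
        by_contra hall
        push Not at hall
        have key : ∀ a ∈ normOne q F, a ≠ 1 → a * a - a + 1 = 0 := fun a ha ha1 => by
          rw [mem_normOne] at ha
          have h1 := hall a ha ha1
          have h2 := norm_one_conj hF ha
          rw [pow_succ', ← conjQ_apply hF, map_sub, map_one, conjQ_apply hF] at h1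
          linear_combination (a - 1) * h2 - a * h1
        obtain ⟨a₀, ha₀, ha₀1, -⟩ := exists_norm_one_ne hF
        obtain ⟨b, hb, hbn⟩ := Finset.exists_mem_notMem_of_card_lt_card (s := ({1, a₀, 1 - a₀} : Finset F))
          (t := normOne q F) (lt_of_le_of_lt Finset.card_le_three (by rw [card_normOne hF]; omega))
        simp only [Finset.mem_insert, Finset.mem_singleton, not_or] at hbn
        have e : (b - a₀) * (b - (1 - a₀)) = 0 := by
          linear_combination key b hb hbn.1 - key a₀ (mem_normOne.mpr ha₀) ha₀1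
        rcases mul_eq_zero.mp e with h1 | h1
        · exact hbn.2.1 (sub_eq_zero.mp h1)
        · exact hbn.2.2 (sub_eq_zero.mp h1)
      have huc := hu.2.1
      have hjc : j ≠ c := fun e => hj (e ▸ huc)
      obtain ⟨m, hm, hmx⟩ := hu.2.2 a ha
      have hmc : (m : Mat) *ᵥ Pi.single c 1 = a ^ q • Pi.single c 1 := by
        rw [hmx, hermForm_single_left, huc, zero_pow (by omega), Pi.single_eq_same]
        module
      have hnew := inO_conj hF hMK (inO_single hF hdiag hjc) hm hmc
      have hval : ∀ l, ((m : Mat) *ᵥ Pi.single j 1) l =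
          (if l = j then 1 else 0) + (a - 1) * u j ^ q * u l := fun l => by
        rw [hmx, hermForm_single_left, Pi.single_eq_of_ne hjc.symm]
        simp [Pi.single_apply]
      have hjj : u j * u j ^ q = 1 := norm_one_conj hF (hc j hj)
      have hvj : ((m : Mat) *ᵥ Pi.single j 1) j = a := by
        rw [hval, if_pos rfl]; linear_combination (a - 1) * hjj
      have hvi : ((m : Mat) *ᵥ Pi.single j 1) i = (a - 1) * u j ^ q * u i := by rw [hval, if_neg hij]; ring
      have hvi0 : ((m : Mat) *ᵥ Pi.single j 1) i ≠ 0 := by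
        rw [hvi]; exact mul_ne_zero (mul_ne_zero (sub_ne_zero.mpr ha1) (pow_ne_zero q hj)) hi
      refine ⟨_, hnew, fun hh => hij (hh i j hvi0 (by
        rw [hvj]; intro e; rw [e, zero_pow (by omega)] at ha; exact zero_ne_one ha)), le_trans (Finset.card_le_card
        fun l hl => ?_) hw, i, hvi0, ?_⟩
      · rw [Finset.mem_filter] at hl ⊢
        refine ⟨hl.1, fun h0 => hl.2 ?_⟩
        have : l ≠ j := fun e => hj (e ▸ h0)
        rw [hval, if_neg this, h0, mul_zero, add_zero]
      · rw [hvi, mul_pow, mul_pow, hc i hi, ← pow_mul, mul_comm q, pow_mul, hc j hj, one_pow, mul_one, mul_one]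
        exact haN
    obtain ⟨γ, e', hp, hγ0, hl, he'j, he', htop⟩ := inO_split hF hMK hdiag hu hj hN
    by_cases hax' : IsAxis e'
    · have he'0 : e' ≠ 0 := fun h0 => one_ne_zero (α := F) (by rw [← hp.snd, h0, hermForm_zero_left hF])
      obtain ⟨l, κ, hκ, hlκ⟩ := exists_axis hax' he'0
      have hlj : j ≠ l := fun e => by simp [hlκ, e, hκ] at he'j
      refine ⟨j, l, hlj, fun a b hab => ?_⟩
      have hκκ : κ * κ ^ q = 1 := by
        have := hp.snd
        rw [hlκ, hermForm_smul_left hF, hermForm_smul_right hF, herm_single_right hF, Pi.single_eq_same,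
          mul_one] at this
        exact this
      have h1 := centres_plane hF hp htop (y := ![a, b * κ ^ q]) (by
        rw [hermForm_two]
        have hn : κ ^ (q + 1) = 1 := by rw [pow_succ', hκκ]
        have hn' := pow_q_pow_q hF κ
        simp only [Matrix.cons_val_zero, Matrix.cons_val_one, mul_pow, hn']
        rw [← hab, pow_succ', pow_succ']
        linear_combination (b * b ^ q) * hκκ)
      convert h1 using 1
      simp [plane, hlκ, smul_smul, mul_assoc, mul_comm (κ ^ q) κ, hκκ]
    · refine ih c e' he' hax' ?_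
      have hsub : (Finset.univ.filter fun l => e' l ≠ 0) ⊆ (Finset.univ.filter fun l => u l ≠ 0).erase j := by
        intro l hl'
        rw [Finset.mem_filter] at hl'
        have hne : l ≠ j := fun e => hl'.2 (e ▸ he'j)
        rw [Finset.mem_erase, Finset.mem_filter]
        exact ⟨hne, Finset.mem_univ _, by rw [← hl l hne]; exact mul_ne_zero hγ0 hl'.2⟩
      have h1 := Finset.card_le_card hsub
      rw [Finset.card_erase_of_mem (show j ∈ Finset.univ.filter (fun l => u l ≠ 0) from
        Finset.mem_filter.mpr ⟨Finset.mem_univ _, hj⟩)] at h1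
      omega

/-- For `q > 2` an overgroup of the monomial group with a mixed element is `SU`. -/
theorem su_le_of_monomial (hn : 13 ≤ n) (hq : 3 ≤ q) (hMK : M ≤ G₁) (hmono : ∀ m ∈ G₁, IsMonom m → m ∈ M)
    (hdiag : HasDiag q M) {g : GL (Fin n) F} (hg : g ∈ M) (hgm : ¬ IsMonom g) : G₁ ≤ M := by
  have hf := Herm.isUnitary_std (n := n) hF
  let l₀ : Fin n := ⟨0, by omega⟩
  have hperm : ∀ π : Equiv.Perm (Fin n), ∃ m ∈ M, ∃ s : Fin n → F, (∀ l, s l ^ (q + 1) = 1) ∧
      ∀ v : Fin n → F, ((m : GL (Fin n) F) : Mat) *ᵥ v = fun l => s l * v (π.symm l) := fun π => by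
    obtain ⟨m, hm, s, hs, hmv⟩ := exists_mono hF π l₀
    exact ⟨m, hmono m hm (isMonom_of_mono hmv), s, hs, hmv⟩
  have hs0 : ∀ {a : F}, a ^ (q + 1) = 1 → a ≠ 0 := fun ha h0 => by
    rw [h0, zero_pow (by omega)] at ha; exact zero_ne_one ha
  by_cases hmix : ∃ y ∈ M, ∃ (c a : Fin n) (ρ : F), ((y : GL (Fin n) F) : Mat) *ᵥ Pi.single c 1 =
      ρ • Pi.single c 1 ∧ ¬ IsAxis ((y : Mat) *ᵥ Pi.single a 1)
  · obtain ⟨y, hy, c, a, ρ, hyc, hya⟩ := hmix
    have hac : a ≠ c := fun e => hya (by rw [e, hyc]; exact isAxis_smul_single ρ c)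
    obtain ⟨i, j, hij, hW⟩ := exists_plane hF hn hq hMK hdiag _ c _
      (inO_conj hF hMK (inO_single hF hdiag hac) hy hyc) hya le_rfl
    refine su_le_of_weight_two hF hq (by omega) hMK hdiag fun i' j' a' b' hij' hab => ?_
    let π : Equiv.Perm (Fin n) := Equiv.swap (Equiv.swap i i' j) j' * Equiv.swap i i'
    have hπi : π i = i' := by
      simp only [π, Equiv.Perm.mul_apply, Equiv.swap_apply_left]
      refine Equiv.swap_apply_of_ne_of_ne (fun e => hij ?_) hij'
      have := congrArg (Equiv.swap i i') e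
      rwa [Equiv.swap_apply_self, Equiv.swap_apply_right] at this
    have hπj : π j = j' := by simp [π]
    obtain ⟨m, hm, s, hs, hmv⟩ := hperm π
    have h1 := Herm.centres_conj hf (fun g hg => (hMK hg).1) hm (hW (a' / s i') (b' / s j') (by
      rw [div_pow, div_pow, hs, hs, div_one, div_one]; exact hab))
    convert h1 using 1
    rw [hmv]
    funext l
    have hli : π.symm l = i ↔ l = i' := by rw [Equiv.symm_apply_eq, hπi]
    have hlj : π.symm l = j ↔ l = j' := by rw [Equiv.symm_apply_eq, hπj]
    by_cases h2 : l = i'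
    · subst h2
      simp [hli.mpr rfl, hij, hij', mul_div_cancel₀ _ (hs0 (hs l))]
    by_cases h3 : l = j'
    · subst h3
      simp [hlj.mpr rfl, hij.symm, h2, mul_div_cancel₀ _ (hs0 (hs l))]
    simp [h2, h3, mt hli.mp h2, mt hlj.mp h3]
  exfalso
  push Not at hmix
  have hspread : Spreading M := fun m hm c hc a => by
    obtain ⟨l, ρ, -, hl⟩ := exists_axis hc (gl_single_ne_zero m c)
    obtain ⟨P, hP, s, hs, hPv⟩ := hperm (Equiv.swap c l)
    have h1 := hmix (P * m) (M.mul_mem hP hm) c a (s c * ρ) (by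
      rw [Units.val_mul, ← Matrix.mulVec_mulVec, hl, hPv]
      funext o
      by_cases ho : o = c
      · subst ho; simp
      · have : (Equiv.swap c l) o ≠ l := fun e => ho (by
          have := congrArg (Equiv.swap c l) e
          rwa [Equiv.swap_apply_self, Equiv.swap_apply_right] at this)
        simp [ho, this])
    intro i j hi hj
    refine (Equiv.swap c l).injective (h1 _ _ ?_ ?_) <;>
      rw [Units.val_mul, ← Matrix.mulVec_mulVec, hPv] <;>
      simp only [Equiv.symm_swap, Equiv.swap_apply_self]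
    · exact mul_ne_zero (hs0 (hs _)) hi
    · exact mul_ne_zero (hs0 (hs _)) hj
  by_cases h2 : (2 : F) = 0
  · exact not_spreading_even hF h2 hn hq hMK hdiag hmono hspread hg hgm
  · exact not_spreading_odd hF h2 hn hq hMK hdiag hmono hspread hg hgm

/-- Over four elements the monomial group contains the transvections of weight two. -/
theorem weight_two_centres (hq : q = 2) (hMK : M ≤ G₁) (hmono : ∀ m ∈ G₁, IsMonom m → m ∈ M) (i j : Fin n)
    (a b : F) (hij : i ≠ j) (hab : a ^ (q + 1) + b ^ (q + 1) = 0) :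
    (a • Pi.single i 1 + b • Pi.single j 1 : Fin n → F) ∈ Herm.centres (Herm.isUnitary_std (n := n) hF) M := by
  subst hq
  have h2 : (2 : F) = 0 := four_two_eq_zero hF
  set v : Fin n → F := a • Pi.single i 1 + b • Pi.single j 1 with hv
  have hvv : Cfsg.hermForm n F 2 v v = 0 := by
    simp [hv, hermForm_add_left hF, hermForm_add_right hF, hermForm_smul_left hF, hermForm_smul_right hF,
      hermForm_single_left, hij, hij.symm]
    linear_combination hab
  refine ⟨hvv, fun d hd => hmono _ (Herm.uT_mem_su hF hvv hd) fun k => ?_⟩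
  rw [Herm.frobQ_apply hF] at hd
  have hd2 : d = 0 ∨ d = 1 := by
    have : d * (d - 1) = 0 := by linear_combination hd - d * h2
    rcases mul_eq_zero.mp this with h1 | h1
    · exact Or.inl h1
    · exact Or.inr (sub_eq_zero.mp h1)
  rw [Herm.uT_mulVec, hermForm_single_left, one_mul]
  rcases hd2 with rfl | rfl
  · rw [zero_mul, zero_smul, add_zero]; exact isAxis_single k
  rw [one_mul]
  have hN : ∀ z : F, z ≠ 0 → z * z ^ 2 = 1 := fun z hz => by rw [← pow_succ']; exact four_pow_three hF hz
  by_cases hk : v k = 0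
  · rw [hk, zero_pow two_ne_zero, zero_smul, add_zero]; exact isAxis_single k
  by_cases hki : k = i
  · subst hki
    have ha : a ≠ 0 := by simpa [hv, hij] using hk
    convert isAxis_smul_single (a ^ 2 * b) j using 1
    funext o
    by_cases ho : o = k
    · subst ho
      simp [hv, hij]
      linear_combination hN a ha + h2
    · simp [hv, hij, ho, Pi.single_apply]
  by_cases hkj : k = j
  · subst hkj
    have hb : b ≠ 0 := by simpa [hv, hki] using hk
    convert isAxis_smul_single (b ^ 2 * a) i using 1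
    funext o
    by_cases ho : o = k
    · subst ho
      simp [hv, hij.symm]
      linear_combination hN b hb + h2
    · simp [hv, hki, ho, Pi.single_apply]
  exact absurd (by simp [hv, hki, hkj]) hk

/-- The stabiliser of a decomposition into lines is maximal. -/
theorem monomial_std_maximal (hn : 13 ≤ n) (ht : 2 ≤ t) (hk : k = 1) (idx : Fin t × Fin k ≃ Fin n) :
    Cfsg.Geo.IsMaximalIn G₁ (Cfsg.Geo.decompositionStabilizer (stdDec F idx) ⊓ G₁) := by
  subst hk
  refine isMaximalIn_of inf_le_right (std_proper hF hn ht one_pos idx) fun M hHM hMK g hg hgH => ?_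
  have hdiag := hasDiag_of_le hHM
  let b : Fin t → Fin n := fun i => idx (i, 0)
  have hb : ∀ l, b (idx.symm l).1 = l := fun l => by
    simp only [b]
    rw [show ((idx.symm l).1, (0 : Fin 1)) = idx.symm l from Prod.ext rfl (Subsingleton.elim _ _),
      Equiv.apply_symm_apply]
  have hstab : ∀ m ∈ G₁, IsMonom m → m ∈ Cfsg.Geo.decompositionStabilizer (stdDec F idx) := by
    intro m hm hmon
    choose π a ha hπ using fun l => exists_axis (hmon l) (gl_single_ne_zero m l)
    have hinj : Function.Injective π := fun l l' he => by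
      by_contra hne
      have h1 : (m : Mat) *ᵥ (a l' • Pi.single l 1 - a l • Pi.single l' 1) = (m : Mat) *ᵥ 0 := by
        rw [Matrix.mulVec_sub, Matrix.mulVec_smul, Matrix.mulVec_smul, hπ, hπ, he, Matrix.mulVec_zero, smul_smul,
          smul_smul, mul_comm, sub_self]
      simpa [hne, ha l'] using congrFun (gl_mulVec_injective m h1) l
    let p : Equiv.Perm (Fin n) := Equiv.ofBijective π (Finite.injective_iff_bijective.mp hinj)
    obtain ⟨m₀, -, s, hs, hm₀⟩ := exists_mono hF p ⟨0, by omega⟩
    have hs0 : ∀ l, s l ≠ 0 := fun l h0 => by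
      have := hs l; rw [h0, zero_pow (by omega)] at this; exact zero_ne_one this
    let e : Fin t ≃ Fin n := (Equiv.prodUnique (Fin t) (Fin 1)).symm.trans idx
    have h0 : m₀ ∈ Cfsg.Geo.decompositionStabilizer (stdDec F idx) := by
      refine mono_stab idx p ((e.trans p).trans e.symm) (fun l => ?_) hs0 hm₀
      have : e (idx.symm l).1 = l := hb l
      simp only [Equiv.trans_apply, this]
      rfl
    have h1 : m₀⁻¹ * m ∈ Cfsg.Geo.decompositionStabilizer (stdDec F idx) := by
      refine stab_of_members fun i w hw => ?_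
      have hw' : w = w (b i) • Pi.single (b i) 1 := by
        funext l
        by_cases hl : l = b i
        · subst hl; simp
        · rw [hw l (fun e => hl (by rw [← hb l, e]))]; simp [hl]
      rw [hw', Units.val_mul, ← Matrix.mulVec_mulVec, Matrix.mulVec_smul, hπ]
      have h2 : (m₀ : Mat) *ᵥ Pi.single (b i) 1 = s (π (b i)) • Pi.single (π (b i)) 1 := by
        rw [hm₀]
        funext l
        by_cases hl : l = π (b i)
        · subst hl; simp [show p.symm (π (b i)) = b i from p.symm_apply_apply _]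
        · have : p.symm l ≠ b i := fun e => hl (by rw [← e]; exact (p.apply_symm_apply l).symm)
          simp [hl, this]
      have h3 : ((m₀⁻¹ : GL (Fin n) F) : Mat) *ᵥ Pi.single (π (b i)) 1 = (s (π (b i)))⁻¹ • Pi.single (b i) 1 := by
        have := gl_inv_mulVec m₀ (Pi.single (b i) 1)
        rw [h2, Matrix.mulVec_smul] at this
        rw [← this, smul_smul, inv_mul_cancel₀ (hs0 _), one_smul]
      rw [Matrix.mulVec_smul, Matrix.mulVec_smul, h3]
      refine Submodule.smul_mem _ _ (Submodule.smul_mem _ _ (Submodule.smul_mem _ _ ?_))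
      have := single_mem_stdDec (F := F) idx (b i) 1
      simpa [b] using this
    simpa using Subgroup.mul_mem _ h0 h1
  have hmono : ∀ m ∈ G₁, IsMonom m → m ∈ M := fun m hm hmon => hHM ⟨hstab m hm hmon, hm⟩
  have hgm : ¬ IsMonom g := fun hh => hgH ⟨hstab g (hMK hg) hh, hMK hg⟩
  by_cases hq : q = 2
  · unfold IsMonom IsAxis at hgm
    push Not at hgm
    obtain ⟨l, i, j, hi, hj, hij⟩ := hgm
    subst hq
    exact su_le_of_weight_four hF hn hMK hdiag (weight_two_centres hF rfl hMK hmono) hg (i₀ := l)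
      (Finset.one_lt_card.mpr ⟨i, Finset.mem_filter.mpr ⟨Finset.mem_univ _, hi⟩,
        j, Finset.mem_filter.mpr ⟨Finset.mem_univ _, hj⟩, hij⟩)
  · exact su_le_of_monomial hF hn (by have := two_le_q hF; omega) hMK hmono hdiag hg hgm

/-- Stabilisers of non-degenerate orthogonal decompositions are maximal. -/
theorem decomposition_maximal (hn : 13 ≤ n) {D : Fin t → Submodule F (Fin n → F)}
    (hD : Cfsg.Geo.IsNondegenerateMDecomposition (Cfsg.hermForm n F q) k D) (hex : ¬ (k = 2 ∧ q = 2)) :
    Cfsg.Geo.IsMaximalIn G₁ (Cfsg.Geo.decompositionStabilizer D ⊓ G₁) := by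
  refine maximal_of_std hF hD fun idx => ?_
  rcases (show k = 1 ∨ 2 ≤ k by have := hD.decomp.pos; omega) with hk | hk
  · exact monomial_std_maximal hF hn hD.decomp.two_le hk idx
  · exact wreath_std_maximal hF hn hD.decomp.two_le hk hex idx

end Cfsg.Agent.H3
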