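import Cfsg.Agent.H3.UDecomp

set_option autoImplicit false
set_option linter.unusedSectionVars false

/-!
# Stabilisers of pairs of complementary totally singular subspaces are maximal in `SU`
-/

namespace Cfsg.Agent.H3

open scoped Matrix
open Cfsg.Agent.H98

section

variable {ι : Type} [Fintype ι] [DecidableEq ι] {F : Type*} [Field F]
variable {σ : F ≃+* F} {f : (ι → F) → (ι → F) → F} (hf : Cfsg.Geo.IsUnitaryForm σ f)

local notation "Mat" => Matrix ι ι F

include hf

/-- The element `y ↦ y + c f(y,z) x - σc f(y,x) z` for orthogonal isotropic `x`, `z`. -/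
def uX {x z : ι → F} (hx : f x x = 0) (hz : f z z = 0) (h : f x z = 0) (c : F) : GL ι F :=
  transGL (c • Herm.fl hf z) x (by simp [Herm.fl_apply, h]) *
    transGL ((-σ c) • Herm.fl hf x) z (by simp [Herm.fl_apply, (Herm.eq_zero_comm hf).mp h])

theorem uX_mulVec {x z : ι → F} (hx : f x x = 0) (hz : f z z = 0) (h : f x z = 0) (c : F) (y : ι → F) :
    (uX hf hx hz h c : Mat) *ᵥ y = y + (c * f y z) • x - (σ c * f y x) • z := by
  simp only [uX, Units.val_mul, ← Matrix.mulVec_mulVec, transGL_mulVec, LinearMap.smul_apply, Herm.fl_apply,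
    smul_eq_mul, hf.add_left, hf.smul_left, hz, mul_zero, add_zero]
  module

theorem uX_iso {x z : ι → F} (hx : f x x = 0) (hz : f z z = 0) (h : f x z = 0) (c : F) (a b : ι → F) :
    f ((uX hf hx hz h c : Mat) *ᵥ a) ((uX hf hx hz h c : Mat) *ᵥ b) = f a b := by
  simp only [uX_mulVec, Herm.sub_left hf, Herm.sub_right hf, hf.add_left, Herm.add_right hf, hf.smul_left,
    Herm.smul_right hf, hx, hz, h, (Herm.eq_zero_comm hf).mp h, map_mul, hf.involutive, Herm.sigma_apply hf]
  ring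

theorem uX_mem_sl {x z : ι → F} (hx : f x x = 0) (hz : f z z = 0) (h : f x z = 0) (c : F) :
    uX hf hx hz h c ∈ Cfsg.Geo.specialLinear ι F :=
  mul_mem (transGL_mem_sl _ _ _) (transGL_mem_sl _ _ _)

theorem uX_inv {x z : ι → F} (hx : f x x = 0) (hz : f z z = 0) (h : f x z = 0) (c : F) :
    (uX hf hx hz h c)⁻¹ = uX hf hx hz h (-c) := by
  refine inv_eq_of_mul_eq_one_right (gl_ext fun y => ?_)
  simp only [Units.val_mul, ← Matrix.mulVec_mulVec, uX_mulVec, Herm.sub_left hf, hf.add_left, hf.smul_left,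
    hx, hz, h, (Herm.eq_zero_comm hf).mp h, map_neg, mul_zero, add_zero, sub_zero, Units.val_one,
    Matrix.one_mulVec]
  module

theorem conj_uX {g : GL ι F} (hg : ∀ a b, f ((g : Mat) *ᵥ a) ((g : Mat) *ᵥ b) = f a b)
    {x z : ι → F} (hx : f x x = 0) (hz : f z z = 0) (h : f x z = 0) (c : F)
    (hx' : f ((g : Mat) *ᵥ x) ((g : Mat) *ᵥ x) = 0) (hz' : f ((g : Mat) *ᵥ z) ((g : Mat) *ᵥ z) = 0)
    (h' : f ((g : Mat) *ᵥ x) ((g : Mat) *ᵥ z) = 0) :
    g * uX hf hx hz h c * g⁻¹ = uX hf hx' hz' h' c := by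
  refine gl_ext fun y => ?_
  simp only [Units.val_mul, ← Matrix.mulVec_mulVec, uX_mulVec, Matrix.mulVec_add, Matrix.mulVec_sub,
    Matrix.mulVec_smul, gl_mulVec_inv]
  rw [← hg (((g⁻¹ : GL ι F) : Mat) *ᵥ y) z, ← hg (((g⁻¹ : GL ι F) : Mat) *ᵥ y) x, gl_mulVec_inv]

/-- The commutator of two such elements with a single non-orthogonal pair of parameters. -/
theorem uX_commutator {x z p r : ι → F} (hx : f x x = 0) (hz : f z z = 0) (hxz : f x z = 0)
    (hp : f p p = 0) (hr : f r r = 0) (hpr : f p r = 0) (hxp : f x p = 0) (hxr : f x r = 0) (hzr : f z r = 0)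
    (c d : F) :
    uX hf hx hz hxz c * uX hf hp hr hpr d * (uX hf hx hz hxz c)⁻¹ * (uX hf hp hr hpr d)⁻¹ =
      uX hf hx hr hxr (c * d * f p z) := by
  rw [uX_inv, uX_inv]
  refine gl_ext fun y => ?_
  have h1 := (Herm.eq_zero_comm hf).mp hxz
  have h2 := (Herm.eq_zero_comm hf).mp hpr
  have h3 := (Herm.eq_zero_comm hf).mp hxp
  have h4 := (Herm.eq_zero_comm hf).mp hxr
  have h5 := (Herm.eq_zero_comm hf).mp hzr
  simp only [Units.val_mul, ← Matrix.mulVec_mulVec, uX_mulVec, Herm.sub_left hf, hf.add_left, hf.smul_left,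
    hx, hz, hxz, hp, hr, hpr, hxp, hxr, hzr, h1, h2, h3, h4, h5, map_neg, map_mul, mul_zero, add_zero,
    zero_add, sub_zero, zero_sub, Herm.sigma_apply hf]
  module

/-- A transvection as a commutator. -/
theorem uX_commutator_trans {x z r : ι → F} (hx : f x x = 0) (hz : f z z = 0) (hxz : f x z = 0)
    (hr : f r r = 0) (hxr : f x r = 0) (hrz : f r z = 1) (c : F) :
    uX hf hx hz hxz 1 * uX hf hx hr hxr c * (uX hf hx hz hxz 1)⁻¹ * (uX hf hx hr hxr c)⁻¹ =
      Herm.uT hf hx (c - σ c) := by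
  rw [uX_inv, uX_inv]
  refine gl_ext fun y => ?_
  have h1 := (Herm.eq_zero_comm hf).mp hxz
  have h4 := (Herm.eq_zero_comm hf).mp hxr
  have hzr : f z r = 1 := by rw [← Herm.sigma_apply hf r z, hrz, map_one]
  simp only [Units.val_mul, ← Matrix.mulVec_mulVec, uX_mulVec, Herm.uT_mulVec, Herm.sub_left hf, hf.add_left,
    hf.smul_left, hx, hz, hxz, hr, hxr, hrz, hzr, h1, h4, map_neg, map_one, mul_zero, mul_one, one_mul,
    add_zero, zero_add, sub_zero, zero_sub]
  module

variable {D : Fin 2 → Submodule F (ι → F)} {k : ℕ}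

/-- Elements given by one vector in each member stabilise the pair. -/
theorem uX_stab (hts : ∀ i, ∀ u ∈ D i, ∀ v ∈ D i, f u v = 0)
    {i j : Fin 2} (hij : i ≠ j) {x z : ι → F} (hxi : x ∈ D i) (hzj : z ∈ D j) (hx : f x x = 0)
    (hz : f z z = 0) (h : f x z = 0) (c : F) :
    uX hf hx hz h c ∈ Cfsg.Geo.decompositionStabilizer D := by
  refine stab_of_members fun l w hw => ?_
  rw [uX_mulVec]
  by_cases hl : l = i
  · subst hl
    rw [hts l w hw x hxi, mul_zero, zero_smul, sub_zero]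
    exact (D l).add_mem hw ((D l).smul_mem _ hxi)
  · have hlj : l = j := by omega
    subst hlj
    rw [hts l w hw z hzj, mul_zero, zero_smul, add_zero]
    exact (D l).sub_mem hw ((D l).smul_mem _ hzj)

end

variable {F : Type*} [Field F] [Fintype F] {q n k : ℕ} (hF : Fintype.card F = q ^ 2)

local notation "Mat" => Matrix (Fin n) (Fin n) F
local notation "h" => Cfsg.hermForm n F q
local notation "G₁" => Cfsg.GU n F q ⊓ Cfsg.Geo.specialLinear (Fin n) F

include hF

theorem uX_mem_su {x z : Fin n → F} (hx : h x x = 0) (hz : h z z = 0) (hxz : h x z = 0) (c : F) :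
    uX (Herm.isUnitary_std hF) hx hz hxz c ∈ G₁ :=
  ⟨fun a b => uX_iso _ hx hz hxz c a b, uX_mem_sl _ hx hz hxz c⟩

variable {D : Fin 2 → Submodule F (Fin n → F)}

/-- An element of `SU` exchanging the members. -/
theorem exists_upair_swap (hD : Cfsg.Geo.IsMDecomposition k D)
    (hts : ∀ i, ∀ u ∈ D i, ∀ v ∈ D i, h u v = 0) :
    ∃ s ∈ Cfsg.Geo.decompositionStabilizer D ⊓ G₁, ∀ i j, i ≠ j → ∀ v ∈ D i, (s : Mat) *ᵥ v ∈ D j := by
  classical
  have hf := Herm.isUnitary_std (n := n) hF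
  obtain ⟨a, ha0, ha⟩ := Herm.exists_skew hf
  set b := -a⁻¹ with hbdef
  have hb : Herm.frobQ hF b = -b := by rw [hbdef, map_neg, map_inv₀, ha, inv_neg]
  have hab : a * b = -1 := by rw [hbdef, mul_neg, mul_inv_cancel₀ ha0]
  let e := Module.finBasisOfFinrankEq F (D 0) (hD.finrank_eq 0)
  let π : (Fin n → F) →ₗ[F] D 0 := (comp hD 0).codRestrict (D 0) (comp_mem hD 0)
  have hsum : ∀ v, comp hD 0 v + comp hD 1 v = v := fun v => by
    conv_rhs => rw [← sum_comp hD v, Fin.sum_univ_two]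
  choose v hv using fun l : Fin k => Herm.fl_surjective hf (e.coord l ∘ₗ π)
  let w : Fin k → (Fin n → F) := fun l => comp hD 1 (v l)
  have hw : ∀ l, w l ∈ D 1 := fun l => comp_mem hD 1 (v l)
  have hew : ∀ m l, h (e m : Fin n → F) (w l) = if m = l then 1 else 0 := fun m l => by
    have h1 : h (e m : Fin n → F) (v l) = h (e m : Fin n → F) (w l) := by
      conv_lhs => rw [← hsum (v l), Herm.add_right hf, hts 0 _ (e m).2 _ (comp_mem hD 0 _), zero_add]
    rw [← h1, ← Herm.fl_apply hf, hv l, LinearMap.comp_apply,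
      show π (e m : Fin n → F) = e m from Subtype.ext (comp_same hD (e m).2), Module.Basis.coord_apply,
      Module.Basis.repr_self, Finsupp.single_apply]
  have hwe : ∀ l m, h (w l) (e m : Fin n → F) = if m = l then 1 else 0 := fun l m => by
    rw [← Herm.sigma_apply hf (e m : Fin n → F) (w l), hew]; split <;> simp
  have hee : ∀ l, h (e l : Fin n → F) (e l) = 0 := fun l => hts 0 _ (e l).2 _ (e l).2
  have hww : ∀ l, h (w l) (w l) = 0 := fun l => hts 1 _ (hw l) _ (hw l)
  have step : ∀ S : Finset (Fin k), ∃ s ∈ G₁,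
      (∀ l ∈ S, (s : Mat) *ᵥ (e l : Fin n → F) = b • w l ∧ (s : Mat) *ᵥ w l = a • (e l : Fin n → F)) ∧
      (∀ l ∉ S, (s : Mat) *ᵥ (e l : Fin n → F) = e l ∧ (s : Mat) *ᵥ w l = w l) := by
    intro S
    induction S using Finset.induction with
    | empty => exact ⟨1, one_mem _, by simp, fun l _ => by simp⟩
    | @insert m S hm ih =>
      obtain ⟨s, hs, h1, h2⟩ := ih
      set u := Herm.uT hf (hee m) a * Herm.uT hf (hww m) b * Herm.uT hf (hee m) a with hudef
      have hue : (u : Mat) *ᵥ (e m : Fin n → F) = b • w m := by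
        simp only [hudef, Units.val_mul, ← Matrix.mulVec_mulVec, Herm.uT_mulVec, hf.add_left, hf.smul_left,
          hee, hww, hew, hwe, ↓reduceIte, mul_zero, mul_one, zero_smul, add_zero, zero_add]
        match_scalars <;> first | linear_combination hab | linear_combination b * hab | ring
      have huw : (u : Mat) *ᵥ w m = a • (e m : Fin n → F) := by
        simp only [hudef, Units.val_mul, ← Matrix.mulVec_mulVec, Herm.uT_mulVec, hf.add_left, hf.smul_left,
          hee, hww, hew, hwe, ↓reduceIte, mul_zero, mul_one, zero_smul, add_zero, zero_add]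
        match_scalars <;> first | linear_combination a * hab | linear_combination hab | ring
      have hfix : ∀ y, h y (e m : Fin n → F) = 0 → h y (w m) = 0 → (u : Mat) *ᵥ y = y := fun y y1 y2 => by
        simp only [hudef, Units.val_mul, ← Matrix.mulVec_mulVec, Herm.uT_mulVec, y1, y2, mul_zero, zero_smul,
          add_zero]
      have hfixe : ∀ l, l ≠ m → (u : Mat) *ᵥ (e l : Fin n → F) = e l := fun l hl =>
        hfix _ (hts 0 _ (e l).2 _ (e m).2) (by rw [hew, if_neg hl])
      have hfixw : ∀ l, l ≠ m → (u : Mat) *ᵥ w l = w l := fun l hl =>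
        hfix _ (by rw [hwe, if_neg (Ne.symm hl)]) (hts 1 _ (hw l) _ (hw m))
      refine ⟨u * s, mul_mem (mul_mem (mul_mem (Herm.uT_mem_su hF (hee m) ha)
        (Herm.uT_mem_su hF (hww m) hb)) (Herm.uT_mem_su hF (hee m) ha)) hs, fun l hl => ?_, fun l hl => ?_⟩
      · rw [Units.val_mul, ← Matrix.mulVec_mulVec, ← Matrix.mulVec_mulVec]
        rcases Finset.mem_insert.mp hl with rfl | hl'
        · rw [(h2 l hm).1, (h2 l hm).2]; exact ⟨hue, huw⟩
        · have hlm : l ≠ m := fun he => hm (he ▸ hl')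
          rw [(h1 l hl').1, (h1 l hl').2, Matrix.mulVec_smul, Matrix.mulVec_smul, hfixe l hlm, hfixw l hlm]
          exact ⟨rfl, rfl⟩
      · rw [Finset.mem_insert, not_or] at hl
        rw [Units.val_mul, ← Matrix.mulVec_mulVec, ← Matrix.mulVec_mulVec, (h2 l hl.2).1, (h2 l hl.2).2]
        exact ⟨hfixe l hl.1, hfixw l hl.1⟩
  obtain ⟨s, hs, h1, -⟩ := step Finset.univ
  have hspan : ∀ y ∈ D 1, y = ∑ l, h y (e l : Fin n → F) • w l := by
    intro y hy
    set d := y - ∑ l, h y (e l : Fin n → F) • w l with hd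
    have hd1 : d ∈ D 1 := (D 1).sub_mem hy (Submodule.sum_mem _ fun l _ => (D 1).smul_mem _ (hw l))
    have hzero : Herm.fl hf d = 0 := by
      refine LinearMap.ext fun z => ?_
      rw [LinearMap.zero_apply, Herm.fl_apply, ← hsum z, hf.add_left, hts 1 _ (comp_mem hD 1 z) _ hd1,
        add_zero, ← Herm.fl_apply hf, ← show ((⟨_, comp_mem hD 0 z⟩ : D 0) : Fin n → F) = comp hD 0 z from rfl,
        ← e.sum_repr ⟨_, comp_mem hD 0 z⟩, Submodule.coe_sum, map_sum]
      refine Finset.sum_eq_zero fun m _ => ?_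
      rw [Submodule.coe_smul, map_smul, Herm.fl_apply, ← Herm.sigma_apply hf d (e m : Fin n → F)]
      have : h d (e m : Fin n → F) = 0 := by
        rw [hd, Herm.sub_left hf, ← Herm.fl_apply hf (e m : Fin n → F) (∑ l, _), map_sum]
        simp only [map_smul, Herm.fl_apply, hwe, smul_eq_mul, mul_ite, mul_one, mul_zero, Finset.sum_ite_eq,
          Finset.mem_univ, if_true, sub_self]
      rw [this, map_zero, smul_zero]
    exact sub_eq_zero.mp (Herm.fl_injective hf (hzero.trans (LinearMap.ext fun z => (Herm.zero_right hf z).symm)))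
  have m0 : ∀ y ∈ D 0, (s : Mat) *ᵥ y ∈ D 1 := by
    intro y hy
    rw [← show ((⟨y, hy⟩ : D 0) : Fin n → F) = y from rfl, ← e.sum_repr ⟨y, hy⟩, Submodule.coe_sum,
      Matrix.mulVec_sum]
    refine Submodule.sum_mem _ fun l _ => ?_
    rw [Submodule.coe_smul, Matrix.mulVec_smul, (h1 l (Finset.mem_univ l)).1]
    exact (D 1).smul_mem _ ((D 1).smul_mem _ (hw l))
  have m1 : ∀ y ∈ D 1, (s : Mat) *ᵥ y ∈ D 0 := by
    intro y hy
    rw [hspan y hy, Matrix.mulVec_sum]
    refine Submodule.sum_mem _ fun l _ => ?_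
    rw [Matrix.mulVec_smul, (h1 l (Finset.mem_univ l)).2]
    exact (D 0).smul_mem _ ((D 0).smul_mem _ (e l).2)
  have hall : ∀ i j, i ≠ j → ∀ y ∈ D i, (s : Mat) *ᵥ y ∈ D j := by
    intro i j hij
    rcases (show (i = 0 ∧ j = 1) ∨ (i = 1 ∧ j = 0) by omega) with ⟨rfl, rfl⟩ | ⟨rfl, rfl⟩
    · exact m0
    · exact m1
  refine ⟨s, ⟨⟨Equiv.swap 0 1, fun i => Submodule.eq_of_le_of_finrank_eq ?_ ?_⟩, hs⟩, hall⟩
  · rintro _ ⟨y, hy, rfl⟩
    rw [Matrix.toLin'_apply]
    exact hall i _ (by rcases (show i = 0 ∨ i = 1 by omega) with rfl | rfl <;> simp) y hy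
  · rw [← (Submodule.equivMapOfInjective (Matrix.toLin' (s : Mat)) (fun x y hxy => gl_mulVec_injective s
      (by simpa using hxy)) (D i)).finrank_eq, hD.finrank_eq, hD.finrank_eq]

/-- Stabilisers of pairs of complementary totally singular subspaces are maximal in `SU`. -/
theorem su_pair_maximal (hn : 13 ≤ n) (hk : 2 * k = n) (hD : Cfsg.Geo.IsMDecomposition k D)
    (hts : ∀ i, ∀ u ∈ D i, ∀ v ∈ D i, h u v = 0) :
    Cfsg.Geo.IsMaximalIn G₁ (Cfsg.Geo.decompositionStabilizer D ⊓ G₁) := by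
  classical
  have hf := Herm.isUnitary_std (n := n) hF
  obtain ⟨ζ, hζ0, hζ⟩ := Herm.exists_skew hf
  have hinv : ∀ d : F, Herm.frobQ hF d = -d → Herm.frobQ hF d⁻¹ = -d⁻¹ := fun d hd => by
    rw [map_inv₀, hd, inv_neg]
  have hsum : ∀ {i j : Fin 2}, i ≠ j → ∀ v, comp hD i v + comp hD j v = v := by
    intro i j hij v
    conv_rhs => rw [← sum_comp hD v, Fin.sum_univ_two]
    fin_cases i <;> fin_cases j <;> first | exact absurd rfl hij | exact add_comm _ _ | rfl
  -- vectors in the other member with prescribed values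
  have hfind : ∀ {i j : Fin 2}, i ≠ j → ∀ a ∈ D i, ∀ S : Submodule F (Fin n → F), a ∉ S →
      ∃ z ∈ D j, h a z = 1 ∧ ∀ w ∈ D i, w ∈ S → h w z = 0 := by
    intro i j hij a ha S hS
    obtain ⟨φ, h1, h2⟩ := exists_functional hS
    obtain ⟨v, hv⟩ := Herm.fl_surjective hf φ
    have hval : ∀ w ∈ D i, h w (comp hD j v) = φ w := by
      intro w hw
      rw [← hv, Herm.fl_apply]
      conv_rhs => rw [← hsum hij v, Herm.add_right hf, hts i w hw _ (comp_mem hD i v), zero_add]
    exact ⟨comp hD j v, comp_mem hD j v, by rw [hval a ha, h1],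
      fun w hw hwS => by rw [hval w hw]; exact LinearMap.mem_ker.mp (h2 hwS)⟩
  have hne0 : ∀ i, ∃ w ∈ D i, w ≠ (0 : Fin n → F) := fun i => Submodule.exists_mem_ne_zero_of_ne_bot
    (p := D i) (by intro hb; have := hD.finrank_eq i; rw [hb, finrank_bot] at this; exact hD.pos.ne this)
  refine isMaximalIn_of inf_le_right ?_ ?_
  · obtain ⟨u, hu, hu0⟩ := hne0 0
    obtain ⟨w, hw, hwu, -⟩ := hfind (i := 0) (j := 1) (by decide) u hu ⊥ (by simpa using hu0)
    have hwu' : h w u = 1 := by rw [← Herm.sigma_apply hf u w, hwu, map_one]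
    have huu := hts 0 u hu u hu
    refine ⟨Herm.uT hf huu ζ, Herm.uT_mem_su hF huu hζ, fun hh => ?_⟩
    refine not_stab_of_spread hD hw (a := 0) (b := 1) (by decide) ?_ ?_ hh.1 <;>
      rw [Herm.uT_mulVec, map_add, map_smul, hwu', mul_one]
    · rw [comp_other hD (by decide) hw, comp_same hD hu, zero_add]
      exact smul_ne_zero hζ0 hu0
    · rw [comp_same hD hw, comp_other hD (by decide) hu, smul_zero, add_zero]
      rintro rfl
      rw [Herm.zero_right hf] at hwu
      exact zero_ne_one hwu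
  intro M hHM hMK g hg hgH
  have hiso : ∀ m ∈ M, ∀ a b, h ((m : Mat) *ᵥ a) ((m : Mat) *ᵥ b) = h a b := fun m hm => (hMK hm).1
  -- a mixed element
  obtain ⟨i₀, z₀, hz₀, a, b, hab, ha, hb⟩ := exists_spread hD (fun hh => hgH ⟨hh, hMK hg⟩)
  set p := (g : Mat) *ᵥ z₀ with hpdef
  have hp : ∀ i, comp hD i p ≠ 0 := fun i => by
    rcases (show i = a ∨ i = b by omega) with rfl | rfl <;> assumption
  obtain ⟨j₀, hij₀⟩ : ∃ j : Fin 2, i₀ ≠ j := exists_ne i₀ |>.imp fun _ h' => h'.symm
  have hpp : h p p = 0 := by rw [hpdef, hiso g hg]; exact hts i₀ z₀ hz₀ z₀ hz₀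
  have hdimV : Module.finrank F (Fin n → F) = k + k := by rw [Module.finrank_fin_fun]; omega
  have hker : ∀ v : Fin n → F, k + k ≤ Module.finrank F (LinearMap.ker (Herm.fl hf v)) + 1 := fun v => by
    have := (Herm.fl hf v).finrank_range_add_finrank_ker
    have := Submodule.finrank_le (LinearMap.range (Herm.fl hf v))
    rw [Module.finrank_self] at this
    omega
  let Z : Submodule F (Fin n → F) := D j₀ ⊓ LinearMap.ker (Herm.fl hf z₀)
  let T : Fin 2 → (Z →ₗ[F] (Fin n → F)) := fun i => comp hD i ∘ₗ Matrix.mulVecLin (g : Mat) ∘ₗ Z.subtype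
  have hZ : k ≤ Module.finrank F Z + 1 := by
    have h1 := Submodule.finrank_sup_add_finrank_inf_eq (D j₀) (LinearMap.ker (Herm.fl hf z₀))
    have h2 := Submodule.finrank_le (D j₀ ⊔ LinearMap.ker (Herm.fl hf z₀))
    have := hker z₀
    rw [hD.finrank_eq] at h1
    change k ≤ Module.finrank F ↥(D j₀ ⊓ LinearMap.ker (Herm.fl hf z₀)) + 1
    omega
  obtain ⟨i, x₀, hx₀, hr⟩ : ∃ i, ∃ x₀ : Fin n → F, x₀ ∈ Z ∧
      comp hD i ((g : Mat) *ᵥ x₀) ∉ Submodule.span F {comp hD i p} := by
    by_contra hcon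
    push Not at hcon
    have hrange : ∀ i, Module.finrank F (LinearMap.range (T i)) ≤ 1 := by
      intro i
      have hle : LinearMap.range (T i) ≤ Submodule.span F {comp hD i p} := by
        rintro _ ⟨x, rfl⟩; exact hcon i x x.2
      exact le_trans (Submodule.finrank_mono hle) (le_of_eq (finrank_span_singleton (hp i)))
    have h0 := (T 0).finrank_range_add_finrank_ker
    have h1 := (T 1).finrank_range_add_finrank_ker
    have h01 : LinearMap.ker (T 0) ⊓ LinearMap.ker (T 1) = ⊥ := by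
      rw [Submodule.eq_bot_iff]
      rintro x ⟨hx0, hx1⟩
      refine Subtype.ext (gl_mulVec_injective g ?_)
      change (g : Mat) *ᵥ (x : Fin n → F) = (g : Mat) *ᵥ 0
      rw [Matrix.mulVec_zero, ← hsum (show (0 : Fin 2) ≠ 1 by decide) ((g : Mat) *ᵥ (x : Fin n → F))]
      exact (congrArg₂ (· + ·) (LinearMap.mem_ker.mp hx0) (LinearMap.mem_ker.mp hx1)).trans (add_zero 0)
    have h2 := Submodule.finrank_sup_add_finrank_inf_eq (LinearMap.ker (T 0)) (LinearMap.ker (T 1))
    rw [h01, finrank_bot] at h2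
    have h3 := Submodule.finrank_le (LinearMap.ker (T 0) ⊔ LinearMap.ker (T 1))
    have := hrange 0
    have := hrange 1
    omega
  set r := (g : Mat) *ᵥ x₀ with hrdef
  have hz₀x₀ : h z₀ x₀ = 0 := (Herm.eq_zero_comm hf).mp hx₀.2
  have hrr : h r r = 0 := by rw [hrdef, hiso g hg]; exact hts j₀ x₀ hx₀.1 x₀ hx₀.1
  have hpr : h p r = 0 := by rw [hpdef, hrdef, hiso g hg]; exact hz₀x₀
  have hri : comp hD i r ≠ 0 := fun h' => hr (h' ▸ zero_mem _)
  obtain ⟨j, hji⟩ := exists_ne i
  -- `x ∈ D i` orthogonal to `p` and `r`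
  let K₂ : Submodule F (Fin n → F) := D i ⊓ (LinearMap.ker (Herm.fl hf p) ⊓ LinearMap.ker (Herm.fl hf r))
  let S₂ : Submodule F (Fin n → F) := Submodule.span F {comp hD i p, comp hD i r}
  have hS₂ : Module.finrank F S₂ ≤ 2 := by
    calc Module.finrank F S₂
        = Module.finrank F (Submodule.span F (({comp hD i p, comp hD i r} : Finset (Fin n → F)) :
            Set (Fin n → F))) := by rw [Finset.coe_pair]
      _ ≤ ({comp hD i p, comp hD i r} : Finset (Fin n → F)).card := finrank_span_finset_le_card _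
      _ ≤ 2 := Finset.card_le_two
  obtain ⟨x, hxK, hxS⟩ : ∃ x ∈ K₂, x ∉ S₂ := by
    by_contra h'; push Not at h'
    have a1 := Submodule.finrank_sup_add_finrank_inf_eq (LinearMap.ker (Herm.fl hf p)) (LinearMap.ker (Herm.fl hf r))
    have a2 := Submodule.finrank_le (LinearMap.ker (Herm.fl hf p) ⊔ LinearMap.ker (Herm.fl hf r))
    have a3 := Submodule.finrank_sup_add_finrank_inf_eq (D i)
      (LinearMap.ker (Herm.fl hf p) ⊓ LinearMap.ker (Herm.fl hf r))
    have a4 := Submodule.finrank_le (D i ⊔ (LinearMap.ker (Herm.fl hf p) ⊓ LinearMap.ker (Herm.fl hf r)))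
    rw [hD.finrank_eq] at a3
    have := hker p
    have := hker r
    have hK2 : Module.finrank F ↥(D i ⊓ (LinearMap.ker (Herm.fl hf p) ⊓ LinearMap.ker (Herm.fl hf r))) ≤ 2 :=
      le_trans (Submodule.finrank_mono (show K₂ ≤ S₂ from h')) hS₂
    omega
  have hxi : x ∈ D i := hxK.1
  have hxp : h x p = 0 := hxK.2.1
  have hxr : h x r = 0 := hxK.2.2
  have hxx := hts i x hxi x hxi
  -- `z ∈ D j`
  obtain ⟨z, hz, hz1, hz2⟩ := hfind hji.symm (comp hD i p) (comp_mem hD i p)
    (Submodule.span F {comp hD i r, x}) (fun hmem => by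
      obtain ⟨a', b', hab'⟩ := Submodule.mem_span_pair.mp hmem
      by_cases hb' : b' = 0
      · rw [hb', zero_smul, add_zero] at hab'
        refine hr (Submodule.mem_span_singleton.mpr ⟨a'⁻¹, ?_⟩)
        have : a' ≠ 0 := fun h' => hp i (by rw [← hab', h', zero_smul])
        rw [← hab', smul_smul, inv_mul_cancel₀ this, one_smul]
      · refine hxS ?_
        have e : x = b'⁻¹ • comp hD i p - (b'⁻¹ * a') • comp hD i r := by
          rw [← hab', smul_add, smul_smul, smul_smul, inv_mul_cancel₀ hb', one_smul]; abel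
        rw [e]
        exact sub_mem (Submodule.smul_mem _ _ (Submodule.subset_span (by simp)))
          (Submodule.smul_mem _ _ (Submodule.subset_span (by simp))))
  have hright : ∀ v, ∀ z' ∈ D j, h v z' = h (comp hD i v) z' := by
    intro v z' hz'
    conv_lhs => rw [← hsum hji.symm v, hf.add_left, hts j _ (comp_mem hD j v) z' hz', add_zero]
  have hzr : h z r = 0 := (Herm.eq_zero_comm hf).mp (by
    rw [hright r z hz]; exact hz2 _ (comp_mem hD i r) (Submodule.subset_span (by simp)))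
  have hxz : h x z = 0 := hz2 x hxi (Submodule.subset_span (by simp))
  have hpz : h p z = 1 := by rw [hright p z hz, hz1]
  have hzz := hts j z hz z hz
  have hgX : ∀ d, uX hf hpp hrr hpr d ∈ M := fun d => by
    rw [← conj_uX hf (hiso g hg) (hts i₀ z₀ hz₀ z₀ hz₀) (hts j₀ x₀ hx₀.1 x₀ hx₀.1) hz₀x₀ d hpp hrr hpr]
    exact M.mul_mem (M.mul_mem hg (hHM ⟨uX_stab hf hts hij₀ hz₀ hx₀.1 _ _ _ d, uX_mem_su hF _ _ _ d⟩))
      (M.inv_mem hg)
  have hxrM : ∀ c, uX hf hxx hrr hxr c ∈ M := fun c => by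
    have hmem := hHM ⟨uX_stab hf hts hji.symm hxi hz hxx hzz hxz c, uX_mem_su hF hxx hzz hxz c⟩
    have := M.mul_mem (M.mul_mem (M.mul_mem hmem (hgX 1)) (M.inv_mem hmem)) (M.inv_mem (hgX 1))
    rwa [uX_commutator hf hxx hzz hxz hpp hrr hpr hxp hxr hzr, hpz, mul_one, mul_one] at this
  -- a transvection with centre `x`
  have hx0 : x ≠ 0 := fun h' => hxS (h' ▸ zero_mem _)
  obtain ⟨z', hz', hz'1, hz'2⟩ := hfind hji.symm (comp hD i r) (comp_mem hD i r) (Submodule.span F {x})
    (fun hmem => by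
      obtain ⟨a', ha'⟩ := Submodule.mem_span_singleton.mp hmem
      refine hxS ?_
      have : a' ≠ 0 := fun h' => hri (by rw [← ha', h', zero_smul])
      rw [show x = a'⁻¹ • comp hD i r by rw [← ha', smul_smul, inv_mul_cancel₀ this, one_smul]]
      exact Submodule.smul_mem _ _ (Submodule.subset_span (by simp)))
  have hxz' : h x z' = 0 := hz'2 x hxi (Submodule.mem_span_singleton_self x)
  have hrz' : h r z' = 1 := by rw [hright r z' hz', hz'1]
  have hz'z' := hts j z' hz' z' hz'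
  have hxC : x ∈ Herm.centres hf M := ⟨hxx, fun d hd => by
    obtain ⟨c, hc⟩ : ∃ c, c - Herm.frobQ hF c = d := by
      obtain ⟨y, hy⟩ := exists_sub_eq hF (a := d) (by rw [← Herm.frobQ_apply hF, hd, add_neg_cancel])
      first
        | exact ⟨y, by rw [Herm.frobQ_apply hF]; linear_combination hy⟩
        | exact ⟨-y, by rw [map_neg, Herm.frobQ_apply hF]; linear_combination hy⟩
    have hmem := hHM ⟨uX_stab hf hts hji.symm hxi hz' hxx hz'z' hxz' 1, uX_mem_su hF hxx hz'z' hxz' 1⟩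
    have := M.mul_mem (M.mul_mem (M.mul_mem hmem (hxrM c)) (M.inv_mem hmem)) (M.inv_mem (hxrM c))
    rwa [uX_commutator_trans hf hxx hz'z' hxz' hrr hxr hrz', hc] at this⟩
  -- the members are covered
  have hcover : ∀ (l l' : Fin 2), l ≠ l' → ∀ u ∈ D l, u ≠ 0 → u ∈ Herm.centres hf M →
      ∀ u' ∈ D l, u' ∈ Herm.centres hf M := by
    intro l l' hll u hu hu0 huC u' hu'
    by_cases hsp : u' ∈ Submodule.span F {u}
    · obtain ⟨a', rfl⟩ := Submodule.mem_span_singleton.mp hsp
      exact Herm.centres_smul hf huC a'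
    obtain ⟨w, hw, hw1, hw2⟩ := hfind hll u hu (Submodule.span F {u' - u}) (fun hmem => by
      obtain ⟨a', ha'⟩ := Submodule.mem_span_singleton.mp hmem
      have : a' ≠ 0 := fun h' => hu0 (by rw [← ha', h', zero_smul])
      refine hsp (Submodule.mem_span_singleton.mpr ⟨a'⁻¹ + 1, ?_⟩)
      rw [add_smul, one_smul]
      conv_lhs => arg 1; rw [← ha', smul_smul, inv_mul_cancel₀ this, one_smul]
      abel)
    have h0 : h (u' - u) w = 0 := hw2 _ ((D l).sub_mem hu' hu) (Submodule.mem_span_singleton_self _)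
    have hd := (D l).sub_mem hu' hu
    have hmem := hHM ⟨uX_stab hf hts hll hd hw (hts l _ hd _ hd) (hts l' w hw w hw) h0 1,
      uX_mem_su hF (hts l _ hd _ hd) (hts l' w hw w hw) h0 1⟩
    have := Herm.centres_conj hf hiso hmem huC
    rw [uX_mulVec, hts l u hu _ hd, hw1, one_mul, one_smul, mul_zero, zero_smul, sub_zero,
      add_sub_cancel] at this
    exact this
  obtain ⟨s, hs, hsmap⟩ := exists_upair_swap hF hD hts
  have hxC' := Herm.centres_conj hf hiso (hHM hs) hxC
  have hsx0 : (s : Mat) *ᵥ x ≠ 0 := fun h' =>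
    hx0 (gl_mulVec_injective s (h'.trans (Matrix.mulVec_zero _).symm))
  have hCD : ∀ l, ∀ v ∈ D l, v ∈ Herm.centres hf M := by
    intro l v hv
    by_cases hl : l = i
    · exact hcover i j hji.symm x hxi hx0 hxC v (hl ▸ hv)
    · exact hcover l i hl _ (hsmap i l (Ne.symm hl) x hxi) hsx0 hxC' v hv
  -- transvections centred in the members generate everything
  have h01 : (0 : Fin 2) ≠ 1 := by decide
  have hgen : ∀ u ∈ D 0, ∀ w ∈ D 1, h u w + h w u = 0 → h w u ≠ 0 → u + w ∈ Herm.centres hf M := by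
    intro u hu w hw huw hne
    have hsk : Herm.frobQ hF (h w u) = -h w u := by
      rw [Herm.sigma_apply hf]; linear_combination huw
    obtain ⟨huu, hTu⟩ := hCD 0 u hu
    have := Herm.centres_conj hf hiso (hTu _ (hinv _ hsk)) (hCD 1 w hw)
    rw [Herm.uT_mulVec, inv_mul_cancel₀ hne, one_smul, add_comm] at this
    exact this
  refine Herm.su_le_of_uT hF (by omega) fun v hvv d hd => ?_
  suffices hv : v ∈ Herm.centres hf M by
    obtain ⟨_, hv'⟩ := hv
    exact hv' d hd
  set u := comp hD 0 v with hu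
  set w := comp hD 1 v with hw
  have hv : v = u + w := (hsum h01 v).symm
  have hu' : u ∈ D 0 := comp_mem hD 0 v
  have hw' : w ∈ D 1 := comp_mem hD 1 v
  by_cases hw0 : w = 0
  · exact hCD 0 v (by rw [hv, hw0, add_zero]; exact hu')
  have huw : h u w + h w u = 0 := by
    rw [hv, hf.add_left, Herm.add_right hf, Herm.add_right hf, hts 0 u hu' u hu', hts 1 w hw' w hw'] at hvv
    linear_combination hvv
  by_cases hμ : h w u = 0
  · obtain ⟨u₁, hu₁, hu₁1, -⟩ := hfind h01.symm w hw' ⊥ (by simpa using hw0)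
    have hu₁w : h (ζ • u₁) w = ζ := by
      rw [hf.smul_left, ← Herm.sigma_apply hf w u₁, hu₁1, map_one, mul_one]
    have hwu₁ : h w (ζ • u₁) = -ζ := by rw [← Herm.sigma_apply hf _ w, hu₁w, hζ]
    have hu₁' : ζ • u₁ ∈ D 0 := (D 0).smul_mem _ hu₁
    obtain ⟨hmm, hTm⟩ := hgen _ hu₁' w hw' (by rw [hu₁w, hwu₁, add_neg_cancel])
      (by rw [hwu₁]; exact neg_ne_zero.mpr hζ0)
    have := Herm.centres_conj hf hiso (hTm _ (hinv _ (by rw [map_neg, hζ]) : _)) (hCD 0 _ ((D 0).sub_mem hu' hu₁'))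
    rw [Herm.uT_mulVec, Herm.add_right hf, hts 0 _ ((D 0).sub_mem hu' hu₁') _ hu₁', zero_add,
      Herm.sub_left hf, show h u w = 0 by linear_combination huw - hμ, hu₁w, zero_sub,
      inv_mul_cancel₀ (neg_ne_zero.mpr hζ0), one_smul] at this
    rw [hv]
    convert this using 1
    abel
  · rw [hv]; exact hgen u hu' w hw' huw hμ

end Cfsg.Agent.H3
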