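import Cfsg.Agent.H3.UFrame

set_option autoImplicit false
set_option linter.unusedSectionVars false

/-!
# Coordinate decompositions of a unitary space

Every non-degenerate orthogonal decomposition is a coordinate decomposition after a change of orthonormal
basis; monomial elements of `SU` permute its members.
-/

namespace Cfsg.Agent.H3

open scoped Matrix
open Cfsg.Agent.H98

variable {F : Type*} [Field F] [Fintype F] {q n t k : ℕ}

local notation "Mat" => Matrix (Fin n) (Fin n) F
local notation "h" => Cfsg.hermForm n F q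
local notation "G₁" => Cfsg.GU n F q ⊓ Cfsg.Geo.specialLinear (Fin n) F

/-- The coordinate decomposition attached to an indexing of the coordinates. -/
def stdDec (F : Type*) [Field F] {n t k : ℕ} (idx : Fin t × Fin k ≃ Fin n) (i : Fin t) :
    Submodule F (Fin n → F) where
  carrier := {v | ∀ l, (idx.symm l).1 ≠ i → v l = 0}
  zero_mem' := fun _ _ => rfl
  add_mem' := fun ha hb l hl => by simp [ha l hl, hb l hl]
  smul_mem' := fun c v hv l hl => by simp [hv l hl]

theorem mem_stdDec {idx : Fin t × Fin k ≃ Fin n} {i : Fin t} {v : Fin n → F} :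
    v ∈ stdDec F idx i ↔ ∀ l, (idx.symm l).1 ≠ i → v l = 0 := Iff.rfl

theorem single_mem_stdDec (idx : Fin t × Fin k ≃ Fin n) (l : Fin n) (a : F) :
    (Pi.single l a : Fin n → F) ∈ stdDec F idx (idx.symm l).1 := fun l' hl' =>
  Pi.single_eq_of_ne (fun (e : l' = l) => hl' (by rw [e])) _

/-- Maximality is preserved by isomorphisms. -/
theorem isMaximalIn_map {G : Type*} [Group G] (φ : G ≃* G) {K H : Subgroup G}
    (hm : Cfsg.Geo.IsMaximalIn K H) : Cfsg.Geo.IsMaximalIn (K.map φ.toMonoidHom) (H.map φ.toMonoidHom) := by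
  obtain ⟨hlt, hmax⟩ := hm
  refine ⟨(Subgroup.map_lt_map_iff_of_injective φ.injective).mpr hlt, fun M hHM hMK => ?_⟩
  have h1 : H ≤ M.comap φ.toMonoidHom := Subgroup.map_le_iff_le_comap.mp hHM
  have h2 : M.comap φ.toMonoidHom ≤ K := fun x hx => by
    obtain ⟨y, hy, hyx⟩ := hMK hx
    exact φ.injective hyx ▸ hy
  have hM : (M.comap φ.toMonoidHom).map φ.toMonoidHom = M :=
    Subgroup.map_comap_eq_self_of_surjective φ.surjective M
  rcases hmax _ h1 h2 with h3 | h3
  · exact Or.inl (by rw [← hM, h3])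
  · exact Or.inr (by rw [← hM, h3])

/-- An orthonormal basis adapted to a decomposition. -/
theorem exists_std (hF : Fintype.card F = q ^ 2) {D : Fin t → Submodule F (Fin n → F)}
    (hD : Cfsg.Geo.IsNondegenerateMDecomposition (Cfsg.hermForm n F q) k D) :
    ∃ (idx : Fin t × Fin k ≃ Fin n) (P : GL (Fin n) F), P ∈ Cfsg.GU n F q ∧
      ∀ i, D i = (stdDec F idx i).map (Matrix.toLin' (P : Mat)) := by
  classical
  have hf := Herm.isUnitary_std (n := n) hF
  have hcard : n = t * k := by
    have := mdec_dim hD.decomp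
    rwa [Fintype.card_fin] at this
  have hbasis : ∀ i, ∀ j ≤ k, ∃ b : Fin j → (Fin n → F), (∀ a, b a ∈ D i) ∧
      ∀ a a', h (b a) (b a') = if a = a' then 1 else 0 := by
    intro i j
    induction j with
    | zero => exact fun _ => ⟨fun a => a.elim0, fun a => a.elim0, fun a => a.elim0⟩
    | succ j ih =>
      intro hj
      obtain ⟨b, hb, hbb⟩ := ih (by omega)
      let P : (Fin n → F) → (Fin n → F) := fun x => x - ∑ a, h x (b a) • b a
      let W : Submodule F (Fin n → F) := D i ⊓ ⨅ a, LinearMap.ker (Herm.fl hf (b a))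
      have hmem : ∀ x, x ∈ W ↔ x ∈ D i ∧ ∀ a, h x (b a) = 0 := fun x => by
        simp [W, Herm.fl_apply]
      have hP : ∀ x ∈ D i, P x ∈ W := fun x hx => (hmem _).mpr
        ⟨(D i).sub_mem hx (Submodule.sum_mem _ fun a _ => (D i).smul_mem _ (hb a)), fun a => by
          rw [← Herm.fl_apply hf, map_sub, map_sum]
          simp [Herm.fl_apply, hbb]⟩
      have hW : Cfsg.Geo.IsNondegenerateOn h W := by
        intro w hw hw0
        have hw' := (hmem w).mp hw
        obtain ⟨x, hx, hxw⟩ := (hD.nondegenerate i w hw'.1 hw0).1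
        have h1 : h (P x) w = h x w := by
          rw [← Herm.fl_apply hf, map_sub, map_sum]
          simp only [map_smul, Herm.fl_apply]
          rw [Finset.sum_eq_zero fun a _ => by
            rw [(Herm.eq_zero_comm hf).mp (hw'.2 a), smul_zero], sub_zero]
        exact ⟨⟨P x, hP x hx, h1 ▸ hxw⟩, ⟨P x, hP x hx, fun e => hxw (h1 ▸ (Herm.eq_zero_comm hf).mp e)⟩⟩
      obtain ⟨x, hx, hxs⟩ : ∃ x ∈ D i, x ∉ Submodule.span F (Set.range b) := by
        by_contra hc
        push Not at hc
        have h1 := Submodule.finrank_mono (show D i ≤ Submodule.span F (Set.range b) from hc)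
        have h2 := finrank_range_le_card (R := F) b
        rw [Set.finrank] at h2
        rw [hD.decomp.finrank_eq] at h1
        simp at h2
        omega
      obtain ⟨v, hv, hv0⟩ := exists_nonisotropic_in hf hW (hP x hx) (fun e => hxs (by
        rw [sub_eq_zero.mp e]
        exact Submodule.sum_mem _ fun a _ => Submodule.smul_mem _ _ (Submodule.subset_span ⟨a, rfl⟩)))
      obtain ⟨c, hc⟩ := exists_norm_eq hF (μ := (h v v)⁻¹) (by rw [inv_pow, hermForm_pow_q hF])
      have hv' := (hmem v).mp hv
      refine ⟨Fin.snoc b (c • v), fun a => ?_, fun a a' => ?_⟩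
      · induction a using Fin.lastCases with
        | last => rw [Fin.snoc_last]; exact (D i).smul_mem _ hv'.1
        | cast a => rw [Fin.snoc_castSucc]; exact hb a
      · induction a using Fin.lastCases with
        | last =>
          induction a' using Fin.lastCases with
          | last =>
            simp only [Fin.snoc_last, ↓reduceIte]
            rw [hermForm_smul_left hF, hermForm_smul_right hF, ← mul_assoc, ← pow_succ', hc, inv_mul_cancel₀ hv0]
          | cast a' =>
            simp only [Fin.snoc_last, Fin.snoc_castSucc]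
            rw [if_neg (Fin.castSucc_lt_last a').ne', hermForm_smul_left hF, hv'.2, mul_zero]
        | cast a =>
          induction a' using Fin.lastCases with
          | last =>
            simp only [Fin.snoc_last, Fin.snoc_castSucc]
            rw [if_neg (Fin.castSucc_lt_last a).ne, hermForm_smul_right hF,
              (hermForm_eq_zero_comm hF).mp (hv'.2 a), mul_zero]
          | cast a' => simpa using hbb a a'
  choose b hb hbb using fun i => hbasis i k le_rfl
  let idx : Fin t × Fin k ≃ Fin n := finProdFinEquiv.trans (finCongr hcard.symm)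
  let B : Fin n → (Fin n → F) := fun l => b (idx.symm l).1 (idx.symm l).2
  have hB : Orth (hermB hF n) B := by
    intro l l'
    rw [hermB_apply]
    simp only [B]
    by_cases h1 : (idx.symm l').1 = (idx.symm l).1
    · rw [h1, hbb]
      by_cases h2 : (idx.symm l').2 = (idx.symm l).2
      · rw [if_pos h2, if_pos (idx.symm.injective (Prod.ext h1.symm h2.symm))]
      · rw [if_neg h2, if_neg (fun e => h2 (by rw [e]))]
    · rw [hD.orthogonal _ _ h1 _ (hb _ _) _ (hb _ _), if_neg (fun e => h1 (by rw [e]))]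
  obtain ⟨P, hP⟩ := exists_GU_of_orth hF B hB
  refine ⟨idx, P.1, P.2, fun i => le_antisymm (fun v hv => ?_) ?_⟩
  · refine ⟨((P.1⁻¹ : GL (Fin n) F) : Mat) *ᵥ v, fun l hl => ?_, ?_⟩
    · rw [← herm_single_right hF (((P.1⁻¹ : GL (Fin n) F) : Mat) *ᵥ v) l, ← GU_preserves P, gl_mulVec_inv,
        hP l]
      exact hD.orthogonal _ _ (Ne.symm hl) v hv _ (hb _ _)
    · rw [Matrix.toLin'_apply, gl_mulVec_inv]
  · rintro _ ⟨x, hx, rfl⟩
    rw [Matrix.toLin'_apply, ← Finset.univ_sum_single x, Matrix.mulVec_sum]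
    refine Submodule.sum_mem _ fun l _ => ?_
    rw [show (Pi.single l (x l) : Fin n → F) = x l • Pi.single l 1 by rw [← Pi.single_smul, smul_eq_mul, mul_one],
      Matrix.mulVec_smul, hP l]
    by_cases hl : (idx.symm l).1 = i
    · exact (D i).smul_mem _ (hl ▸ hb _ _)
    · rw [hx l hl, zero_smul]; exact zero_mem _

/-- Reduction to coordinate decompositions. -/
theorem maximal_of_std (hF : Fintype.card F = q ^ 2) {D : Fin t → Submodule F (Fin n → F)}
    (hD : Cfsg.Geo.IsNondegenerateMDecomposition (Cfsg.hermForm n F q) k D)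
    (hmax : ∀ idx : Fin t × Fin k ≃ Fin n,
      Cfsg.Geo.IsMaximalIn G₁ (Cfsg.Geo.decompositionStabilizer (stdDec F idx) ⊓ G₁)) :
    Cfsg.Geo.IsMaximalIn G₁ (Cfsg.Geo.decompositionStabilizer D ⊓ G₁) := by
  obtain ⟨idx, P, hP, hDP⟩ := exists_std hF hD
  have hm := isMaximalIn_map (MulAut.conj P) (hmax idx)
  have hK : (G₁).map (MulAut.conj P).toMonoidHom = G₁ := by
    ext x
    rw [Subgroup.mem_map]
    constructor
    · rintro ⟨y, hy, rfl⟩
      refine ⟨(Cfsg.GU n F q).mul_mem ((Cfsg.GU n F q).mul_mem hP hy.1) ((Cfsg.GU n F q).inv_mem hP), ?_⟩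
      have hy2 : Matrix.GeneralLinearGroup.det y = 1 := MonoidHom.mem_ker.mp hy.2
      refine MonoidHom.mem_ker.mpr ?_
      simp [MulAut.conj_apply, map_mul, map_inv, hy2]
    · intro hx
      refine ⟨P⁻¹ * x * P, ⟨(Cfsg.GU n F q).mul_mem ((Cfsg.GU n F q).mul_mem ((Cfsg.GU n F q).inv_mem hP) hx.1) hP,
        MonoidHom.mem_ker.mpr ?_⟩, ?_⟩
      · simp [map_mul, map_inv, MonoidHom.mem_ker.mp hx.2]
      · simp [MulAut.conj_apply, mul_assoc]
  have hS : (Cfsg.Geo.decompositionStabilizer (stdDec F idx) ⊓ G₁).map (MulAut.conj P).toMonoidHom =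
      Cfsg.Geo.decompositionStabilizer D ⊓ G₁ := by
    rw [Subgroup.map_inf_eq _ _ _ (MulAut.conj P).injective, hK]
    congr 1
    have hlin : ∀ (a b : GL (Fin n) F) (W : Submodule F (Fin n → F)),
        W.map (Matrix.toLin' ((a * b : GL (Fin n) F) : Mat)) =
          (W.map (Matrix.toLin' (b : Mat))).map (Matrix.toLin' (a : Mat)) := fun a b W => by
      rw [Units.val_mul, Matrix.toLin'_mul, Submodule.map_comp]
    ext x
    rw [Subgroup.mem_map]
    constructor
    · rintro ⟨y, ⟨π, hπ⟩, rfl⟩
      refine ⟨π, fun i => ?_⟩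
      rw [hDP, hDP, ← hlin, show (MulAut.conj P).toMonoidHom y * P = P * y by simp [MulAut.conj_apply],
        hlin, hπ]
    · rintro ⟨π, hπ⟩
      refine ⟨P⁻¹ * x * P, ⟨π, fun i => ?_⟩, by simp [MulAut.conj_apply, mul_assoc]⟩
      rw [hlin, hlin, ← hDP, hπ, hDP, ← hlin, inv_mul_cancel]
      simp
  rwa [hK, hS] at hm

/-! ### Monomial elements -/

/-- Every permutation of the coordinates is induced by an element of `SU`, up to signs. -/
theorem exists_mono (hF : Fintype.card F = q ^ 2) (π : Equiv.Perm (Fin n)) (l₀ : Fin n) :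
    ∃ m ∈ G₁, ∃ s : Fin n → F, (∀ l, s l ^ (q + 1) = 1) ∧
      ∀ v : Fin n → F, ((m : GL (Fin n) F) : Mat) *ᵥ v = fun l => s l * v (π.symm l) := by
  classical
  have hdet : (Equiv.Perm.permMatrix F π.symm).det = ((Equiv.Perm.sign π.symm : ℤ) : F) := Matrix.det_permutation ..
  set ε : F := ((Equiv.Perm.sign π.symm : ℤ) : F) with hε
  have hε2 : ε * ε = 1 := by
    rw [hε, ← Int.cast_mul, ← Units.val_mul, Int.units_mul_self]; simp
  have hεn : ε ^ (q + 1) = 1 := by
    rcases mul_self_eq_one_iff.mp hε2 with h1 | h1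
    · rw [h1, one_pow]
    · rw [h1, pow_succ, ← conjQ_apply hF, map_neg, map_one]; ring
  let s : Fin n → F := Function.update 1 l₀ ε
  have hs : ∀ l, s l ^ (q + 1) = 1 := fun l => by
    by_cases hl : l = l₀ <;> simp [s, hl, hεn]
  let A : Mat := (guDiag (q := q) s hs).1 * Equiv.Perm.permMatrix F π.symm
  have hact : ∀ v, A *ᵥ v = fun l => s l * v (π.symm l) := fun v => by
    funext l
    simp [A, ← Matrix.mulVec_mulVec, guDiag, Matrix.mulVec_diagonal, Matrix.permMatrix_mulVec]
  have hA : A.det = 1 := by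
    simp only [A, guDiag, Units.val_mk, Matrix.det_mul, Matrix.det_diagonal, hdet]
    simp [s, Finset.prod_update_of_mem, hε2]
  refine ⟨Matrix.GeneralLinearGroup.mkOfDetNeZero A (by rw [hA]; exact one_ne_zero), ⟨mem_GU_iff.2 ?_, ?_⟩, s, hs,
    hact⟩
  · intro u v
    change h (A *ᵥ u) (A *ᵥ v) = _
    rw [hact, hact]
    unfold Cfsg.hermForm
    refine Fintype.sum_equiv π.symm _ _ fun l => ?_
    rw [mul_pow]
    have := norm_one_conj hF (hs l)
    linear_combination (u (π.symm l) * v (π.symm l) ^ q) * this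
  · exact MonoidHom.mem_ker.mpr (Units.ext hA)

/-- A monomial element mapping coordinate blocks to coordinate blocks stabilises the decomposition. -/
theorem mono_stab (idx : Fin t × Fin k ≃ Fin n) (π : Equiv.Perm (Fin n)) (τ : Equiv.Perm (Fin t))
    (hπ : ∀ l, (idx.symm (π l)).1 = τ (idx.symm l).1) {m : GL (Fin n) F} {s : Fin n → F}
    (hs : ∀ l, s l ≠ 0) (hm : ∀ v : Fin n → F, (m : Mat) *ᵥ v = fun l => s l * v (π.symm l)) :
    m ∈ Cfsg.Geo.decompositionStabilizer (stdDec F idx) := by
  refine ⟨τ, fun i => ?_⟩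
  ext x
  rw [Submodule.mem_map]
  constructor
  · rintro ⟨v, hv, rfl⟩
    intro l hl
    rw [Matrix.toLin'_apply, hm]
    have := hπ (π.symm l)
    rw [Equiv.apply_symm_apply] at this
    simp [hv (π.symm l) (fun e => hl (by rw [this, e]))]
  · intro hx
    refine ⟨fun l => x (π l) / s (π l), fun l hl => ?_, ?_⟩
    · simp [hx (π l) (fun e => hl (τ.injective (by rw [← hπ, e])))]
    · rw [Matrix.toLin'_apply, hm]
      funext l
      simp [mul_div_cancel₀ _ (hs l)]

/-- Elements of `SU` preserving every member. -/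
theorem mem_stab_std (idx : Fin t × Fin k ≃ Fin n) {m : GL (Fin n) F}
    (hm : ∀ i, ∀ w ∈ stdDec F idx i, (m : Mat) *ᵥ w ∈ stdDec F idx i) :
    m ∈ Cfsg.Geo.decompositionStabilizer (stdDec F idx) := stab_of_members hm

/-- The diagonal lies in the stabiliser. -/
theorem hasDiag_of_le {idx : Fin t × Fin k ≃ Fin n} {M : Subgroup (GL (Fin n) F)}
    (hHM : Cfsg.Geo.decompositionStabilizer (stdDec F idx) ⊓ G₁ ≤ M) : HasDiag q M := by
  intro d hd hp
  refine hHM ⟨stab_of_members fun i w hw l hl => ?_, (guDiag (q := q) d hd).2, MonoidHom.mem_ker.mpr (Units.ext ?_)⟩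
  · simp [guDiag, Matrix.mulVec_diagonal, hw l hl]
  · simp [guDiag, hp]

/-- Coordinate decompositions are decompositions. -/
theorem stdDec_mdec (ht : 2 ≤ t) (hk : 0 < k) (idx : Fin t × Fin k ≃ Fin n) :
    Cfsg.Geo.IsMDecomposition k (stdDec F idx) where
  two_le := ht
  pos := hk
  finrank_eq := fun i => by
    classical
    let e : stdDec F idx i ≃ₗ[F] (Fin k → F) :=
      { toFun := fun v a => (v : Fin n → F) (idx (i, a))
        map_add' := fun _ _ => rfl
        map_smul' := fun _ _ => rfl
        invFun := fun y => ⟨fun l => if (idx.symm l).1 = i then y (idx.symm l).2 else 0,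
          fun l hl => if_neg hl⟩
        left_inv := fun v => Subtype.ext (funext fun l => by
          by_cases hl : (idx.symm l).1 = i
          · subst hl; simp
          · simp [hl, v.2 l hl])
        right_inv := fun y => funext fun a => by simp }
    rw [e.finrank_eq, Module.finrank_pi, Fintype.card_fin]
  indep := by
    intro i
    rw [Submodule.disjoint_def]
    intro x hx hx'
    funext l
    by_cases hl : (idx.symm l).1 = i
    · let L : Submodule F (Fin n → F) := LinearMap.ker (LinearMap.proj l)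
      have hle : (⨆ (j) (_ : j ≠ i), stdDec F idx j) ≤ L := iSup₂_le fun j hj v hv =>
        hv l (fun e => hj (e.symm.trans hl))
      exact hle hx'
    · exact hx l hl
  iSup_eq_top := by
    refine eq_top_iff.mpr fun x _ => ?_
    rw [← Finset.univ_sum_single x]
    exact Submodule.sum_mem _ fun l _ => Submodule.mem_iSup_of_mem _ (single_mem_stdDec idx l (x l))

/-- Coordinate decompositions are orthogonal. -/
theorem stdDec_orth (hF : Fintype.card F = q ^ 2) {idx : Fin t × Fin k ≃ Fin n} {i j : Fin t} (hij : i ≠ j)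
    {u v : Fin n → F} (hu : u ∈ stdDec F idx i) (hv : v ∈ stdDec F idx j) : h u v = 0 := by
  refine Finset.sum_eq_zero fun l _ => ?_
  by_cases hl : (idx.symm l).1 = i
  · rw [hv l (hl ▸ hij), zero_pow (by have := two_le_q hF; omega), mul_zero]
  · rw [hu l hl, zero_mul]

end Cfsg.Agent.H3
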